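import Mathlib
import Cfsg.Agent.Helper13.TIDefs

set_option autoImplicit false

/-!
# S5955 piece BLKH (helper59): an element of order `r` in the extension of degree `i`.
-/

namespace Cfsg.Agent.Helper59.TI5955

open Module Polynomial
open Cfsg.Agent.Helper42.SpForm Cfsg.Agent.Helper42.SpGroup Cfsg.Agent.Helper42.SpModels
open Cfsg.Agent.Helper13.TIsp Cfsg.Agent.Helper90.BG

section field

variable (F : Type*) [Field F] [Fintype F]

/-- BLKH: an element of order `r` in the extension of degree `i`. -/
theorem blk_hyp (p : ℕ) [Fact p.Prime] [CharP F p] (i : ℕ) [NeZero i]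
    (r : ℕ) [Fact r.Prime] (hr : r ∣ Fintype.card F ^ i - 1) :
    ∃ ω : FiniteField.Extension F p i, ω ^ r = 1 ∧ ω ≠ 1 := by
  have hcard : Nat.card (FiniteField.Extension F p i)ˣ = Fintype.card F ^ i - 1 := by
    rw [Nat.card_units, FiniteField.natCard_extension, Nat.card_eq_fintype_card]
  have hdvd : r ∣ Nat.card (FiniteField.Extension F p i)ˣ := by rw [hcard]; exact hr
  obtain ⟨u, hu⟩ := exists_prime_orderOf_dvd_card' r hdvd
  refine ⟨(u : FiniteField.Extension F p i), ?_, ?_⟩
  · have h := pow_orderOf_eq_one u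
    rw [hu] at h
    rw [← Units.val_pow_eq_pow_val, h, Units.val_one]
  · intro h1
    have h2 : u = 1 := Units.ext h1
    rw [h2, orderOf_one] at hu
    exact (Fact.out : r.Prime).one_lt.ne hu

end field

end Cfsg.Agent.Helper59.TI5955
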