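import Mathlib
import Cfsg.Agent.Helper13.TIDefs

set_option autoImplicit false

/-!
# S5955 piece JBAD (helper59): if `-1` is not a square, the symplectic matrix `J` squares to `-1`,
is not scalar, and all its invariant subspaces have even dimension.
-/

namespace Cfsg.Agent.Helper59.TI5955

open Module Polynomial
open Cfsg.Agent.Helper42.SpForm Cfsg.Agent.Helper42.SpGroup Cfsg.Agent.Helper42.SpModels
open Cfsg.Agent.Helper13.TIsp Cfsg.Agent.Helper90.BG

section sp

variable {F : Type*} [Field F]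

/-- `X² + 1` is irreducible when `-1` is not a square -/
theorem jbad_irr (hsq : ¬ IsSquare (-1 : F)) : Irreducible (X ^ 2 + 1 : F[X]) := by
  have hdeg : (X ^ 2 + 1 : F[X]).natDegree = 2 := by
    rw [show (X ^ 2 + 1 : F[X]) = X ^ 2 + C 1 by simp]
    exact natDegree_X_pow_add_C
  apply Polynomial.irreducible_of_degree_le_three_of_not_isRoot
  · rw [hdeg]; simp
  · intro a ha
    apply hsq
    have h : a ^ 2 + 1 = 0 := by simpa [IsRoot] using ha
    exact ⟨a, by linear_combination -h⟩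

/-- JBAD -/
theorem sp_jbad [Fintype F] (d : ℕ) (hd : 1 ≤ d) (hsq : ¬ IsSquare (-1 : F)) :
    ∃ x : Matrix.symplecticGroup (Fin d) F,
      ((x ^ 2 : Matrix.symplecticGroup (Fin d) F) : Matrix (Fin d ⊕ Fin d) (Fin d ⊕ Fin d) F) =
        (-1 : F) • (1 : Matrix (Fin d ⊕ Fin d) (Fin d ⊕ Fin d) F) ∧
      (∀ z : F, (x : Matrix (Fin d ⊕ Fin d) (Fin d ⊕ Fin d) F) ≠ z • 1) ∧
      ∀ W : Submodule F (Fin d ⊕ Fin d → F),
        W.map (Matrix.toLin' (x : Matrix (Fin d ⊕ Fin d) (Fin d ⊕ Fin d) F)) ≤ W →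
          Even (finrank F W) := by
  classical
  have hJJ : Matrix.J (Fin d) F * Matrix.J (Fin d) F = -1 := Matrix.J_squared (Fin d) F
  refine ⟨⟨Matrix.J (Fin d) F, SymplecticGroup.J_mem (Fin d) F⟩, ?_, ?_, ?_⟩
  · rw [pow_two]
    show Matrix.J (Fin d) F * Matrix.J (Fin d) F = _
    rw [hJJ]
    simp
  · intro z hz
    have hz' : Matrix.J (Fin d) F = z • (1 : Matrix (Fin d ⊕ Fin d) (Fin d ⊕ Fin d) F) := hz
    have h1 := congrFun (congrFun hz' (Sum.inl ⟨0, hd⟩)) (Sum.inl ⟨0, hd⟩)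
    have h2 := congrFun (congrFun hz' (Sum.inl ⟨0, hd⟩)) (Sum.inr ⟨0, hd⟩)
    simp [Matrix.J] at h1 h2
  · intro W hW
    have hP := jbad_irr hsq
    have haev : aeval (Matrix.toLin' (Matrix.J (Fin d) F)) (X ^ 2 + 1 : F[X]) = 0 := by
      rw [map_add, map_pow, aeval_X, map_one, pow_two, Module.End.mul_eq_comp,
        ← Matrix.toLin'_mul, hJJ]
      ext v i
      simp
    have h := dvd_finrank_of_irreducible (Matrix.toLin' (Matrix.J (Fin d) F)) _ hP haev W hW
    have hdeg : (X ^ 2 + 1 : F[X]).natDegree = 2 := by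
      rw [show (X ^ 2 + 1 : F[X]) = X ^ 2 + C 1 by simp]
      exact natDegree_X_pow_add_C
    rw [hdeg] at h
    exact even_iff_two_dvd.mpr h

end sp

end Cfsg.Agent.Helper59.TI5955
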