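import Mathlib
import Cfsg.Agent.Helper13.TIDefs2

set_option autoImplicit false

/-!
# S5961 piece RADDICH (helper59): an invariant subspace of dimension `i` without fixed vectors is
nondegenerate or totally isotropic.
-/

namespace Cfsg.Agent.Helper59.TI5961

open Module Polynomial
open Cfsg.Agent.Helper42.SpForm Cfsg.Agent.Helper42.SpGroup Cfsg.Agent.Helper42.SpModels
open Cfsg.Agent.Helper13.TIsp Cfsg.Agent.Helper90.BG
open Cfsg.Agent.Helper11.TI5955 Cfsg.Agent.Helper58.TI5955 Cfsg.Agent.Helper59.TI5955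
open Cfsg.Agent.Helper51.TI5955 Cfsg.Agent.Helper70.TI5955

section geom

variable {F : Type*} [Field F] {V : Type*} [AddCommGroup V] [Module F V] [FiniteDimensional F V]
  (B : LinearMap.BilinForm F V)

/-- RADDICH: an invariant subspace of dimension `i` without fixed vectors is nondegenerate or
totally isotropic (its radical is invariant, `cyc_dvd`). -/
theorem rad_dich [Fintype F] (halt : ∀ v, B v v = 0) (T : Module.End F V) (hT : Preserves B T)
    (r : ℕ) [Fact r.Prime] (hrF : (r : F) ≠ 0) (hTr : T ^ r = 1) (U : Submodule F V)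
    (hUT : U.map T ≤ U) (hUk : U ⊓ LinearMap.ker (T - 1) = ⊥)
    (hUdim : finrank F U = orderOf ((Fintype.card F : ℕ) : ZMod r)) :
    NondegOn B U ∨ TI B U := by
  let R : Submodule F V :=
    { carrier := {u | u ∈ U ∧ ∀ v ∈ U, B u v = 0}
      add_mem' := by
        rintro a b ⟨ha, ha'⟩ ⟨hb, hb'⟩
        exact ⟨U.add_mem ha hb, fun v hv => by
          rw [map_add, LinearMap.add_apply, ha' v hv, hb' v hv, add_zero]⟩
      zero_mem' := ⟨U.zero_mem, fun v hv => by simp⟩
      smul_mem' := by
        rintro c a ⟨ha, ha'⟩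
        exact ⟨U.smul_mem c ha, fun v hv => by
          rw [map_smul, LinearMap.smul_apply, ha' v hv, smul_zero]⟩ }
  have hRmem : ∀ u, u ∈ R ↔ u ∈ U ∧ ∀ v ∈ U, B u v = 0 := fun u => Iff.rfl
  have hRU : R ≤ U := fun u hu => hu.1
  have hUpow : ∀ k : ℕ, ∀ v ∈ U, (T ^ k) v ∈ U := by
    intro k
    induction k with
    | zero => intro v hv; simpa using hv
    | succ k ih =>
      intro v hv
      rw [pow_succ, Module.End.mul_apply]
      exact ih _ (hUT ⟨v, hv, rfl⟩)
  have hr0 : 0 < r := (Fact.out : r.Prime).pos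
  have hRT : R.map T ≤ R := by
    rintro _ ⟨u, hu, rfl⟩
    rw [SetLike.mem_coe, hRmem] at hu
    rw [hRmem]
    refine ⟨hUT ⟨u, hu.1, rfl⟩, fun v hv => ?_⟩
    have hv' : v = T ((T ^ (r - 1)) v) := by
      rw [← Module.End.mul_apply, ← pow_succ', Nat.sub_add_cancel hr0, hTr, Module.End.one_apply]
    rw [hv', hT]
    exact hu.2 _ (hUpow (r - 1) v hv)
  have hRk : R ⊓ LinearMap.ker (T - 1) = ⊥ := by
    apply le_bot_iff.mp
    rw [← hUk]
    exact inf_le_inf_right _ hRU
  have hdvd := cyc_dvd T r (orderOf ((Fintype.card F : ℕ) : ZMod r)) hrF hTr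
    (fun g hg hgd => Cfsg.Agent.Helper46.bgl_irr_factor_degree r hrF g hg hgd) R hRT
  rw [hRk, finrank_bot, Nat.sub_zero] at hdvd
  have hle : finrank F R ≤ finrank F U := Submodule.finrank_mono hRU
  rcases Nat.eq_zero_or_pos (finrank F R) with h0 | hpos
  · left
    intro v hv hvw
    have hvR : v ∈ R := (hRmem v).mpr ⟨hv, hvw⟩
    have hR0 : R = ⊥ := Submodule.finrank_eq_zero.mp h0
    rw [hR0] at hvR
    exact (Submodule.mem_bot F).mp hvR
  · right
    have heq : finrank F R = finrank F U := by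
      apply le_antisymm hle
      rw [hUdim]
      exact Nat.le_of_dvd hpos hdvd
    have hRU' : R = U := Submodule.eq_of_le_of_finrank_eq hRU heq
    intro u hu v hv
    have huR : u ∈ R := by rw [hRU']; exact hu
    exact ((hRmem u).mp huR).2 v hv

end geom

end Cfsg.Agent.Helper59.TI5961
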