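import Mathlib
import Cfsg.Agent.Helper71.SQDefs
import Cfsg.Agent.Helper10.SOIB

/-!
# Helper59: PIECE IB of CALL S5867 (helper71): structure of the unipotent radical elements
for `Sp_m ⊗ O_n`.
-/

set_option autoImplicit false
set_option linter.unusedVariables false

namespace Cfsg.Agent.Helper59.SQIB

open Matrix Cfsg.Agent.Helper71.T4 Cfsg.Agent.Helper71.SO Cfsg.Agent.Helper71.SQ
open Cfsg.Agent.Helper10.SOIB
open scoped Kronecker

variable {F : Type*} [Field F] {m n : ℕ}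

theorem qb_bl_anti (J : Matrix (Fin m) (Fin m) F) (hJ : Jᵀ = -J) (x y : Fin m → F) :
    bl J y x = - bl J x y := by
  unfold bl
  rw [Matrix.dotProduct_mulVec, ← Matrix.mulVec_transpose, hJ, Matrix.neg_mulVec, neg_dotProduct,
    dotProduct_comm]

theorem qb_bl_self (h2 : (2 : F) ≠ 0) (J : Matrix (Fin m) (Fin m) F) (hJ : Jᵀ = -J)
    (x : Fin m → F) : bl J x x = 0 := by
  have h := qb_bl_anti J hJ x x
  have h' : (2 : F) * bl J x x = 0 := by linear_combination h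
  exact (mul_eq_zero.mp h').resolve_left h2

theorem qb_exists_one (M : Matrix (Fin m) (Fin m) F) (hdet : M.det ≠ 0) (x : Fin m → F)
    (hx : x ≠ 0) : ∃ y, bl M x y = 1 := by
  have h1 : x ᵥ* M ≠ 0 := fun h => hx (Matrix.eq_zero_of_vecMul_eq_zero hdet h)
  obtain ⟨i, hi⟩ := Function.ne_iff.mp h1
  refine ⟨Pi.single i ((x ᵥ* M) i)⁻¹, ?_⟩
  unfold bl
  rw [Matrix.dotProduct_mulVec, dotProduct_single]
  exact mul_inv_cancel₀ hi

theorem qb_pt_add_right (u : Fin m → F) (w w' : Fin n → F) :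
    pt u (w + w') = pt u w + pt u w' := by
  ext p; simp [pt, mul_add]

theorem qb_pt_smul_right (c : F) (u : Fin m → F) (w : Fin n → F) :
    pt u (c • w) = c • pt u w := by
  ext p; simp [pt, mul_left_comm]

theorem qb_pt_sub_left (u u' : Fin m → F) (w : Fin n → F) :
    pt (u - u') w = pt u w - pt u' w := by
  ext p; simp [pt, sub_mul]

theorem qb_pt_smul_left (c : F) (u : Fin m → F) (w : Fin n → F) :
    pt (c • u) w = c • pt u w := by
  ext p; simp [pt, mul_assoc]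

theorem qb_eay_mulVec (J : Matrix (Fin m) (Fin m) F) (a y x : Fin m → F) :
    Eay J a y *ᵥ x = x + bl J x a • y + bl J x y • a := by
  unfold Eay bl
  rw [Matrix.add_mulVec, Matrix.add_mulVec, Matrix.one_mulVec, Matrix.vecMulVec_mulVec,
    Matrix.vecMulVec_mulVec, dotProduct_comm (J *ᵥ a) x, dotProduct_comm (J *ᵥ y) x]
  ext l
  simp

theorem qb_ea_mulVec (J : Matrix (Fin m) (Fin m) F) (a x : Fin m → F) :
    vecMulVec a (J *ᵥ a) *ᵥ x = bl J x a • a := by
  unfold bl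
  rw [Matrix.vecMulVec_mulVec, dotProduct_comm (J *ᵥ a) x]
  ext l
  simp [mul_comm]

theorem qb_om_right (J : Matrix (Fin m) (Fin m) F) (S : Matrix (Fin n) (Fin n) F)
    (z : Fin m × Fin n → F) (y : Fin m → F) (b : Fin n → F) :
    z ⬝ᵥ OmG J S *ᵥ pt y b = ∑ k, (S *ᵥ b) k * bl J (fun i => z (i, k)) y := by
  unfold OmG
  rw [kron_mulVec_pt]
  simp only [dotProduct, pt, Fintype.sum_prod_type, bl]
  rw [Finset.sum_comm]
  refine Finset.sum_congr rfl fun k _ => ?_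
  rw [Finset.mul_sum]
  refine Finset.sum_congr rfl fun i _ => ?_
  ring

theorem qb_om_pt_pt (J : Matrix (Fin m) (Fin m) F) (S : Matrix (Fin n) (Fin n) F)
    (x x' : Fin m → F) (b b' : Fin n → F) :
    pt x b ⬝ᵥ OmG J S *ᵥ pt x' b' = bl J x x' * bl S b b' := by
  rw [qb_om_right]
  have hk : ∀ k, bl J (fun i => pt x b (i, k)) x' = b k * bl J x x' := by
    intro k
    have : (fun i => pt x b (i, k)) = b k • x := by
      ext i
      simp [pt, mul_comm]
    rw [this, ib_bl_smul_left]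
  simp only [hk]
  rw [show bl S b b' = ∑ k, b k * (S *ᵥ b') k from rfl, Finset.mul_sum]
  refine Finset.sum_congr rfl fun k _ => ?_
  ring

theorem qb_sp (J : Matrix (Fin m) (Fin m) F) (S : Matrix (Fin n) (Fin n) F)
    (ρ : Matrix (Fin m × Fin n) (Fin m × Fin n) F) (hρ : IsSpG J S ρ)
    (x z : Fin m × Fin n → F) :
    (ρ *ᵥ x) ⬝ᵥ OmG J S *ᵥ (ρ *ᵥ z) = x ⬝ᵥ OmG J S *ᵥ z := by
  unfold IsSpG at hρ
  conv_rhs => rw [← hρ]
  rw [← Matrix.mulVec_mulVec, ← Matrix.mulVec_mulVec, Matrix.dotProduct_mulVec x ρᵀ,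
    Matrix.vecMul_transpose]

theorem qb_ext (A B : Matrix (Fin m × Fin n) (Fin m × Fin n) F)
    (h : ∀ (x : Fin m → F) (l : Fin n),
      A *ᵥ pt x (Pi.single l 1) = B *ᵥ pt x (Pi.single l 1)) : A = B := by
  ext ⟨i, k⟩ ⟨j, l⟩
  have hpt : pt (Pi.single j (1 : F)) (Pi.single l (1 : F)) = Pi.single (j, l) 1 := by
    ext ⟨i', k'⟩
    simp only [pt, Pi.single_apply, Prod.mk.injEq]
    by_cases h1 : i' = j <;> by_cases h2 : k' = l <;> simp [h1, h2]
  have := congrFun (h (Pi.single j 1) l) (i, k)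
  rw [hpt] at this
  simpa using this

/-- PIECE IB -/
theorem rad_struct (h2 : (2 : F) ≠ 0) (J : Matrix (Fin m) (Fin m) F) (hJ : Jᵀ = -J)
    (hdetJ : J.det ≠ 0) (S : Matrix (Fin n) (Fin n) F) (hS : Sᵀ = S) (hdetS : S.det ≠ 0)
    (a : Fin m → F) (ha : a ≠ 0)
    (ρ : Matrix (Fin m × Fin n) (Fin m × Fin n) F) (hρ : IsSpG J S ρ)
    (h1 : ∀ b : Fin n → F, ρ *ᵥ pt a b = pt a b)
    (h2' : ∀ (y : Fin m → F) (b : Fin n → F), bl J a y = 0 → ∃ b' : Fin n → F,
      ρ *ᵥ pt y b = pt y b + pt a b')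
    (hsc : ∀ (y : Fin m → F) (C : Matrix (Fin n) (Fin n) F), bl J a y = 0 →
      (∀ b : Fin n → F, ρ *ᵥ pt y b = pt y b + pt a (C *ᵥ b)) →
      ∃ γ : F, C = γ • (1 : Matrix (Fin n) (Fin n) F)) :
    ∃ y₀ : Fin m → F, bl J a y₀ = 0 ∧ ∃ D : Matrix (Fin n) (Fin n) F,
      ρ = (Eay J a y₀ ⊗ₖ (1 : Matrix (Fin n) (Fin n) F))
        * (1 + vecMulVec a (J *ᵥ a) ⊗ₖ D) := by
  rcases Nat.eq_zero_or_pos n with hn | hn
  · subst hn
    refine ⟨0, ?_, 0, ?_⟩
    · simp [bl]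
    · ext ⟨i, k⟩
      exact k.elim0
  have hpa : ∀ b b' : Fin n → F, pt a b = pt a b' → b = b' := by
    intro b b' h
    obtain ⟨i₀, hi₀⟩ := Function.ne_iff.mp ha
    ext k
    have := congrFun h (i₀, k)
    simp only [pt] at this
    exact mul_left_cancel₀ hi₀ this
  -- Step 1: `ρ` acts on `y ⊗ b` (`y ⟂ a`) by adding a scalar multiple of `a ⊗ b`
  have S1 : ∀ y : Fin m → F, bl J a y = 0 →
      ∃ γ : F, ∀ b, ρ *ᵥ pt y b = pt y b + γ • pt a b := by
    intro y hy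
    choose f hf using fun b => h2' y b hy
    have hadd : ∀ b b', f (b + b') = f b + f b' := by
      intro b b'
      apply hpa
      have e1 := hf (b + b')
      rw [qb_pt_add_right, Matrix.mulVec_add, hf b, hf b', add_add_add_comm] at e1
      rw [qb_pt_add_right]
      exact (add_left_cancel e1).symm
    have hsmul : ∀ (c : F) b, f (c • b) = c • f b := by
      intro c b
      apply hpa
      have e1 := hf (c • b)
      rw [qb_pt_smul_right, Matrix.mulVec_smul, hf b, smul_add] at e1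
      rw [qb_pt_smul_right]
      exact (add_left_cancel e1).symm
    let L : (Fin n → F) →ₗ[F] (Fin n → F) :=
      { toFun := f
        map_add' := hadd
        map_smul' := fun c b => by simpa using hsmul c b }
    have hL : ∀ b, LinearMap.toMatrix' L *ᵥ b = f b := fun b => LinearMap.toMatrix'_mulVec L b
    obtain ⟨γ, hγ⟩ := hsc y (LinearMap.toMatrix' L) hy (fun b => by rw [hL]; exact hf b)
    refine ⟨γ, fun b => ?_⟩
    have hfb : f b = γ • b := by
      have h := hL b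
      rw [hγ, Matrix.smul_mulVec, Matrix.one_mulVec] at h
      exact h.symm
    rw [hf b, hfb, qb_pt_smul_right]
  -- auxiliary vectors
  obtain ⟨a₁, ha₁⟩ := qb_exists_one J hdetJ a ha
  have ha₁a : bl J a₁ a = -1 := by rw [qb_bl_anti J hJ a a₁, ha₁]
  have haa : bl J a a = 0 := qb_bl_self h2 J hJ a
  have hb₀0 : (Pi.single (⟨0, hn⟩ : Fin n) (1 : F) : Fin n → F) ≠ 0 := by
    intro h
    have := congrFun h ⟨0, hn⟩
    simp at this
  obtain ⟨b₁, hb₁⟩ := qb_exists_one S hdetS _ hb₀0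
  generalize (Pi.single (⟨0, hn⟩ : Fin n) (1 : F) : Fin n → F) = b₀ at hb₁
  have hb₁' : bl S b₁ b₀ = 1 := by rw [ib_bl_comm S hS]; exact hb₁
  -- the vector `y₀`
  have hcy : ∀ y : Fin m → F, (ρ *ᵥ pt a₁ b₁) ⬝ᵥ OmG J S *ᵥ pt y b₀
      = bl J (fun i => ∑ k, (S *ᵥ b₀) k * (ρ *ᵥ pt a₁ b₁) (i, k)) y := by
    intro y
    rw [qb_om_right]
    simp only [bl, dotProduct, Finset.mul_sum, Finset.sum_mul]
    rw [Finset.sum_comm]
    refine Finset.sum_congr rfl fun i _ => Finset.sum_congr rfl fun k _ => ?_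
    ring
  generalize hc : (fun i => ∑ k, (S *ᵥ b₀) k * (ρ *ᵥ pt a₁ b₁) (i, k)) = c at hcy
  have hω1 : (ρ *ᵥ pt a₁ b₁) ⬝ᵥ OmG J S *ᵥ pt a b₀ = -1 := by
    have := qb_sp J S ρ hρ (pt a₁ b₁) (pt a b₀)
    rw [h1 b₀, qb_om_pt_pt, ha₁a, hb₁'] at this
    simpa using this
  have hay₀ : bl J a (a₁ - c) = 0 := by
    rw [ib_bl_sub_right, ha₁, qb_bl_anti J hJ c a, ← hcy a, hω1]
    ring
  have hγ : ∀ y, bl J a y = 0 → ∀ b, ρ *ᵥ pt y b = pt y b + bl J y (a₁ - c) • pt a b := by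
    intro y hy
    obtain ⟨γ, hγ⟩ := S1 y hy
    have e := qb_sp J S ρ hρ (pt a₁ b₁) (pt y b₀)
    rw [hγ b₀, Matrix.mulVec_add, dotProduct_add, Matrix.mulVec_smul, dotProduct_smul, hω1, hcy y,
      qb_om_pt_pt, hb₁'] at e
    have hγv : γ = bl J y (a₁ - c) := by
      rw [ib_bl_sub_right, qb_bl_anti J hJ a₁ y, qb_bl_anti J hJ c y]
      simp only [smul_eq_mul] at e
      linear_combination -e
    intro b
    rw [hγ b, hγv]
  -- the image of `a₁ ⊗ b`
  have hz : ∀ b : Fin n → F, ∃ d : Fin n → F,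
      ρ *ᵥ pt a₁ b = pt a₁ b - pt (a₁ - c) b + pt a d := by
    intro b
    have hzperp : ∀ (y : Fin m → F) (b' : Fin n → F), bl J a y = 0 →
        (ρ *ᵥ pt a₁ b - pt a₁ b + pt (a₁ - c) b) ⬝ᵥ OmG J S *ᵥ pt y b' = 0 := by
      intro y b' hy
      have e1 := qb_sp J S ρ hρ (pt a₁ b) (pt y b')
      rw [hγ y hy b', Matrix.mulVec_add, dotProduct_add, Matrix.mulVec_smul, dotProduct_smul,
        qb_om_pt_pt] at e1
      have e2 := qb_sp J S ρ hρ (pt a₁ b) (pt a b')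
      rw [h1 b', qb_om_pt_pt, ha₁a] at e2
      rw [e2] at e1
      rw [add_dotProduct, sub_dotProduct, qb_om_pt_pt, qb_om_pt_pt, qb_bl_anti J hJ y (a₁ - c)]
      simp only [smul_eq_mul] at e1
      linear_combination e1
    generalize hzdef : ρ *ᵥ pt a₁ b - pt a₁ b + pt (a₁ - c) b = z at hzperp
    have hcol : ∀ k : Fin n, (fun i => z (i, k)) = bl J (fun i => z (i, k)) a₁ • a := by
      intro k
      apply ib_perp J hdetJ a a₁ ha₁
      intro w hw
      have e := hzperp w (S⁻¹ *ᵥ Pi.single k 1) hw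
      rw [qb_om_right, Matrix.mulVec_mulVec, Matrix.mul_nonsing_inv S (isUnit_iff_ne_zero.mpr hdetS),
        Matrix.one_mulVec] at e
      simpa [Pi.single_apply] using e
    refine ⟨fun k => bl J (fun i => z (i, k)) a₁, ?_⟩
    have hzpt : z = pt a (fun k => bl J (fun i => z (i, k)) a₁) := by
      ext ⟨i, k⟩
      have := congrFun (hcol k) i
      exact this.trans (mul_comm _ _)
    rw [← hzpt, ← hzdef]
    abel
  choose dfun hd using hz
  refine ⟨a₁ - c, hay₀, Matrix.of (fun k l =>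
    (bl J a₁ (a₁ - c) • (Pi.single l (1 : F) : Fin n → F) - dfun (Pi.single l 1)) k), ?_⟩
  apply qb_ext
  intro x l
  have hD : (Matrix.of (fun k l =>
      (bl J a₁ (a₁ - c) • (Pi.single l (1 : F) : Fin n → F) - dfun (Pi.single l 1)) k))
      *ᵥ (Pi.single l (1 : F) : Fin n → F)
      = bl J a₁ (a₁ - c) • (Pi.single l (1 : F) : Fin n → F) - dfun (Pi.single l 1) := by
    ext k
    simp
  generalize (Matrix.of (fun k l =>
      (bl J a₁ (a₁ - c) • (Pi.single l (1 : F) : Fin n → F) - dfun (Pi.single l 1)) k)) = D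
    at hD ⊢
  generalize (Pi.single l (1 : F) : Fin n → F) = b at hD ⊢
  have hya : bl J a (x + bl J x a • a₁) = 0 := by
    rw [ib_bl_add_right, ib_bl_smul_right, ha₁, qb_bl_anti J hJ x a]
    ring
  have hx : x = (x + bl J x a • a₁) - bl J x a • a₁ := by abel
  have hL : ρ *ᵥ pt x b = pt (x + bl J x a • a₁) b
      + bl J (x + bl J x a • a₁) (a₁ - c) • pt a b
      - bl J x a • (pt a₁ b - pt (a₁ - c) b + pt a (dfun b)) := by
    conv_lhs => rw [hx, qb_pt_sub_left, qb_pt_smul_left, Matrix.mulVec_sub, Matrix.mulVec_smul,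
      hγ _ hya, hd]
  have hR : ((Eay J a (a₁ - c) ⊗ₖ (1 : Matrix (Fin n) (Fin n) F))
      * (1 + vecMulVec a (J *ᵥ a) ⊗ₖ D)) *ᵥ pt x b
      = pt (x + bl J x a • (a₁ - c) + bl J x (a₁ - c) • a) b + bl J x a • pt a (D *ᵥ b) := by
    rw [← Matrix.mulVec_mulVec, Matrix.add_mulVec, Matrix.one_mulVec, kron_mulVec_pt,
      qb_ea_mulVec, Matrix.mulVec_add, kron_mulVec_pt, kron_mulVec_pt, Matrix.one_mulVec,
      Matrix.one_mulVec, qb_eay_mulVec, Matrix.mulVec_smul, qb_eay_mulVec, haa, hay₀, zero_smul,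
      zero_smul, add_zero, add_zero, qb_pt_smul_left]
  rw [hL, hR, hD]
  have e1 : bl J (x + bl J x a • a₁) (a₁ - c) = bl J x (a₁ - c) + bl J x a * bl J a₁ (a₁ - c) := by
    rw [ib_bl_add_left, ib_bl_smul_left]
  rw [e1]
  ext ⟨i, k⟩
  simp only [pt, Pi.add_apply, Pi.sub_apply, Pi.smul_apply, smul_eq_mul]
  ring

end Cfsg.Agent.Helper59.SQIB
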