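import Mathlib
import Cfsg.Agent.Helper59.MinNormal
import Cfsg.Agent.Helper59.Derange2

set_option autoImplicit false
set_option linter.unusedSectionVars false
set_option linter.style.haveILetI false
set_option linter.unusedVariables false

namespace Cfsg.Agent.Helper59

open MulAction
open scoped Pointwise

/-- Structure of a nonabelian, non-simple minimal normal subgroup `N` of a finite group: a
subgroup `T` of `N`, invariant under `N`, with trivial centre, whose conjugates under `G`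
either coincide with `T` or commute with `T` elementwise, and `N = C_N(T) T`. -/
theorem exists_TC {G : Type*} [Group G] [Finite G] (N : Subgroup G) (hNn : N.Normal)
    (hN1 : N ≠ ⊥) (hNmin : ∀ M : Subgroup G, M.Normal → M ≠ ⊥ → M ≤ N → M = N)
    (hNc : ¬ ∀ x ∈ N, ∀ y ∈ N, x * y = y * x) (hsimple : ¬ IsSimpleGroup N) :
    ∃ T : Subgroup G, T ≤ N ∧ T ≠ ⊥ ∧ (∀ n ∈ N, ∀ t ∈ T, n * t * n⁻¹ ∈ T) ∧
      T ⊓ Subgroup.centralizer (T : Set G) = ⊥ ∧
      (∀ g : G, T.map (MulAut.conj g).toMonoidHom ≠ T →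
        ∀ t ∈ T, ∀ t' ∈ T.map (MulAut.conj g).toMonoidHom, t * t' = t' * t) ∧
      (∃ g : G, T.map (MulAut.conj g).toMonoidHom ≠ T) ∧
      (∀ n ∈ N, ∃ c ∈ N, (∀ t ∈ T, c * t = t * c) ∧ ∃ τ ∈ T, n = c * τ) := by
  classical
  haveI := hNn
  have hZN : N ⊓ Subgroup.centralizer (N : Set G) = ⊥ := by
    by_contra h
    have hZNn : (N ⊓ Subgroup.centralizer (N : Set G)).Normal := inferInstance
    have hZNN := hNmin _ hZNn h inf_le_left
    apply hNc
    intro x hx y hy
    have : y ∈ N ⊓ Subgroup.centralizer (N : Set G) := by rw [hZNN]; exact hy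
    exact Subgroup.mem_centralizer_iff.mp (Subgroup.mem_inf.mp this).2 x hx
  have hex : ∃ T : Subgroup G, T ≤ N ∧ T ≠ ⊥ ∧ T ≠ N ∧
      ∀ n ∈ N, ∀ t ∈ T, n * t * n⁻¹ ∈ T := by
    by_contra hno
    apply hsimple
    haveI : Nontrivial N := (Subgroup.nontrivial_iff_ne_bot N).mpr hN1
    refine { toNontrivial := inferInstance, eq_bot_or_eq_top_of_normal := fun K hK => ?_ }
    by_contra hK2
    push Not at hK2
    apply hno
    refine ⟨K.map N.subtype, ?_, ?_, ?_, ?_⟩
    · rintro x ⟨y, _, rfl⟩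
      exact y.2
    · intro h
      apply hK2.1
      exact (Subgroup.map_eq_bot_iff_of_injective K N.subtype_injective).mp h
    · intro h
      apply hK2.2
      rw [eq_top_iff]
      intro x _
      have hx : (x : G) ∈ K.map N.subtype := by rw [h]; exact x.2
      obtain ⟨y, hy, hyx⟩ := hx
      have : y = x := Subtype.ext hyx
      rwa [this] at hy
    · rintro n hn t ⟨y, hy, rfl⟩
      exact ⟨⟨n, hn⟩ * y * ⟨n, hn⟩⁻¹, hK.conj_mem y hy ⟨n, hn⟩, rfl⟩
  obtain ⟨T, ⟨hTN, hT1, hTN', hTinv⟩, hTmin⟩ : ∃ T : Subgroup G,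
      (T ≤ N ∧ T ≠ ⊥ ∧ T ≠ N ∧ ∀ n ∈ N, ∀ t ∈ T, n * t * n⁻¹ ∈ T) ∧
      ∀ T' : Subgroup G, T' ≤ T → T' ≠ ⊥ → (∀ n ∈ N, ∀ t ∈ T', n * t * n⁻¹ ∈ T') →
        T' = T := by
    let S : Set ℕ := {k | ∃ T : Subgroup G,
      (T ≤ N ∧ T ≠ ⊥ ∧ T ≠ N ∧ ∀ n ∈ N, ∀ t ∈ T, n * t * n⁻¹ ∈ T) ∧ Nat.card T = k}
    have hS : S.Nonempty := by
      obtain ⟨T, hT⟩ := hex
      exact ⟨_, T, hT, rfl⟩
    obtain ⟨T, hT, hTc⟩ := Nat.sInf_mem hS
    refine ⟨T, hT, fun T' hT'T hT'1 hT'inv => ?_⟩
    apply Subgroup.eq_of_le_of_card_ge hT'T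
    rw [hTc]
    apply Nat.sInf_le
    refine ⟨T', ⟨hT'T.trans hT.1, hT'1, ?_, hT'inv⟩, rfl⟩
    intro h
    apply hT.2.2.1
    exact le_antisymm hT.1 (h ▸ hT'T)
  -- conjugates of `T`
  let cj : G → Subgroup G := fun g => T.map (MulAut.conj g).toMonoidHom
  have hcj_mem : ∀ g x, x ∈ cj g ↔ ∃ t ∈ T, g * t * g⁻¹ = x := by
    intro g x
    constructor
    · rintro ⟨t, ht, rfl⟩
      exact ⟨t, ht, rfl⟩
    · rintro ⟨t, ht, rfl⟩
      exact ⟨t, ht, rfl⟩
  have hcjN : ∀ g, cj g ≤ N := by
    intro g x hx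
    obtain ⟨t, ht, rfl⟩ := (hcj_mem g x).mp hx
    exact hNn.conj_mem t (hTN ht) g
  have hcjinv : ∀ g, ∀ n ∈ N, ∀ x ∈ cj g, n * x * n⁻¹ ∈ cj g := by
    intro g n hn x hx
    obtain ⟨t, ht, rfl⟩ := (hcj_mem g x).mp hx
    refine (hcj_mem g _).mpr ⟨(g⁻¹ * n * g) * t * (g⁻¹ * n * g)⁻¹, hTinv _ ?_ t ht, by group⟩
    have := hNn.conj_mem n hn g⁻¹
    simpa using this
  have hcjcard : ∀ g, Nat.card (cj g) = Nat.card T := by
    intro g
    exact Subgroup.card_map_of_injective (MulAut.conj g).injective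
  have hcomm2 : ∀ T' : Subgroup G, T' ≤ N → (∀ n ∈ N, ∀ t ∈ T', n * t * n⁻¹ ∈ T') →
      Nat.card T' = Nat.card T → T' ≠ T → ∀ t ∈ T, ∀ t' ∈ T', t * t' = t' * t := by
    intro T' hT'N hT'inv hcard hne t ht t' ht'
    have hinf : T ⊓ T' = ⊥ := by
      by_contra h
      have h1 := hTmin (T ⊓ T') inf_le_left h
        (fun n hn x hx => ⟨hTinv n hn x hx.1, hT'inv n hn x hx.2⟩)
      have h2 : T ≤ T' := by
        rw [← h1]
        exact inf_le_right
      exact hne (Subgroup.eq_of_le_of_card_ge h2 hcard.le).symm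
    have hmem : t * t' * t⁻¹ * t'⁻¹ ∈ T ⊓ T' := by
      constructor
      · have := hTinv t' (hT'N ht') t⁻¹ (T.inv_mem ht)
        have h3 : t * t' * t⁻¹ * t'⁻¹ = t * (t' * t⁻¹ * t'⁻¹) := by group
        rw [h3]
        exact T.mul_mem ht this
      · have := hT'inv t (hTN ht) t' ht'
        exact T'.mul_mem this (T'.inv_mem ht')
    rw [hinf, Subgroup.mem_bot] at hmem
    calc t * t' = (t * t' * t⁻¹ * t'⁻¹) * (t' * t) := by group
      _ = t' * t := by rw [hmem, one_mul]
  have hdecomp : ∀ n ∈ N, ∃ c ∈ N, (∀ t ∈ T, c * t = t * c) ∧ ∃ τ ∈ T, n = c * τ := by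
    let P : Subgroup G :=
      { carrier := {x | ∃ c ∈ N, (∀ t ∈ T, c * t = t * c) ∧ ∃ τ ∈ T, x = c * τ}
        one_mem' := ⟨1, N.one_mem, fun t _ => by simp, 1, T.one_mem, by simp⟩
        mul_mem' := by
          rintro x y ⟨c, hc, hcc, τ, hτ, rfl⟩ ⟨c', hc', hcc', τ', hτ', rfl⟩
          refine ⟨c * c', N.mul_mem hc hc', ?_, τ * τ', T.mul_mem hτ hτ', ?_⟩
          · intro t ht
            rw [mul_assoc, hcc' t ht, ← mul_assoc, hcc t ht, mul_assoc]
          · calc c * τ * (c' * τ') = c * (τ * c') * τ' := by group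
              _ = c * (c' * τ) * τ' := by rw [hcc' τ hτ]
              _ = c * c' * (τ * τ') := by group
        inv_mem' := by
          rintro x ⟨c, hc, hcc, τ, hτ, rfl⟩
          refine ⟨c⁻¹, N.inv_mem hc, ?_, τ⁻¹, T.inv_mem hτ, ?_⟩
          · intro t ht
            have := hcc t ht
            calc c⁻¹ * t = c⁻¹ * (t * c) * c⁻¹ := by group
              _ = c⁻¹ * (c * t) * c⁻¹ := by rw [this]
              _ = t * c⁻¹ := by group
          · have h2 := hcc τ hτ
            calc (c * τ)⁻¹ = (τ * c)⁻¹ := by rw [h2]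
              _ = c⁻¹ * τ⁻¹ := by group }
    have hNP : N ≤ P := by
      have hclosure : Subgroup.normalClosure (T : Set G) = N := by
        apply hNmin _ Subgroup.normalClosure_normal
        · intro h
          apply hT1
          rw [eq_bot_iff, ← h]
          exact Subgroup.le_normalClosure
        · exact Subgroup.normalClosure_le_normal hTN
      rw [← hclosure]
      show Subgroup.closure (Group.conjugatesOfSet (T : Set G)) ≤ P
      rw [Subgroup.closure_le]
      intro x hx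
      rw [Group.mem_conjugatesOfSet_iff] at hx
      obtain ⟨t, ht, hconj⟩ := hx
      obtain ⟨g, hg⟩ := isConj_iff.mp hconj
      have hxcj : x ∈ cj g := (hcj_mem g x).mpr ⟨t, ht, hg⟩
      by_cases hcase : cj g = T
      · rw [hcase] at hxcj
        exact ⟨1, N.one_mem, fun t _ => by simp, x, hxcj, by simp⟩
      · refine ⟨x, hcjN g hxcj, fun t' ht' => ?_, 1, T.one_mem, by simp⟩
        exact (hcomm2 (cj g) (hcjN g) (hcjinv g) (hcjcard g) hcase t' ht' x hxcj).symm
    intro n hn
    exact hNP hn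
  -- the centre of `T` is trivial
  have hZT : T ⊓ Subgroup.centralizer (T : Set G) = ⊥ := by
    by_contra hZ1
    have hZinv : ∀ n ∈ N, ∀ x ∈ T ⊓ Subgroup.centralizer (T : Set G),
        n * x * n⁻¹ ∈ T ⊓ Subgroup.centralizer (T : Set G) := by
      intro n hn x hx
      have hx1 := (Subgroup.mem_inf.mp hx).1
      have hx2 := (Subgroup.mem_inf.mp hx).2
      refine Subgroup.mem_inf.mpr ⟨hTinv n hn x hx1, Subgroup.mem_centralizer_iff.mpr ?_⟩
      intro t ht
      have h1 := Subgroup.mem_centralizer_iff.mp hx2 (n⁻¹ * t * n) (by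
        have := hTinv n⁻¹ (N.inv_mem hn) t ht
        simpa using this)
      calc t * (n * x * n⁻¹) = n * (n⁻¹ * t * n * x) * n⁻¹ := by group
        _ = n * (x * (n⁻¹ * t * n)) * n⁻¹ := by rw [h1]
        _ = n * x * n⁻¹ * t := by group
    have hZTT : T ⊓ Subgroup.centralizer (T : Set G) = T := hTmin _ inf_le_left hZ1 hZinv
    have hTab : ∀ t ∈ T, ∀ t' ∈ T, t' * t = t * t' := by
      intro t ht t' ht'
      have : t ∈ T ⊓ Subgroup.centralizer (T : Set G) := by rw [hZTT]; exact ht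
      exact Subgroup.mem_centralizer_iff.mp (Subgroup.mem_inf.mp this).2 t' ht'
    have hNT : ∀ n ∈ N, ∀ t ∈ T, n * t = t * n := by
      intro n hn t ht
      obtain ⟨c, hc, hcc, τ, hτ, rfl⟩ := hdecomp n hn
      rw [mul_assoc, hTab t ht τ hτ, ← mul_assoc, hcc t ht, mul_assoc]
    apply hT1
    rw [eq_bot_iff, ← hZN]
    intro t ht
    refine Subgroup.mem_inf.mpr ⟨hTN ht, Subgroup.mem_centralizer_iff.mpr ?_⟩
    intro n hn
    exact hNT n hn t ht
  have hexg : ∃ g : G, cj g ≠ T := by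
    by_contra hall
    push Not at hall
    have hTn : T.Normal := ⟨fun t ht g => by
      have : g * t * g⁻¹ ∈ cj g := (hcj_mem g _).mpr ⟨t, ht, rfl⟩
      rwa [hall g] at this⟩
    exact hTN' (hNmin T hTn hT1 hTN)
  exact ⟨T, hTN, hT1, hTinv, hZT, fun g hg t ht t' ht' =>
    hcomm2 (cj g) (hcjN g) (hcjinv g) (hcjcard g) hg t ht t' ht', hexg, hdecomp⟩

/-- A finite set invariant under a subgroup `L`, all of whose points have `L`-orbits of size `ℓ`,
has size divisible by `ℓ`. -/
theorem dvd_card_of_orbit_card {G Ω : Type*} [Group G] [MulAction G Ω] [Finite Ω]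
    [DecidableEq Ω] (L : Subgroup G) (ℓ : ℕ) :
    ∀ S : Finset Ω, (∀ g ∈ L, ∀ x ∈ S, g • x ∈ S) →
      (∀ x ∈ S, Nat.card (orbit L x) = ℓ) → ℓ ∣ S.card := by
  classical
  haveI := Fintype.ofFinite Ω
  intro S
  induction S using Finset.strongInduction with
  | H S ih =>
    intro hinv horb
    rcases S.eq_empty_or_nonempty with rfl | ⟨β, hβ⟩
    · simp
    · set O : Finset Ω := (orbit L β).toFinset with hO
      have hOS : O ⊆ S := by
        intro x hx
        rw [hO, Set.mem_toFinset] at hx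
        obtain ⟨g, rfl⟩ := hx
        exact hinv g.1 g.2 β hβ
      have hβO : β ∈ O := by
        rw [hO, Set.mem_toFinset]; exact mem_orbit_self β
      have hss : S \ O ⊂ S := Finset.sdiff_ssubset hOS ⟨β, hβO⟩
      have h1 : ℓ ∣ (S \ O).card := by
        apply ih (S \ O) hss
        · intro g hg x hx
          rw [Finset.mem_sdiff] at hx ⊢
          refine ⟨hinv g hg x hx.1, ?_⟩
          intro hgx
          apply hx.2
          rw [hO, Set.mem_toFinset] at hgx ⊢
          obtain ⟨h, hh⟩ := hgx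
          refine ⟨(⟨g, hg⟩ : L)⁻¹ * h, ?_⟩
          have hh' : h • β = g • x := hh
          show ((⟨g, hg⟩ : L)⁻¹ * h) • β = x
          rw [mul_smul, hh']
          show g⁻¹ • g • x = x
          rw [inv_smul_smul]
        · intro x hx
          exact horb x (Finset.mem_sdiff.mp hx).1
      have h2 : ℓ ∣ O.card := by
        rw [hO, Set.toFinset_card, ← Nat.card_eq_fintype_card, horb β hβ]
      rw [← Finset.card_sdiff_add_card_eq_card hOS]
      exact dvd_add h1 h2

/-- In a transitive group in which no nonidentity element fixes two points, there are exactly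
`n - 1` derangements. -/
theorem card_derangements_of_sharp {G Ω : Type*} [Group G] [Finite G] [Finite Ω] [MulAction G Ω]
    (htrans : IsPretransitive G Ω) (hΩ : 2 ≤ Nat.card Ω)
    (hsharp : ∀ g : G, g ≠ 1 → ∀ a b : Ω, a ≠ b → g • a = a → g • b ≠ b) :
    Nat.card {g : G // ∀ ω : Ω, g • ω ≠ ω} = Nat.card Ω - 1 := by
  classical
  haveI := Fintype.ofFinite G
  haveI := Fintype.ofFinite Ω
  obtain ⟨α⟩ : Nonempty Ω := (Nat.card_pos_iff.mp (by omega)).1
  set n := Nat.card Ω with hn
  have hpt : ∀ g : G, Nat.card (fixedBy Ω g) + (if (∀ ω : Ω, g • ω ≠ ω) then 1 else 0) =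
      1 + (if g = 1 then (n - 1) else 0) := by
    intro g
    by_cases hg1 : g = 1
    · subst hg1
      have h1 : ¬ (∀ ω : Ω, (1 : G) • ω ≠ ω) := fun h => h α (one_smul _ _)
      have h3 : Nat.card (fixedBy Ω (1 : G)) = n := by
        rw [hn]
        exact Nat.card_congr (Equiv.subtypeUnivEquiv (fun ω => one_smul G ω))
      rw [if_neg h1, if_pos rfl, h3]
      omega
    · rw [if_neg hg1]
      by_cases hder : ∀ ω : Ω, g • ω ≠ ω
      · rw [if_pos hder]
        have : Nat.card (fixedBy Ω g) = 0 := by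
          rw [Nat.card_eq_zero]
          left
          exact ⟨fun ⟨ω, hω⟩ => hder ω hω⟩
        omega
      · rw [if_neg hder]
        push Not at hder
        obtain ⟨ω, hω⟩ := hder
        have : Nat.card (fixedBy Ω g) = 1 := by
          rw [Nat.card_eq_one_iff_unique]
          refine ⟨⟨fun ⟨a, ha⟩ ⟨b, hb⟩ => ?_⟩, ⟨⟨ω, hω⟩⟩⟩
          by_contra hab
          exact hsharp g hg1 a b (fun h => hab (Subtype.ext h)) ha hb
        omega
  have hB : ∑ g : G, Nat.card (fixedBy Ω g) = Nat.card G := by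
    rw [burnside_nat]
    haveI : Subsingleton (orbitRel.Quotient G Ω) :=
      (pretransitive_iff_subsingleton_quotient G Ω).mp htrans
    haveI : Nonempty (orbitRel.Quotient G Ω) := ⟨Quotient.mk'' α⟩
    rw [Nat.card_unique, one_mul]
  have hsum := Finset.sum_congr (rfl : (Finset.univ : Finset G) = Finset.univ)
    (fun g _ => hpt g)
  rw [Finset.sum_add_distrib, Finset.sum_add_distrib, hB, Finset.sum_boole,
    Finset.sum_ite_eq' ] at hsum
  simp only [Finset.mem_univ, if_true, Finset.sum_const, Finset.card_univ, smul_eq_mul,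
    mul_one, Nat.cast_id] at hsum
  rw [Nat.card_eq_fintype_card (α := G)] at hsum
  rw [Nat.card_eq_fintype_card, Fintype.card_subtype]
  omega

/-- Burnside: a minimal normal subgroup of a finite 2-transitive group is elementary abelian and
regular, or simple and primitive. -/
theorem burnside_two_transitive {G Ω : Type*} [Group G] [Finite G] [MulAction G Ω]
    [FaithfulSMul G Ω] [Finite Ω] (h2 : IsMultiplyPretransitive G Ω 2) (N : Subgroup G)
    (hNn : N.Normal) (hN1 : N ≠ ⊥)
    (hNmin : ∀ M : Subgroup G, M.Normal → M ≠ ⊥ → M ≤ N → M = N) :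
    ((∀ x ∈ N, ∀ y ∈ N, x * y = y * x) ∧ (∃ p : ℕ, p.Prime ∧ ∀ n ∈ N, n ^ p = 1) ∧
      ∀ a : Ω, ∀ n ∈ N, n • a = a → n = 1) ∨
    (IsSimpleGroup N ∧ IsPreprimitive N Ω) := by
  classical
  haveI := Fintype.ofFinite Ω
  have h2' : ∀ a b c d : Ω, a ≠ b → c ≠ d → ∃ g : G, g • a = c ∧ g • b = d :=
    fun a b c d hab hcd => is_two_pretransitive_iff.mp h2 hab hcd
  have hprim : IsPreprimitive G Ω := isPreprimitive_of_is_two_pretransitive h2
  haveI htransG : IsPretransitive G Ω := hprim.toIsPretransitive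
  have hNt := normal_isPretransitive hprim N hNn hN1
  haveI := hNn
  -- two distinct points
  obtain ⟨ν, hνN, hν1⟩ : ∃ ν ∈ N, ν ≠ 1 := by
    by_contra h
    push Not at h
    exact hN1 ((Subgroup.eq_bot_iff_forall N).mpr h)
  obtain ⟨ω₀, hω₀⟩ : ∃ ω₀ : Ω, ν • ω₀ ≠ ω₀ := by
    by_contra h
    push Not at h
    exact hν1 (FaithfulSMul.eq_of_smul_eq_smul (α := Ω) (fun ω => by rw [h ω, one_smul]))
  have hΩ2 : 2 ≤ Nat.card Ω := by
    haveI : Nontrivial Ω := ⟨⟨ν • ω₀, ω₀, hω₀⟩⟩
    exact Finite.one_lt_card_iff_nontrivial.mpr inferInstance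
  by_cases hNc : ∀ x ∈ N, ∀ y ∈ N, x * y = y * x
  · left
    refine ⟨hNc, ?_, fun a n hn ha =>
      eq_one_of_commute_transitive N hNt n (fun c hc => hNc c hc n hn) a ha⟩
    obtain ⟨r, hr, hrdvd⟩ := Nat.exists_prime_and_dvd (n := Nat.card N) (by
      intro h1
      exact hN1 (Subgroup.card_eq_one.mp h1))
    haveI : Fact r.Prime := ⟨hr⟩
    let M : Subgroup G :=
      { carrier := {x | x ∈ N ∧ x ^ r = 1}
        one_mem' := ⟨N.one_mem, one_pow r⟩
        mul_mem' := by
          rintro x y ⟨hx, hx'⟩ ⟨hy, hy'⟩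
          refine ⟨N.mul_mem hx hy, ?_⟩
          have hc : Commute x y := hNc x hx y hy
          rw [hc.mul_pow, hx', hy', one_mul]
        inv_mem' := by
          rintro x ⟨hx, hx'⟩
          exact ⟨N.inv_mem hx, by rw [inv_pow, hx', inv_one]⟩ }
    have hMn : M.Normal := ⟨by
      rintro x ⟨hx, hx'⟩ g
      refine ⟨hNn.conj_mem x hx g, ?_⟩
      rw [conj_pow, hx', mul_one, mul_inv_cancel]⟩
    have hM1 : M ≠ ⊥ := by
      obtain ⟨x, hx⟩ := exists_prime_orderOf_dvd_card' (G := N) r hrdvd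
      intro hbot
      have hxM : (x : G) ∈ M := by
        refine ⟨x.2, ?_⟩
        rw [← Subgroup.orderOf_coe] at hx
        rw [← hx]
        exact pow_orderOf_eq_one _
      rw [hbot, Subgroup.mem_bot] at hxM
      have h2 : orderOf (x : G) = 1 := by rw [hxM, orderOf_one]
      rw [Subgroup.orderOf_coe, hx] at h2
      exact hr.one_lt.ne' h2
    have hMN : M = N := hNmin M hMn hM1 (fun x hx => hx.1)
    refine ⟨r, hr, fun n hn => ?_⟩
    have : n ∈ M := by rw [hMN]; exact hn
    exact this.2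
  · right
    have hZN : N ⊓ Subgroup.centralizer (N : Set G) = ⊥ := by
      by_contra h
      have hZNn : (N ⊓ Subgroup.centralizer (N : Set G)).Normal := inferInstance
      have hZNN := hNmin _ hZNn h inf_le_left
      apply hNc
      intro x hx y hy
      have : y ∈ N ⊓ Subgroup.centralizer (N : Set G) := by rw [hZNN]; exact hy
      exact Subgroup.mem_centralizer_iff.mp (Subgroup.mem_inf.mp this).2 x hx
    -- `N` is not semiregular
    have hnsr : ∃ n₀ ∈ N, n₀ ≠ 1 ∧ ∃ a₀ : Ω, n₀ • a₀ = a₀ := by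
      by_contra hsr
      push Not at hsr
      obtain ⟨r₁, r₂, hr₁, hr₂, hr12, hd₁, hd₂⟩ := two_primes_dvd_card N hN1 (by
        intro z hz hzc
        have : z ∈ N ⊓ Subgroup.centralizer (N : Set G) :=
          Subgroup.mem_inf.mpr ⟨hz, Subgroup.mem_centralizer_iff.mpr hzc⟩
        rw [hZN] at this
        exact Subgroup.mem_bot.mp this)
      haveI : Fact r₁.Prime := ⟨hr₁⟩
      haveI : Fact r₂.Prime := ⟨hr₂⟩
      obtain ⟨n₁, hn₁⟩ := exists_prime_orderOf_dvd_card' (G := N) r₁ hd₁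
      obtain ⟨n₂, hn₂⟩ := exists_prime_orderOf_dvd_card' (G := N) r₂ hd₂
      have ho₁ : orderOf (n₁ : G) = r₁ := by rw [Subgroup.orderOf_coe]; exact hn₁
      have ho₂ : orderOf (n₂ : G) = r₂ := by rw [Subgroup.orderOf_coe]; exact hn₂
      have h11 : (n₁ : G) ≠ 1 := by
        intro h
        rw [h, orderOf_one] at ho₁
        exact hr₁.one_lt.ne ho₁
      have h21 : (n₂ : G) ≠ 1 := by
        intro h
        rw [h, orderOf_one] at ho₂
        exact hr₂.one_lt.ne ho₂
      obtain ⟨g, hg1, hg2⟩ := h2' ω₀ ((n₁ : G) • ω₀) ω₀ ((n₂ : G) • ω₀)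
        (Ne.symm (hsr _ n₁.2 h11 ω₀)) (Ne.symm (hsr _ n₂.2 h21 ω₀))
      have hginv : g⁻¹ • ω₀ = ω₀ := by rw [inv_smul_eq_iff, hg1]
      have hfix : ((n₂ : G)⁻¹ * (g * n₁ * g⁻¹)) • ω₀ = ω₀ := by
        rw [mul_smul, mul_smul, mul_smul, hginv, hg2, inv_smul_smul]
      have hmem : (n₂ : G)⁻¹ * (g * n₁ * g⁻¹) ∈ N :=
        N.mul_mem (N.inv_mem n₂.2) (hNn.conj_mem _ n₁.2 g)
      have h1 : (n₂ : G)⁻¹ * (g * n₁ * g⁻¹) = 1 := by
        by_contra hne
        exact hsr _ hmem hne ω₀ hfix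
      have h3 : g * n₁ * g⁻¹ = n₂ := by
        calc g * (n₁ : G) * g⁻¹ = n₂ * ((n₂ : G)⁻¹ * (g * n₁ * g⁻¹)) := by group
          _ = n₂ := by rw [h1, mul_one]
      apply hr12
      rw [← ho₁, ← ho₂]
      exact isConj_orderOf_eq (isConj_iff.mpr ⟨g, h3⟩)
    obtain ⟨n₀, hn₀N, hn₀1, a₀, hn₀a⟩ := hnsr
    -- two-point stabilizers in `N`
    let st : Ω → Ω → Subgroup G := fun a b => N ⊓ stabilizer G a ⊓ stabilizer G b
    have hst_mem : ∀ a b x, x ∈ st a b ↔ x ∈ N ∧ x • a = a ∧ x • b = b := by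
      intro a b x
      show x ∈ N ⊓ stabilizer G a ⊓ stabilizer G b ↔ _
      rw [Subgroup.mem_inf, Subgroup.mem_inf, mem_stabilizer_iff, mem_stabilizer_iff, and_assoc]
    have hst_conj : ∀ (g : G) a b, Nat.card (st (g • a) (g • b)) = Nat.card (st a b) := by
      intro g a b
      refine Nat.card_congr ⟨fun x => ⟨g⁻¹ * x * g, ?_⟩, fun y => ⟨g * y * g⁻¹, ?_⟩, ?_, ?_⟩
      · have hx := (hst_mem _ _ _).mp x.2
        refine (hst_mem _ _ _).mpr ⟨?_, ?_, ?_⟩
        · have := hNn.conj_mem _ hx.1 g⁻¹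
          simpa using this
        · rw [mul_smul, mul_smul, hx.2.1, inv_smul_smul]
        · rw [mul_smul, mul_smul, hx.2.2, inv_smul_smul]
      · have hy := (hst_mem _ _ _).mp y.2
        refine (hst_mem _ _ _).mpr ⟨hNn.conj_mem _ hy.1 g, ?_, ?_⟩
        · rw [mul_smul, mul_smul, inv_smul_smul, hy.2.1]
        · rw [mul_smul, mul_smul, inv_smul_smul, hy.2.2]
      · intro x
        apply Subtype.ext
        show g * (g⁻¹ * (x : G) * g) * g⁻¹ = x
        group
      · intro y
        apply Subtype.ext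
        show g⁻¹ * (g * (y : G) * g⁻¹) * g = y
        group
    have hst_const : ∀ a b c d, a ≠ b → c ≠ d → Nat.card (st a b) = Nat.card (st c d) := by
      intro a b c d hab hcd
      obtain ⟨g, rfl, rfl⟩ := h2' a b c d hab hcd
      exact (hst_conj g a b).symm
    have hst_const1 : ∀ a c, Nat.card (st a a) = Nat.card (st c c) := by
      intro a c
      obtain ⟨g, rfl⟩ := exists_smul_eq G a c
      exact (hst_conj g a a).symm
    -- primitivity of `N`
    have hsharpN : (¬ IsPreprimitive N Ω) → ∀ x ∈ N, x ≠ 1 → ∀ p q : Ω, p ≠ q → x • p = p →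
        x • q ≠ q := by
      intro hnp
      haveI := hNt
      obtain ⟨B, hB, hBtriv⟩ : ∃ B : Set Ω, IsBlock N B ∧ ¬ IsTrivialBlock B := by
        by_contra hno
        push Not at hno
        exact hnp (IsPreprimitive.mk (fun {B} hB => hno B hB))
      have hBtriv' : ¬ B.Subsingleton ∧ B ≠ Set.univ := by
        constructor
        · intro h
          exact hBtriv (Or.inl h)
        · intro h
          exact hBtriv (Or.inr h)
      obtain ⟨a, ha, c, hc, hac⟩ : ∃ a ∈ B, ∃ c ∈ B, a ≠ c := by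
        have := Set.not_subsingleton_iff.mp hBtriv'.1
        exact this
      obtain ⟨b₀, hb₀⟩ : ∃ b₀ : Ω, b₀ ∉ B := (Set.ne_univ_iff_exists_notMem B).mp hBtriv'.2
      have hBN : ∀ x ∈ N, x • B = B ∨ Disjoint (x • B) B := fun x hx =>
        isBlock_iff_smul_eq_or_disjoint.mp hB ⟨x, hx⟩
      have hBstab : ∀ x ∈ N, ∀ y ∈ B, x • y ∈ B → x • B = B := by
        intro x hx y hy hxy
        rcases hBN x hx with h | h
        · exact h
        · exact absurd hxy (Set.disjoint_left.mp h (Set.smul_mem_smul_set hy))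
      have hBmem : ∀ x : G, x • B = B → ∀ y ∈ B, x • y ∈ B := by
        intro x hx y hy
        have := Set.smul_mem_smul_set (a := x) hy
        rwa [hx] at this
      set s₀ := Nat.card (st a c) with hs₀
      have hs₀pos : 0 < s₀ := Nat.card_pos
      let Bf : Finset Ω := Finset.univ.filter (· ∈ B)
      have hBf : ∀ x, x ∈ Bf ↔ x ∈ B := fun x => by simp [Bf]
      have haBf : a ∈ Bf := (hBf a).mpr ha
      -- orbits of `N_a` on `B \ {a}`
      have horbA : ∀ x, x ≠ a → Nat.card (orbit (st a a) x) * s₀ = Nat.card (st a a) := by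
        intro x hxa
        have h1 := card_orbit_subgroup (st a a) x
        have h2 : st a a ⊓ stabilizer G x = st a x := by
          ext y
          rw [Subgroup.mem_inf, hst_mem, hst_mem, mem_stabilizer_iff]
          tauto
        rw [h2, hst_const a x a c (Ne.symm hxa) hac] at h1
        exact h1
      set m := Nat.card (orbit (st a a) c) with hm
      have hm1 : m ∣ Bf.card - 1 := by
        rw [← Finset.card_erase_of_mem haBf]
        apply dvd_card_of_orbit_card (st a a) m
        · intro g hg x hx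
          have hg' := (hst_mem _ _ _).mp hg
          rw [Finset.mem_erase] at hx ⊢
          have hgB : g • B = B := hBstab g hg'.1 a ha (by rw [hg'.2.1]; exact ha)
          refine ⟨?_, (hBf _).mpr (hBmem g hgB x ((hBf x).mp hx.2))⟩
          intro h
          apply hx.1
          have : g • x = g • a := by rw [h, hg'.2.1]
          exact smul_left_cancel g this
        · intro x hx
          rw [Finset.mem_erase] at hx
          have h1 := horbA x hx.1
          have h2 := horbA c (Ne.symm hac)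
          exact Nat.eq_of_mul_eq_mul_right hs₀pos (h1.trans h2.symm)
      -- for `b ∉ B` all the groups `st b x`, `x ∈ B`, coincide
      have hstar : ∀ b, b ∉ B → ∀ x ∈ B, ∀ x' ∈ B, st b x = st b x' := by
        intro b hb
        set L : Subgroup G := st b b ⊓ stabilizer G B with hL
        have hL_mem : ∀ y, y ∈ L ↔ y ∈ N ∧ y • b = b ∧ y • B = B := by
          intro y
          rw [hL, Subgroup.mem_inf, hst_mem, mem_stabilizer_iff]
          tauto
        have hLx : ∀ x ∈ B, L ⊓ stabilizer G x = st b x := by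
          intro x hx
          ext y
          rw [Subgroup.mem_inf, hL_mem, hst_mem, mem_stabilizer_iff]
          constructor
          · rintro ⟨⟨h1, h2, _⟩, h4⟩
            exact ⟨h1, h2, h4⟩
          · rintro ⟨h1, h2, h4⟩
            exact ⟨⟨h1, h2, hBstab y h1 x hx (by rw [h4]; exact hx)⟩, h4⟩
        have hbx : ∀ x ∈ B, b ≠ x := fun x hx h => hb (h ▸ hx)
        have horbL : ∀ x ∈ B, Nat.card (orbit L x) * s₀ = Nat.card L := by
          intro x hx
          have h1 := card_orbit_subgroup L x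
          rw [hLx x hx, hst_const b x a c (hbx x hx) hac] at h1
          exact h1
        set ℓ := Nat.card (orbit L a) with hℓ
        have hℓB : ℓ ∣ Bf.card := by
          apply dvd_card_of_orbit_card L ℓ
          · intro g hg x hx
            exact (hBf _).mpr (hBmem g ((hL_mem g).mp hg).2.2 x ((hBf x).mp hx))
          · intro x hx
            have h1 := horbL x ((hBf x).mp hx)
            have h2 := horbL a ha
            exact Nat.eq_of_mul_eq_mul_right hs₀pos (h1.trans h2.symm)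
        have hℓm : ℓ ∣ m := by
          have h1 : Nat.card L ∣ Nat.card (st b b) := Subgroup.card_dvd_of_le inf_le_left
          rw [hst_const1 b a, ← horbL a ha, ← horbA c (Ne.symm hac)] at h1
          exact Nat.dvd_of_mul_dvd_mul_right hs₀pos h1
        have hBfpos : 0 < Bf.card := Finset.card_pos.mpr ⟨a, haBf⟩
        have hℓ1 : ℓ = 1 := by
          have h1 : ℓ ∣ Bf.card - 1 := hℓm.trans hm1
          have h2 : ℓ ∣ Bf.card - (Bf.card - 1) := Nat.dvd_sub hℓB h1
          have h3 : Bf.card - (Bf.card - 1) = 1 := by omega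
          rw [h3] at h2
          exact Nat.dvd_one.mp h2
        have hLcard : Nat.card L = s₀ := by
          have := horbL a ha
          rw [← hℓ, hℓ1, one_mul] at this
          exact this.symm
        have hLeq : ∀ x ∈ B, st b x = L := by
          intro x hx
          apply Subgroup.eq_of_le_of_card_ge
          · rw [← hLx x hx]
            exact inf_le_left
          · rw [hLcard, hst_const b x a c (hbx x hx) hac]
        intro x hx x' hx'
        rw [hLeq x hx, hLeq x' hx']
      -- `st a c` is trivial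
      have hac_bot : ∀ y ∈ st a c, y = 1 := by
        intro y hy
        have hy' := (hst_mem _ _ _).mp hy
        have hab : ∀ b, b ∉ B → st a b = st a c := by
          intro b hb
          have hba : a ≠ b := fun h => hb (h ▸ ha)
          apply Subgroup.eq_of_le_of_card_ge
          · intro z hz
            have hz' := (hst_mem _ _ _).mp hz
            have hz2 : z ∈ st b a := (hst_mem _ _ _).mpr ⟨hz'.1, hz'.2.2, hz'.2.1⟩
            rw [hstar b hb a ha c hc] at hz2
            have hz3 := (hst_mem _ _ _).mp hz2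
            exact (hst_mem _ _ _).mpr ⟨hz'.1, hz'.2.1, hz3.2.2⟩
          · rw [hst_const a c a b hac hba]
        apply FaithfulSMul.eq_of_smul_eq_smul (α := Ω)
        intro ω
        rw [one_smul]
        by_cases hω : ω ∈ B
        · have h1 : y ∈ st a b₀ := by rw [hab b₀ hb₀]; exact hy
          have h1' := (hst_mem _ _ _).mp h1
          have h2 : y ∈ st b₀ a := (hst_mem _ _ _).mpr ⟨h1'.1, h1'.2.2, h1'.2.1⟩
          rw [hstar b₀ hb₀ a ha ω hω] at h2
          exact ((hst_mem _ _ _).mp h2).2.2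
        · have h1 : y ∈ st a ω := by rw [hab ω hω]; exact hy
          exact ((hst_mem _ _ _).mp h1).2.2
      have hs₀1 : s₀ = 1 := by
        rw [hs₀]
        exact Subgroup.card_eq_one.mpr ((Subgroup.eq_bot_iff_forall _).mpr hac_bot)
      intro x hx hx1 p q hpq hxp hxq
      have h1 : Nat.card (st p q) = 1 := by rw [hst_const p q a c hpq hac, ← hs₀, hs₀1]
      have h2 : x ∈ st p q := (hst_mem _ _ _).mpr ⟨hx, hxp, hxq⟩
      rw [Subgroup.card_eq_one.mp h1, Subgroup.mem_bot] at h2
      exact hx1 h2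
    have hprimN : IsPreprimitive N Ω := by
      by_contra hnp
      have hsh := hsharpN hnp
      -- derangements of `N`
      have hcount := card_derangements_of_sharp (G := N) (Ω := Ω) hNt hΩ2 (by
        intro g hg1 p q hpq hp
        exact hsh (g : G) g.2 (fun h => hg1 (Subtype.ext h)) p q hpq hp)
      obtain ⟨d₀⟩ : Nonempty {g : N // ∀ ω : Ω, g • ω ≠ ω} := by
        have : 0 < Nat.card {g : N // ∀ ω : Ω, g • ω ≠ ω} := by omega
        exact (Nat.card_pos_iff.mp this).1
      have hinj : ∀ (c : Ω) (d d' : G), d ∈ N → d' ∈ N → (∀ ω : Ω, d • ω ≠ ω) →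
          (∀ ω : Ω, d' • ω ≠ ω) → d • c = d' • c → d = d' := by
        intro c
        let f : {g : N // ∀ ω : Ω, g • ω ≠ ω} → {ω : Ω // ω ≠ c} :=
          fun d => ⟨(d : N) • c, d.2 c⟩
        have hfs : Function.Surjective f := by
          rintro ⟨b, hb⟩
          have hd₀c : ((d₀ : N) : G) • c ≠ c := d₀.2 c
          obtain ⟨g, hg1, hg2⟩ := h2' c (((d₀ : N) : G) • c) c b (Ne.symm hd₀c) (Ne.symm hb)
          have hginv : g⁻¹ • c = c := by rw [inv_smul_eq_iff, hg1]
          refine ⟨⟨⟨g * ((d₀ : N) : G) * g⁻¹, hNn.conj_mem _ (d₀ : N).2 g⟩, ?_⟩, ?_⟩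
          · intro ω hω
            apply d₀.2 (g⁻¹ • ω)
            have hω' : (g * ((d₀ : N) : G) * g⁻¹) • ω = ω := hω
            show ((d₀ : N) : G) • g⁻¹ • ω = g⁻¹ • ω
            calc ((d₀ : N) : G) • g⁻¹ • ω = g⁻¹ • ((g * ((d₀ : N) : G) * g⁻¹) • ω) := by
                  simp only [mul_smul, inv_smul_smul]
              _ = g⁻¹ • ω := by rw [hω']
          · apply Subtype.ext
            show (g * ((d₀ : N) : G) * g⁻¹) • c = b
            rw [mul_smul, mul_smul, hginv, hg2]
        have hcard : Nat.card {g : N // ∀ ω : Ω, g • ω ≠ ω} = Nat.card {ω : Ω // ω ≠ c} := by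
          rw [hcount, Nat.card_eq_fintype_card (α := {ω : Ω // ω ≠ c}),
            Fintype.card_subtype_compl, Fintype.card_subtype_eq, Nat.card_eq_fintype_card]
        have e : {g : N // ∀ ω : Ω, g • ω ≠ ω} ≃ {ω : Ω // ω ≠ c} :=
          (Finite.equivFinOfCardEq hcard).trans (Finite.equivFinOfCardEq rfl).symm
        have hfi : Function.Injective f := (Finite.injective_iff_surjective_of_equiv e).mpr hfs
        intro d d' hd hd' hdd hdd' hcc
        have := hfi (a₁ := ⟨⟨d, hd⟩, hdd⟩) (a₂ := ⟨⟨d', hd'⟩, hdd'⟩) (Subtype.ext hcc)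
        exact congrArg (fun z : {g : N // ∀ ω : Ω, g • ω ≠ ω} => ((z : N) : G)) this
      let K : Subgroup G :=
        { carrier := {x | x ∈ N ∧ (x = 1 ∨ ∀ ω : Ω, x • ω ≠ ω)}
          one_mem' := ⟨N.one_mem, Or.inl rfl⟩
          mul_mem' := by
            rintro x y ⟨hx, hx'⟩ ⟨hy, hy'⟩
            refine ⟨N.mul_mem hx hy, ?_⟩
            rcases hx' with rfl | hx'
            · rw [one_mul]; exact hy'
            rcases hy' with rfl | hy'
            · rw [mul_one]; exact Or.inr hx'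
            by_cases hxy : x * y = 1
            · exact Or.inl hxy
            · right
              intro ω hω
              apply hxy
              have hxinv : ∀ ω' : Ω, x⁻¹ • ω' ≠ ω' := by
                intro ω' h
                apply hx' ω'
                rw [inv_smul_eq_iff] at h
                exact h.symm
              have h1 : y • ω = x⁻¹ • ω := by
                rw [eq_inv_smul_iff, ← mul_smul]
                exact hω
              have := hinj ω y x⁻¹ hy (N.inv_mem hx) hy' hxinv h1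
              rw [this, mul_inv_cancel]
          inv_mem' := by
            rintro x ⟨hx, hx'⟩
            refine ⟨N.inv_mem hx, ?_⟩
            rcases hx' with rfl | hx'
            · left; exact inv_one
            · right
              intro ω h
              apply hx' ω
              rw [inv_smul_eq_iff] at h
              exact h.symm }
      have hKn : K.Normal := ⟨by
        rintro x ⟨hx, hx'⟩ g
        refine ⟨hNn.conj_mem x hx g, ?_⟩
        rcases hx' with rfl | hx'
        · left; group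
        · right
          intro ω hω
          apply hx' (g⁻¹ • ω)
          calc x • g⁻¹ • ω = g⁻¹ • ((g * x * g⁻¹) • ω) := by
                simp only [mul_smul, inv_smul_smul]
            _ = g⁻¹ • ω := by rw [hω]⟩
      have hK1 : K ≠ ⊥ := by
        intro h
        have hd₀K : ((d₀ : N) : G) ∈ K := ⟨(d₀ : N).2, Or.inr d₀.2⟩
        rw [h, Subgroup.mem_bot] at hd₀K
        apply d₀.2 ω₀
        show ((d₀ : N) : G) • ω₀ = ω₀
        rw [hd₀K, one_smul]
      have hKN : K = N := hNmin K hKn hK1 (fun x hx => hx.1)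
      have hn₀K : n₀ ∈ K := by rw [hKN]; exact hn₀N
      rcases hn₀K.2 with h | h
      · exact hn₀1 h
      · exact h a₀ hn₀a
    refine ⟨?_, hprimN⟩
    -- simplicity
    by_contra hsimple
    obtain ⟨T, hTN, hT1, hTinv, hZT, hcomm, ⟨g, hg⟩, -⟩ :=
      exists_TC N hNn hN1 hNmin hNc hsimple
    -- `T` is transitive
    have hTt : ∀ a b : Ω, ∃ t ∈ T, t • a = b := by
      have hT'n : (T.subgroupOf N).Normal := ⟨by
        intro x hx n
        rw [Subgroup.mem_subgroupOf] at hx ⊢
        exact hTinv n n.2 x hx⟩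
      have hT'1 : T.subgroupOf N ≠ ⊥ := by
        obtain ⟨t, ht, ht1⟩ : ∃ t ∈ T, t ≠ 1 := by
          by_contra h
          push Not at h
          exact hT1 ((Subgroup.eq_bot_iff_forall T).mpr h)
        intro h
        have : (⟨t, hTN ht⟩ : N) ∈ T.subgroupOf N := Subgroup.mem_subgroupOf.mpr ht
        rw [h, Subgroup.mem_bot] at this
        exact ht1 (congrArg Subtype.val this)
      have hT't := normal_isPretransitive (G := N) hprimN (T.subgroupOf N) hT'n hT'1
      intro a b
      obtain ⟨t, ht⟩ := hT't.exists_smul_eq a b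
      exact ⟨((t : N) : G), Subgroup.mem_subgroupOf.mp t.2, ht⟩
    -- the conjugate `cj g` is transitive, so `T` is semiregular
    have hcjt : IsPretransitive (T.map (MulAut.conj g).toMonoidHom) Ω := ⟨by
      intro a b
      obtain ⟨t, ht, hta⟩ := hTt (g⁻¹ • a) (g⁻¹ • b)
      refine ⟨⟨g * t * g⁻¹, ⟨t, ht, rfl⟩⟩, ?_⟩
      show (g * t * g⁻¹) • a = b
      rw [mul_smul, mul_smul, hta, smul_inv_smul]⟩
    have hTsemi : ∀ t ∈ T, ∀ a : Ω, t • a = a → t = 1 := by
      intro t ht a hta
      exact eq_one_of_commute_transitive _ hcjt t (fun c hc => (hcomm g hg t ht c hc).symm) a hta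
    obtain ⟨r₁, r₂, hr₁, hr₂, hr12, hd₁, hd₂⟩ := two_primes_dvd_card T hT1 (by
      intro z hz hzc
      have : z ∈ T ⊓ Subgroup.centralizer (T : Set G) :=
        Subgroup.mem_inf.mpr ⟨hz, Subgroup.mem_centralizer_iff.mpr hzc⟩
      rw [hZT] at this
      exact Subgroup.mem_bot.mp this)
    haveI : Fact r₁.Prime := ⟨hr₁⟩
    haveI : Fact r₂.Prime := ⟨hr₂⟩
    obtain ⟨t₁, ht₁⟩ := exists_prime_orderOf_dvd_card' (G := T) r₁ hd₁
    obtain ⟨t₂, ht₂⟩ := exists_prime_orderOf_dvd_card' (G := T) r₂ hd₂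
    have ho₁ : orderOf (t₁ : G) = r₁ := by rw [Subgroup.orderOf_coe]; exact ht₁
    have ho₂ : orderOf (t₂ : G) = r₂ := by rw [Subgroup.orderOf_coe]; exact ht₂
    have h11 : (t₁ : G) ≠ 1 := by
      intro h
      rw [h, orderOf_one] at ho₁
      exact hr₁.one_lt.ne ho₁
    have h21 : (t₂ : G) ≠ 1 := by
      intro h
      rw [h, orderOf_one] at ho₂
      exact hr₂.one_lt.ne ho₂
    have hb₁ : (t₁ : G) • ω₀ ≠ ω₀ := fun h => h11 (hTsemi _ t₁.2 ω₀ h)
    have hb₂ : (t₂ : G) • ω₀ ≠ ω₀ := fun h => h21 (hTsemi _ t₂.2 ω₀ h)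
    obtain ⟨g', hg'1, hg'2⟩ := h2' ω₀ ((t₁ : G) • ω₀) ω₀ ((t₂ : G) • ω₀) (Ne.symm hb₁)
      (Ne.symm hb₂)
    have hg'inv : g'⁻¹ • ω₀ = ω₀ := by rw [inv_smul_eq_iff, hg'1]
    have hs_mem : g' * (t₁ : G) * g'⁻¹ ∈ T.map (MulAut.conj g').toMonoidHom := ⟨t₁, t₁.2, rfl⟩
    have hs_ord : orderOf (g' * (t₁ : G) * g'⁻¹) = r₁ := by
      have h1 : orderOf (MulAut.conj g' (t₁ : G)) = orderOf (t₁ : G) := MulEquiv.orderOf_eq _ _
      rw [MulAut.conj_apply, ho₁] at h1
      exact h1
    have hfix : ((t₂ : G)⁻¹ * (g' * (t₁ : G) * g'⁻¹)) • ω₀ = ω₀ := by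
      rw [mul_smul, mul_smul, mul_smul, hg'inv, hg'2, inv_smul_smul]
    by_cases hcase : T.map (MulAut.conj g').toMonoidHom = T
    · rw [hcase] at hs_mem
      have h1 := hTsemi _ (T.mul_mem (T.inv_mem t₂.2) hs_mem) ω₀ hfix
      have h3 : g' * (t₁ : G) * g'⁻¹ = t₂ := by
        calc g' * (t₁ : G) * g'⁻¹ = t₂ * ((t₂ : G)⁻¹ * (g' * t₁ * g'⁻¹)) := by group
          _ = t₂ := by rw [h1, mul_one]
      apply hr12
      rw [← hs_ord, h3, ho₂]
    · have hc : Commute (t₂ : G)⁻¹ (g' * (t₁ : G) * g'⁻¹) :=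
        (hcomm g' hcase (t₂ : G)⁻¹ (T.inv_mem t₂.2) _ hs_mem)
      have h0 : (t₂ : G)⁻¹ * (g' * (t₁ : G) * g'⁻¹) ∈ stabilizer G ω₀ := hfix
      have h1 : ((t₂ : G)⁻¹ * (g' * (t₁ : G) * g'⁻¹)) ^ r₁ ∈ stabilizer G ω₀ :=
        (stabilizer G ω₀).pow_mem h0 _
      have hpow : (g' * (t₁ : G) * g'⁻¹) ^ r₁ = 1 := by
        rw [← hs_ord]
        exact pow_orderOf_eq_one _
      rw [hc.mul_pow, hpow, mul_one] at h1
      have h2 := hTsemi _ (T.pow_mem (T.inv_mem t₂.2) r₁) ω₀ h1
      rw [inv_pow, inv_eq_one] at h2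
      have h3 := orderOf_dvd_of_pow_eq_one h2
      rw [ho₂] at h3
      exact hr12 ((Nat.prime_dvd_prime_iff_eq hr₂ hr₁).mp h3).symm

end Cfsg.Agent.Helper59
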