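import Mathlib

/-!
# Helper59: PIECE CT of CALL S4279 (helper18): the conclusion of S4279 is invariant under
conjugation of the involution.
-/

set_option autoImplicit false

namespace Cfsg.Agent.Helper59.G2C

theorem centralizer_conj_eq_map {G : Type*} [Group G] (t c : G) :
    Subgroup.centralizer ({c * t * c⁻¹} : Set G)
      = (Subgroup.centralizer ({t} : Set G)).map (MulAut.conj c).toMonoidHom := by
  ext x
  rw [Subgroup.mem_map, Subgroup.mem_centralizer_singleton_iff]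
  constructor
  · intro hx
    refine ⟨c⁻¹ * x * c, ?_, ?_⟩
    · rw [Subgroup.mem_centralizer_singleton_iff]
      have h1 : c⁻¹ * (x * (c * t * c⁻¹)) * c = c⁻¹ * ((c * t * c⁻¹) * x) * c := by rw [hx]
      calc c⁻¹ * x * c * t = c⁻¹ * (x * (c * t * c⁻¹)) * c := by group
        _ = c⁻¹ * ((c * t * c⁻¹) * x) * c := h1
        _ = t * (c⁻¹ * x * c) := by group
    · simp [MulAut.conj_apply, mul_assoc]
  · rintro ⟨y, hy, rfl⟩
    rw [Subgroup.mem_centralizer_singleton_iff] at hy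
    simp only [MulEquiv.coe_toMonoidHom, MulAut.conj_apply]
    calc c * y * c⁻¹ * (c * t * c⁻¹) = c * (y * t) * c⁻¹ := by group
      _ = c * (t * y) * c⁻¹ := by rw [hy]
      _ = c * t * c⁻¹ * (c * y * c⁻¹) := by group

/-- PIECE CT: the conclusion of S4279 is invariant under conjugation of `t`. -/
theorem g2c_conj_transport {G : Type*} [Group G] {S : Type*} [Group S] (t c : G) (n : ℕ)
    (h : Nat.card (Subgroup.centralizer ({t} : Set G)) = n ∧ ∃ L₁ L₂ : Subgroup G,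
      Nonempty (L₁ ≃* S) ∧ Nonempty (L₂ ≃* S) ∧ (∀ x ∈ L₁, ∀ y ∈ L₂, x * y = y * x) ∧
      L₁ ⊓ L₂ = Subgroup.zpowers t ∧ L₁ ⊔ L₂ ≤ Subgroup.centralizer ({t} : Set G) ∧
      (L₁ ⊔ L₂).relIndex (Subgroup.centralizer ({t} : Set G)) = 2) :
    Nat.card (Subgroup.centralizer ({c * t * c⁻¹} : Set G)) = n ∧ ∃ L₁ L₂ : Subgroup G,
      Nonempty (L₁ ≃* S) ∧ Nonempty (L₂ ≃* S) ∧ (∀ x ∈ L₁, ∀ y ∈ L₂, x * y = y * x) ∧
      L₁ ⊓ L₂ = Subgroup.zpowers (c * t * c⁻¹) ∧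
      L₁ ⊔ L₂ ≤ Subgroup.centralizer ({c * t * c⁻¹} : Set G) ∧
      (L₁ ⊔ L₂).relIndex (Subgroup.centralizer ({c * t * c⁻¹} : Set G)) = 2 := by
  obtain ⟨hn, L₁, L₂, ⟨e₁⟩, ⟨e₂⟩, hcomm, hinf, hle, hrel⟩ := h
  have hinj : Function.Injective (MulAut.conj c).toMonoidHom := (MulAut.conj c).injective
  rw [centralizer_conj_eq_map]
  refine ⟨?_, L₁.map (MulAut.conj c).toMonoidHom, L₂.map (MulAut.conj c).toMonoidHom,
    ⟨((MulAut.conj c).subgroupMap L₁).symm.trans e₁⟩,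
    ⟨((MulAut.conj c).subgroupMap L₂).symm.trans e₂⟩, ?_, ?_, ?_, ?_⟩
  · rw [Subgroup.card_map_of_injective hinj, hn]
  · rintro _ ⟨x, hx, rfl⟩ _ ⟨y, hy, rfl⟩
    rw [← map_mul, ← map_mul, hcomm x hx y hy]
  · rw [← Subgroup.map_inf_eq _ _ _ hinj, hinf, MonoidHom.map_zpowers]
    simp [MulAut.conj_apply]
  · rw [← Subgroup.map_sup]
    exact Subgroup.map_mono hle
  · rw [← Subgroup.map_sup, Subgroup.relIndex_map_map_of_injective _ _ hinj, hrel]

end Cfsg.Agent.Helper59.G2C
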