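import Mathlib
import Cfsg.Prelude.Def_GeometricClasses
import Cfsg.Prelude.Def_Classical
import Cfsg.Agent.Helper58.TSDefs
import Cfsg.Agent.Helper45.Spinor
import Cfsg.Agent.Helper98.OPar
import Cfsg.Agent.Helper6.TSR2SKBASIS

/-!
# Sub-CALL TSR2 piece SKOMEGA (helper59): an isometry with square `-1` (`-1` a nonsquare) lies in
`Ω` iff `2 ^ d` is a square
-/

set_option autoImplicit false

namespace Cfsg.Agent.Helper59.TSR2

open Module Cfsg Cfsg.Geo Cfsg.Agent.Helper58.TS
open scoped MatrixGroups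

section aux

variable {ι : Type} [Fintype ι] [DecidableEq ι] {F : Type*} [Field F]
  (q : QuadraticForm F (ι → F)) (M : Matrix ι ι F)

/-- the list of reflection vectors -/
def skList {d : ℕ} (M : Matrix ι ι F) (v : Fin d → (ι → F)) (L : List (Fin d)) :
    List (ι → F) :=
  L.flatMap (fun j => [v j + M.mulVec (v j), v j])

/-- the product of the reflections -/
noncomputable def skProd {d : ℕ} (v : Fin d → (ι → F)) (L : List (Fin d)) : Matrix ι ι F :=
  ((skList M v L).map (fun u => Cfsg.reflectionMatrix ⇑q u)).prod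

theorem skProd_nil {d : ℕ} (v : Fin d → (ι → F)) : skProd q M v [] = 1 := rfl

theorem skProd_cons {d : ℕ} (v : Fin d → (ι → F)) (l : Fin d) (L : List (Fin d)) :
    skProd q M v (l :: L) = Cfsg.reflectionMatrix ⇑q (v l + M.mulVec (v l)) *
      Cfsg.reflectionMatrix ⇑q (v l) * skProd q M v L := by
  unfold skProd skList
  simp [List.flatMap_cons, mul_assoc]

theorem sk_polar_M (hM : ∀ x, q (M.mulVec x) = q x) (x y : ι → F) :
    QuadraticMap.polar ⇑q (M.mulVec x) (M.mulVec y) = QuadraticMap.polar ⇑q x y := by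
  unfold QuadraticMap.polar
  rw [← Matrix.mulVec_add, hM, hM, hM]

theorem sk_MM (hM2 : M * M = -1) (x : ι → F) : M.mulVec (M.mulVec x) = -x := by
  rw [Matrix.mulVec_mulVec, hM2, Matrix.neg_mulVec, Matrix.one_mulVec]

theorem sk_polar_self (h2 : (2 : F) ≠ 0) (hM : ∀ x, q (M.mulVec x) = q x) (hM2 : M * M = -1)
    (x : ι → F) : QuadraticMap.polar ⇑q x (M.mulVec x) = 0 := by
  have h1 := sk_polar_M q M hM x (M.mulVec x)
  rw [sk_MM M hM2, QuadraticMap.polar_neg_right, QuadraticMap.polar_comm] at h1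
  have h3 : (2 : F) * QuadraticMap.polar ⇑q x (M.mulVec x) = 0 := by
    linear_combination -h1
  rcases mul_eq_zero.mp h3 with h | h
  · exact absurd h h2
  · exact h

/-- a reflection pair fixes the vectors orthogonal to its plane -/
theorem sk_fix (v₀ x : ι → F) (h1 : QuadraticMap.polar ⇑q v₀ x = 0)
    (h2' : QuadraticMap.polar ⇑q (M.mulVec v₀) x = 0) :
    (Cfsg.reflectionMatrix ⇑q (v₀ + M.mulVec v₀) * Cfsg.reflectionMatrix ⇑q v₀).mulVec x = x := by
  have hin : (Cfsg.reflectionMatrix ⇑q v₀).mulVec x = x := by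
    rw [Cfsg.Agent.Helper13.reflectionMatrix_mulVec, h1, mul_zero, zero_smul, sub_zero]
  rw [← Matrix.mulVec_mulVec, hin, Cfsg.Agent.Helper13.reflectionMatrix_mulVec,
    QuadraticMap.polar_add_left, h1, h2', add_zero, mul_zero, zero_smul, sub_zero]

theorem sk_q_add (h2 : (2 : F) ≠ 0) (hM : ∀ x, q (M.mulVec x) = q x) (hM2 : M * M = -1)
    (v₀ : ι → F) : q (v₀ + M.mulVec v₀) = 2 * q v₀ := by
  rw [QuadraticMap.map_add q v₀ (M.mulVec v₀), hM, sk_polar_self q M h2 hM hM2]
  ring

/-- the reflection pair on its own plane, first vector -/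
theorem sk_rot1 (h2 : (2 : F) ≠ 0) (hM : ∀ x, q (M.mulVec x) = q x) (hM2 : M * M = -1)
    (v₀ : ι → F) (hv₀ : q v₀ ≠ 0) :
    (Cfsg.reflectionMatrix ⇑q (v₀ + M.mulVec v₀) * Cfsg.reflectionMatrix ⇑q v₀).mulVec v₀
      = M.mulVec v₀ := by
  have hps := sk_polar_self q M h2 hM hM2 v₀
  have hps' : QuadraticMap.polar ⇑q (M.mulVec v₀) v₀ = 0 := by
    rw [QuadraticMap.polar_comm]; exact hps
  have hself : QuadraticMap.polar ⇑q v₀ v₀ = 2 * q v₀ := by
    rw [QuadraticMap.polar_self]; simp
  have h2q : (2 : F) * q v₀ ≠ 0 := mul_ne_zero h2 hv₀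
  have hin : (Cfsg.reflectionMatrix ⇑q v₀).mulVec v₀ = -v₀ := by
    rw [Cfsg.Agent.Helper13.reflectionMatrix_mulVec, hself]
    have e1 : (q v₀)⁻¹ * (2 * q v₀) = 2 := by field_simp
    rw [e1, two_smul]
    abel
  rw [← Matrix.mulVec_mulVec, hin, Cfsg.Agent.Helper13.reflectionMatrix_mulVec,
    sk_q_add q M h2 hM hM2]
  have e2 : QuadraticMap.polar ⇑q (v₀ + M.mulVec v₀) (-v₀) = -(2 * q v₀) := by
    rw [QuadraticMap.polar_neg_right, QuadraticMap.polar_add_left, hself, hps', add_zero]
  rw [e2]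
  have e3 : (2 * q v₀)⁻¹ * -(2 * q v₀) = -1 := by field_simp
  rw [e3, neg_one_smul]
  abel

/-- the reflection pair on its own plane, second vector -/
theorem sk_rot2 (h2 : (2 : F) ≠ 0) (hM : ∀ x, q (M.mulVec x) = q x) (hM2 : M * M = -1)
    (v₀ : ι → F) (hv₀ : q v₀ ≠ 0) :
    (Cfsg.reflectionMatrix ⇑q (v₀ + M.mulVec v₀) * Cfsg.reflectionMatrix ⇑q v₀).mulVec
      (M.mulVec v₀) = -v₀ := by
  have hps := sk_polar_self q M h2 hM hM2 v₀
  have hself : QuadraticMap.polar ⇑q (M.mulVec v₀) (M.mulVec v₀) = 2 * q v₀ := by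
    rw [QuadraticMap.polar_self, hM]; simp
  have h2q : (2 : F) * q v₀ ≠ 0 := mul_ne_zero h2 hv₀
  have hin : (Cfsg.reflectionMatrix ⇑q v₀).mulVec (M.mulVec v₀) = M.mulVec v₀ := by
    rw [Cfsg.Agent.Helper13.reflectionMatrix_mulVec, hps, mul_zero, zero_smul, sub_zero]
  rw [← Matrix.mulVec_mulVec, hin, Cfsg.Agent.Helper13.reflectionMatrix_mulVec,
    sk_q_add q M h2 hM hM2, QuadraticMap.polar_add_left, hps, hself, zero_add]
  have e3 : (2 * q v₀)⁻¹ * (2 * q v₀) = 1 := by field_simp
  rw [e3, one_smul]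
  abel

section lists

variable {d : ℕ} (v : Fin d → (ι → F))

theorem skList_cons (l : Fin d) (L : List (Fin d)) :
    skList M v (l :: L) = (v l + M.mulVec (v l)) :: v l :: skList M v L := by
  simp [skList, List.flatMap_cons]

/-- the product fixes the vectors orthogonal to all the planes -/
theorem sk_prod_fix (L : List (Fin d)) (x : ι → F)
    (hx : ∀ l ∈ L, QuadraticMap.polar ⇑q (v l) x = 0 ∧
      QuadraticMap.polar ⇑q (M.mulVec (v l)) x = 0) :
    (skProd q M v L).mulVec x = x := by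
  induction L with
  | nil => rw [skProd_nil, Matrix.one_mulVec]
  | cons l L ih =>
    rw [skProd_cons, ← Matrix.mulVec_mulVec,
      ih (fun l' hl' => hx l' (List.mem_cons_of_mem _ hl'))]
    exact sk_fix q M (v l) x (hx l List.mem_cons_self).1 (hx l List.mem_cons_self).2

/-- the product rotates each plane -/
theorem sk_prod_rot (h2 : (2 : F) ≠ 0) (hM : ∀ x, q (M.mulVec x) = q x) (hM2 : M * M = -1)
    (hv : ∀ j, q (v j) ≠ 0)
    (horth : ∀ j l, j ≠ l → QuadraticMap.polar ⇑q (v j) (v l) = 0 ∧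
      QuadraticMap.polar ⇑q (v j) (M.mulVec (v l)) = 0)
    (L : List (Fin d)) (hL : L.Nodup) (j : Fin d) (hj : j ∈ L) :
    (skProd q M v L).mulVec (v j) = M.mulVec (v j) ∧
      (skProd q M v L).mulVec (M.mulVec (v j)) = -v j := by
  induction L with
  | nil => exact absurd hj List.not_mem_nil
  | cons l L ih =>
    rw [skProd_cons]
    have hnd := List.nodup_cons.mp hL
    rcases List.mem_cons.mp hj with hjl | hjL
    · rw [hjl]
      have hfix1 : (skProd q M v L).mulVec (v l) = v l := by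
        apply sk_prod_fix
        intro l' hl'
        have hne : l' ≠ l := fun h => hnd.1 (h ▸ hl')
        refine ⟨(horth l' l hne).1, ?_⟩
        rw [QuadraticMap.polar_comm]
        exact (horth l l' (Ne.symm hne)).2
      have hfix2 : (skProd q M v L).mulVec (M.mulVec (v l)) = M.mulVec (v l) := by
        apply sk_prod_fix
        intro l' hl'
        have hne : l' ≠ l := fun h => hnd.1 (h ▸ hl')
        refine ⟨(horth l' l hne).2, ?_⟩
        rw [sk_polar_M q M hM]
        exact (horth l' l hne).1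
      constructor
      · rw [← Matrix.mulVec_mulVec, hfix1]
        exact sk_rot1 q M h2 hM hM2 (v l) (hv l)
      · rw [← Matrix.mulVec_mulVec, hfix2]
        exact sk_rot2 q M h2 hM hM2 (v l) (hv l)
    · have hne : l ≠ j := fun h => hnd.1 (h ▸ hjL)
      obtain ⟨ih1, ih2⟩ := ih hnd.2 hjL
      constructor
      · rw [← Matrix.mulVec_mulVec, ih1]
        apply sk_fix
        · exact (horth l j hne).2
        · rw [sk_polar_M q M hM]
          exact (horth l j hne).1
      · rw [← Matrix.mulVec_mulVec, ih2, Matrix.mulVec_neg]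
        congr 1
        apply sk_fix
        · exact (horth l j hne).1
        · rw [QuadraticMap.polar_comm]
          exact (horth j l (Ne.symm hne)).2

theorem sk_length (L : List (Fin d)) : (skList M v L).length = 2 * L.length := by
  induction L with
  | nil => rfl
  | cons l L ih =>
    rw [skList_cons, List.length_cons, List.length_cons, ih, List.length_cons]
    ring

theorem sk_norm (h2 : (2 : F) ≠ 0) (hM : ∀ x, q (M.mulVec x) = q x) (hM2 : M * M = -1)
    (L : List (Fin d)) :
    ((skList M v L).map (fun u => q u)).prod =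
      2 ^ L.length * ((L.map (fun j => q (v j))).prod) ^ 2 := by
  induction L with
  | nil => simp [skList]
  | cons l L ih =>
    rw [skList_cons, List.map_cons, List.map_cons, List.prod_cons, List.prod_cons, ih,
      sk_q_add q M h2 hM hM2, List.map_cons, List.prod_cons, List.length_cons]
    ring

theorem sk_norm_ne (hv : ∀ j, q (v j) ≠ 0) (L : List (Fin d)) :
    (L.map (fun j => q (v j))).prod ≠ 0 := by
  induction L with
  | nil => simp
  | cons l L ih =>
    rw [List.map_cons, List.prod_cons]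
    exact mul_ne_zero (hv l) ih

theorem sk_mem (h2 : (2 : F) ≠ 0) (hM : ∀ x, q (M.mulVec x) = q x) (hM2 : M * M = -1)
    (hv : ∀ j, q (v j) ≠ 0) (L : List (Fin d)) : ∀ u ∈ skList M v L, q u ≠ 0 := by
  intro u hu
  unfold skList at hu
  obtain ⟨j, -, hj⟩ := List.mem_flatMap.mp hu
  rcases List.mem_cons.mp hj with rfl | hj'
  · rw [sk_q_add q M h2 hM hM2]
    exact mul_ne_zero h2 (hv j)
  · rw [List.mem_singleton.mp hj']
    exact hv j

end lists

end aux

section pieces

variable {ι : Type} [Fintype ι] [DecidableEq ι] {F : Type*} [Field F] [Fintype F]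

/-- SKOMEGA [L] (uses SKBASIS and `Helper45.mem_omega_prod_refl`): with `v` from SKBASIS,
`M = ∏_j reflectionMatrix Q (v j + M v j) * reflectionMatrix Q (v j)` (on `⟨v, M v⟩`:
`r_{v+Mv} r_v` sends `v ↦ M v`, `M v ↦ -v`; `Q (v + M v) = 2 Q v`), a product of `2d` reflections
with norm product `2^d ∏ (Q (v j))²`. -/
theorem r2_skew_omega (Q : (ι → F) → F) (hQ : IsNondegenerateQuadraticForm Q) (h2 : (2 : F) ≠ 0)
    (d : ℕ) (hd : 1 ≤ d) (hcard : Fintype.card ι = 2 * d) (g : ↥(Cfsg.isometryGroup F Q))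
    (hg2 : ((g : GL ι F) : Matrix ι ι F) * ((g : GL ι F) : Matrix ι ι F) = -1)
    (hm1 : ¬ IsSquare (-1 : F)) : g ∈ Cfsg.Omega F Q ↔ IsSquare ((2 : F) ^ d) := by
  classical
  obtain ⟨q, hq⟩ : ∃ q : QuadraticForm F (ι → F), q = Cfsg.Agent.Helper98.op_qf Q hQ := ⟨_, rfl⟩
  have hqQ : ∀ x, q x = Q x := fun x => by rw [hq]; rfl
  obtain ⟨M, hMdef⟩ : ∃ M : Matrix ι ι F, M = ((g : GL ι F) : Matrix ι ι F) := ⟨_, rfl⟩
  rw [← hMdef] at hg2
  have hMQ : ∀ x, Q (M.mulVec x) = Q x := by
    rw [hMdef]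
    exact (Cfsg.Agent.Helper45.mem_iso_iff Q g.1).mp g.2
  have hM : ∀ x, q (M.mulVec x) = q x := fun x => by rw [hqQ, hqQ, hMQ]
  obtain ⟨v, hv', horth'⟩ :=
    Cfsg.Agent.Helper6.TSR2.r2_skew_basis Q hQ h2 d hcard M hMQ hg2 hm1
  have hv : ∀ j, q (v j) ≠ 0 := fun j => by rw [hqQ]; exact hv' j
  have horth : ∀ j l, j ≠ l → QuadraticMap.polar ⇑q (v j) (v l) = 0 ∧
      QuadraticMap.polar ⇑q (v j) (M.mulVec (v l)) = 0 := by
    intro j l hjl
    have h := horth' j l hjl
    rw [hq]
    exact h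
  -- the orthogonal basis `v j, M v j`
  obtain ⟨b, hb⟩ : ∃ b : Fin d ⊕ Fin d → (ι → F), b = Sum.elim v (fun j => M.mulVec (v j)) :=
    ⟨_, rfl⟩
  have hbl : ∀ j, b (Sum.inl j) = v j := fun j => by rw [hb]; rfl
  have hbr : ∀ j, b (Sum.inr j) = M.mulVec (v j) := fun j => by rw [hb]; rfl
  have hbq : ∀ i, q (b i) ≠ 0 := by
    rintro (j | j)
    · rw [hbl]; exact hv j
    · rw [hbr, hM]; exact hv j
  have hborth : ∀ i i', i ≠ i' → QuadraticMap.polar ⇑q (b i) (b i') = 0 := by
    rintro (j | j) (l | l) hne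
    · rw [hbl, hbl]
      exact (horth j l (fun h => hne (by rw [h]))).1
    · rw [hbl, hbr]
      by_cases hjl : j = l
      · rw [hjl]
        exact sk_polar_self q M h2 hM hg2 (v l)
      · exact (horth j l hjl).2
    · rw [hbr, hbl, QuadraticMap.polar_comm]
      by_cases hjl : l = j
      · rw [hjl]
        exact sk_polar_self q M h2 hM hg2 (v j)
      · exact (horth l j hjl).2
    · rw [hbr, hbr, sk_polar_M q M hM]
      exact (horth j l (fun h => hne (by rw [h]))).1
  have hli : LinearIndependent F b := by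
    apply LinearMap.BilinForm.linearIndependent_of_iIsOrtho (B := QuadraticMap.polarBilin q)
    · intro i i' hne
      exact hborth i i' hne
    · intro i hi
      have h1 : QuadraticMap.polar ⇑q (b i) (b i) = 0 := hi
      rw [QuadraticMap.polar_self] at h1
      have h3 : (2 : F) * q (b i) = 0 := by simpa using h1
      rcases mul_eq_zero.mp h3 with h | h
      · exact h2 h
      · exact hbq i h
  have hspan : Submodule.span F (Set.range b) = ⊤ := by
    apply hli.span_eq_top_of_card_eq_finrank'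
    rw [Module.finrank_fintype_fun_eq_card, hcard, Fintype.card_sum, Fintype.card_fin]
    ring
  have hLnd : (List.finRange d).Nodup := List.nodup_finRange d
  have hMP : M = skProd q M v (List.finRange d) := by
    apply Matrix.toLin'.injective
    apply LinearMap.ext_on_range hspan
    rintro (j | j)
    · rw [hbl, Matrix.toLin'_apply, Matrix.toLin'_apply]
      exact ((sk_prod_rot q M v h2 hM hg2 hv horth _ hLnd j (List.mem_finRange j)).1).symm
    · rw [hbr, Matrix.toLin'_apply, Matrix.toLin'_apply, sk_MM M hg2]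
      exact ((sk_prod_rot q M v h2 hM hg2 hv horth _ hLnd j (List.mem_finRange j)).2).symm
  have hcard2 : 2 ≤ Fintype.card ι := by omega
  have hnd : (QuadraticMap.polarBilin q).Nondegenerate := by
    rw [hq]
    exact Cfsg.Agent.Helper98.op_qf_nondeg Q hQ
  subst hq
  have key := Cfsg.Agent.Helper45.mem_omega_prod_refl (Cfsg.Agent.Helper98.op_qf Q hQ) h2 hnd hcard2
    (skList M v (List.finRange d)) (sk_mem _ M v h2 hM hg2 hv _) g
    (by rw [← hMdef]; exact hMP)
  refine Iff.trans key ?_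
  rw [sk_length, sk_norm _ M v h2 hM hg2, List.length_finRange]
  have hc := sk_norm_ne (Cfsg.Agent.Helper98.op_qf Q hQ) v hv (List.finRange d)
  constructor
  · rintro ⟨-, s, hs⟩
    refine ⟨s / (List.map (fun j => (Cfsg.Agent.Helper98.op_qf Q hQ) (v j)) (List.finRange d)).prod, ?_⟩
    field_simp
    linear_combination hs
  · rintro ⟨t, ht⟩
    refine ⟨even_two_mul d, ⟨t * (List.map (fun j => (Cfsg.Agent.Helper98.op_qf Q hQ) (v j))
      (List.finRange d)).prod, ?_⟩⟩
    rw [ht]
    ring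

end pieces

end Cfsg.Agent.Helper59.TSR2
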