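import Mathlib
import Cfsg.Prelude.Def_GeometricClasses
import Cfsg.Agent.Helper90.UFRDefs
import Cfsg.Agent.Helper90.UFRBase
import Cfsg.Agent.Helper78.UFRPAIRING
import Cfsg.Agent.Helper80.SFRCount

/-!
# S5982, piece GOODDIAG (helper59, double): an element with an eigenbasis whose eigenvalue multiset
is stable under `t ↦ c / t ^ q₀` (`c ^ q₀ = c`) is conjugate by `SL` into the unitary similarity
group.
-/

set_option autoImplicit false

namespace Cfsg.Agent.Helper59

open Module Polynomial Cfsg.Agent.Helper90.UFR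

section fin
variable {F : Type*} [Field F] [Fintype F]

theorem good_of_diag59 (q₀ : ℕ) (hq : Fintype.card F = q₀ ^ 2) (n : ℕ) (hn : 0 < n)
    (f : (Fin n → F) → (Fin n → F) → F) (hf : Cfsg.Geo.IsUnitaryFormPow q₀ f)
    (x : GL (Fin n) F) (b : Basis (Fin n) F (Fin n → F)) (d : Fin n → F)
    (hb : ∀ i, (x : Matrix (Fin n) (Fin n) F).mulVec (b i) = d i • b i)
    (c : F) (hc : c ≠ 0) (hcq : c ^ q₀ = c)
    (hd : (Finset.univ.val.map fun i : Fin n => (d i) ^ q₀)
      = Finset.univ.val.map fun i : Fin n => c * (d i)⁻¹) : IsConjU f x := by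
  classical
  obtain ⟨σ, J, hσ, hσσ, -⟩ := ufr_setup q₀ hq n f hf
  have hpow2 : ∀ t : F, (t ^ q₀) ^ q₀ = t := by
    intro t
    rw [← hσ, ← hσ, hσσ]
  have hq0 : q₀ ≠ 0 := by
    rintro rfl
    have := Fintype.card_pos (α := F)
    rw [hq] at this
    simp at this
  -- the eigenvalues are non-zero
  have hd0 : ∀ i, d i ≠ 0 := by
    intro i hi
    have h1 := hb i
    rw [hi, zero_smul] at h1
    have h2 : ((x⁻¹ : GL (Fin n) F) : Matrix (Fin n) (Fin n) F).mulVec
        ((x : Matrix (Fin n) (Fin n) F).mulVec (b i)) = b i := by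
      rw [Matrix.mulVec_mulVec, ← Units.val_mul, inv_mul_cancel, Units.val_one,
        Matrix.one_mulVec]
    rw [h1, Matrix.mulVec_zero] at h2
    exact b.ne_zero i h2.symm
  -- the involution on labels
  obtain ⟨s, hsdef⟩ : ∃ s : F → F, ∀ a, s a = c / a ^ q₀ := ⟨fun a => c / a ^ q₀, fun _ => rfl⟩
  have hs0 : s 0 = 0 := by
    rw [hsdef, zero_pow hq0, div_zero]
  have hs : ∀ a, s (s a) = a := by
    intro a
    by_cases ha : a = 0
    · subst ha
      rw [hs0, hs0]
    · rw [hsdef, hsdef, div_pow, hcq, hpow2]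
      field_simp
  have hfib : ∀ a, (Finset.univ.filter fun i => d i = a).card
      = (Finset.univ.filter fun i => d i = s a).card := by
    intro a
    by_cases ha : a = 0
    · subst ha
      rw [hs0]
    · have h1 := Cfsg.Agent.Helper80.SFRCount.sfr_count_eq (fun i : Fin n => c * (d i)⁻¹)
        (fun i : Fin n => (d i) ^ q₀) hd (c * a⁻¹)
      have e1 : (Finset.univ.filter fun i : Fin n => (d i) ^ q₀ = c * a⁻¹)
          = Finset.univ.filter fun i => d i = s a := by
        ext i
        simp only [Finset.mem_filter, Finset.mem_univ, true_and]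
        constructor
        · intro h
          have h2 : (d i ^ q₀) ^ q₀ = (c * a⁻¹) ^ q₀ := by rw [h]
          rw [hpow2, mul_pow, hcq, inv_pow] at h2
          rw [h2, hsdef, div_eq_mul_inv]
        · intro h
          rw [h, hsdef, div_pow, hcq, hpow2, div_eq_mul_inv]
      have e2 : (Finset.univ.filter fun i : Fin n => c * (d i)⁻¹ = c * a⁻¹)
          = Finset.univ.filter fun i => d i = a := by
        ext i
        simp only [Finset.mem_filter, Finset.mem_univ, true_and]
        constructor
        · intro h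
          exact inv_injective (mul_left_cancel₀ hc h)
        · intro h
          rw [h]
      rw [e1, e2] at h1
      exact h1.symm
  obtain ⟨π, hπ, hπd⟩ := Cfsg.Agent.Helper78.exists_pairing d s hs hfib
  -- the matrices
  obtain ⟨P, hP⟩ : ∃ P : Matrix (Fin n) (Fin n) F, P = (Pi.basisFun F (Fin n)).toMatrix b :=
    ⟨_, rfl⟩
  obtain ⟨Q, hQ⟩ : ∃ Q : Matrix (Fin n) (Fin n) F, Q = b.toMatrix (Pi.basisFun F (Fin n)) :=
    ⟨_, rfl⟩
  have hPQ : P * Q = 1 := by
    rw [hP, hQ]
    exact Module.Basis.toMatrix_mul_toMatrix_flip _ _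
  have hQP : Q * P = 1 := by
    rw [hP, hQ]
    exact Module.Basis.toMatrix_mul_toMatrix_flip _ _
  have hPent : ∀ j i, P j i = b i j := by
    intro j i
    rw [hP, Module.Basis.toMatrix_apply, Pi.basisFun_repr]
  have hxP : (x : Matrix (Fin n) (Fin n) F) * P = P * Matrix.diagonal d := by
    ext j i
    rw [Matrix.mul_diagonal, hPent]
    have h1 := congrFun (hb i) j
    rw [Pi.smul_apply, smul_eq_mul] at h1
    rw [mul_comm, ← h1, Matrix.mul_apply, Matrix.mulVec, dotProduct]
    apply Finset.sum_congr rfl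
    intro k _
    rw [hPent]
  have hx : (x : Matrix (Fin n) (Fin n) F) = P * Matrix.diagonal d * Q := by
    rw [← hxP, mul_assoc, hPQ, mul_one]
  obtain ⟨J₀, hJ₀⟩ : ∃ J₀ : Matrix (Fin n) (Fin n) F,
      J₀ = Matrix.of fun i j => if π i = j then (1 : F) else 0 := ⟨_, rfl⟩
  have hJ₀ent : ∀ i j, J₀ i j = if π i = j then (1 : F) else 0 := by
    intro i j
    rw [hJ₀]
    rfl
  have hJ₀t : J₀.transpose = J₀ := by
    ext i j
    rw [Matrix.transpose_apply, hJ₀ent, hJ₀ent]
    have : π j = i ↔ π i = j := by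
      constructor
      · intro h
        rw [← h, hπ]
      · intro h
        rw [← h, hπ]
    simp only [this]
  have hJ₀σ : J₀.map σ = J₀ := by
    ext i j
    rw [Matrix.map_apply, hJ₀ent]
    split_ifs
    · exact map_one σ
    · exact map_zero σ
  have hJ₀sq : J₀ * J₀ = 1 := by
    ext i k
    rw [Matrix.mul_apply, Matrix.one_apply]
    rw [Finset.sum_eq_single (π i)]
    · rw [hJ₀ent, hJ₀ent, if_pos rfl, hπ, one_mul]
    · intro j _ hj
      rw [hJ₀ent, if_neg (fun h => hj h.symm), zero_mul]
    · intro h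
      exact absurd (Finset.mem_univ _) h
  have hmapmul : ∀ L M : Matrix (Fin n) (Fin n) F, (L * M).map σ = L.map σ * M.map σ :=
    fun L M => Matrix.map_mul (f := (σ : F →+* F))
  have hmapone : (1 : Matrix (Fin n) (Fin n) F).map σ = 1 :=
    Matrix.map_one _ (map_zero σ) (map_one σ)
  have hmapmap : ∀ M : Matrix (Fin n) (Fin n) F, (M.map σ).map σ = M := by
    intro M
    ext i j
    rw [Matrix.map_apply, Matrix.map_apply, hσσ]
  have hDσ : (Matrix.diagonal d).map σ = Matrix.diagonal (fun i => σ (d i)) :=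
    Matrix.diagonal_map (map_zero σ)
  have hDJ : Matrix.diagonal d * J₀ * (Matrix.diagonal d).map σ = c • J₀ := by
    ext i j
    rw [hDσ, Matrix.mul_diagonal, Matrix.diagonal_mul, Matrix.smul_apply, hJ₀ent, smul_eq_mul]
    split_ifs with h
    · rw [← h, hπd, hσ, hsdef, div_pow, hcq, hpow2, mul_one, mul_one]
      field_simp [hd0 i]
    · rw [mul_zero, zero_mul, mul_zero]
  have hQσPσ : Q.map σ * P.map σ = 1 := by
    rw [← hmapmul, hQP, hmapone]
  obtain ⟨J', hJ'⟩ : ∃ J' : Matrix (Fin n) (Fin n) F, J' = Q.transpose * J₀ * Q.map σ :=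
    ⟨_, rfl⟩
  have hJ'det : J'.det ≠ 0 := by
    apply Matrix.det_ne_zero_of_right_inverse (B := P.map σ * J₀ * P.transpose)
    rw [hJ']
    calc Q.transpose * J₀ * Q.map σ * (P.map σ * J₀ * P.transpose)
        = Q.transpose * J₀ * (Q.map σ * P.map σ) * J₀ * P.transpose := by
          simp only [Matrix.mul_assoc]
      _ = Q.transpose * (J₀ * J₀) * P.transpose := by
          rw [hQσPσ, Matrix.mul_one]
          simp only [Matrix.mul_assoc]
      _ = 1 := by
          rw [hJ₀sq, Matrix.mul_one, ← Matrix.transpose_mul, hPQ, Matrix.transpose_one]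
  have hJ't : J'.transpose = J'.map σ := by
    rw [hJ', Matrix.transpose_mul, Matrix.transpose_mul, Matrix.transpose_transpose, hJ₀t,
      hmapmul, hmapmul, hmapmap, hJ₀σ, Matrix.transpose_map, Matrix.mul_assoc]
  have hxJ : (x : Matrix (Fin n) (Fin n) F).transpose * J'
      * (x : Matrix (Fin n) (Fin n) F).map σ = c • J' := by
    rw [hx, hJ', Matrix.transpose_mul, Matrix.transpose_mul, Matrix.diagonal_transpose, hmapmul,
      hmapmul]
    calc Q.transpose * (Matrix.diagonal d * P.transpose) * (Q.transpose * J₀ * Q.map σ)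
          * (P.map σ * (Matrix.diagonal d).map σ * Q.map σ)
        = Q.transpose * Matrix.diagonal d * (P.transpose * Q.transpose) * J₀
          * (Q.map σ * P.map σ) * (Matrix.diagonal d).map σ * Q.map σ := by
          simp only [Matrix.mul_assoc]
      _ = Q.transpose * (Matrix.diagonal d * J₀ * (Matrix.diagonal d).map σ) * Q.map σ := by
          rw [hQσPσ, ← Matrix.transpose_mul, hQP, Matrix.transpose_one, Matrix.mul_one,
            Matrix.mul_one]
          simp only [Matrix.mul_assoc]
      _ = c • (Q.transpose * J₀ * Q.map σ) := by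
          rw [hDJ, Matrix.mul_smul, Matrix.smul_mul]
  have hdetPQ : P.det * Q.det = 1 := by
    rw [← Matrix.det_mul, hPQ, Matrix.det_one]
  have hcent : ∀ δ : F, δ ≠ 0 → ∃ C : GL (Fin n) F, C * x = x * C ∧
      (C : Matrix (Fin n) (Fin n) F).det = δ := by
    intro δ hδ
    obtain ⟨e, he⟩ : ∃ e : Fin n → F, e = Function.update (fun _ => (1 : F)) ⟨0, hn⟩ δ :=
      ⟨_, rfl⟩
    have hedet : (P * Matrix.diagonal e * Q).det = δ := by
      rw [Matrix.det_mul, Matrix.det_mul, Matrix.det_diagonal, mul_right_comm, hdetPQ, one_mul,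
        he, Finset.prod_update_of_mem (Finset.mem_univ _)]
      simp
    have hdet0 : (P * Matrix.diagonal e * Q).det ≠ 0 := by
      rw [hedet]
      exact hδ
    refine ⟨Matrix.GeneralLinearGroup.mkOfDetNeZero (P * Matrix.diagonal e * Q) hdet0, ?_,
      hedet⟩
    apply Units.ext
    rw [Units.val_mul, Units.val_mul]
    show P * Matrix.diagonal e * Q * (x : Matrix (Fin n) (Fin n) F)
      = (x : Matrix (Fin n) (Fin n) F) * (P * Matrix.diagonal e * Q)
    rw [hx]
    calc P * Matrix.diagonal e * Q * (P * Matrix.diagonal d * Q)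
        = P * Matrix.diagonal e * (Q * P) * Matrix.diagonal d * Q := by
          simp only [Matrix.mul_assoc]
      _ = P * (Matrix.diagonal e * Matrix.diagonal d) * Q := by
          rw [hQP, Matrix.mul_one]
          simp only [Matrix.mul_assoc]
      _ = P * (Matrix.diagonal d * Matrix.diagonal e) * Q := by
          rw [Matrix.diagonal_mul_diagonal, Matrix.diagonal_mul_diagonal]
          congr 3
          ext i
          exact mul_comm _ _
      _ = P * Matrix.diagonal d * (Q * P) * Matrix.diagonal e * Q := by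
          rw [hQP, Matrix.mul_one]
          simp only [Matrix.mul_assoc]
      _ = P * Matrix.diagonal d * Q * (P * Matrix.diagonal e * Q) := by
          simp only [Matrix.mul_assoc]
  exact conj_of_model q₀ hq n f hf σ hσ x J' hJ'det hJ't c hc hxJ hcent

end fin

end Cfsg.Agent.Helper59
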