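import Mathlib
import Cfsg.Agent.Helper45.IDMinus
import Cfsg.Agent.Helper43.OrthSemi
import Cfsg.Agent.Helper43.USimDet
import Cfsg.Agent.Helper43.NormGen

/-!
# Helper59: core of PIECE TRANS of CALL S2720 (helper43).

From a model `(M, j, z, γ)`, the projection `P` (piece PROJ) and the isometry `u` (piece UDEF):
`u` commutes with `g` and satisfies all hypotheses of piece SPIN.
-/

set_option autoImplicit false
set_option linter.unusedVariables false
set_option linter.unusedSectionVars false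

namespace Cfsg.Agent.Helper59.PFTRANSCore

open Cfsg Matrix Polynomial Cfsg.Agent.Helper45 Cfsg.Agent.Helper45.ID

universe u

variable {ι : Type} [Fintype ι] [DecidableEq ι] {F : Type u} [Field F] [Fintype F]

theorem mat_ext_mv (A B : Matrix ι ι F) (h : ∀ x, A *ᵥ x = B *ᵥ x) : A = B := by
  ext i k
  have := congrFun (h (Pi.single k 1)) i
  simpa using this

theorem pf_transport_core (Q : QuadraticForm F (ι → F))
    (g : ↥(isometryGroup F ⇑Q)) {M : Type*} [AddCommGroup M] [Module F M] [Finite M]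
    (j : M →ₗ[F] (ι → F)) (z γ : M →ₗ[F] M) (n : ℕ) (o : F → ℕ)
    (hγ : ∀ m : M, ((g : GL ι F) : Matrix ι ι F) *ᵥ j m = j (γ m))
    (hzγ : ∀ m : M, z (γ m) = γ (z m))
    (hnd : ∀ m : M, (∀ m' : M, QuadraticMap.polar ⇑Q (j m) (j m') = 0) → m = 0)
    (hfree : ∀ m : M, m ≠ 0 → ∀ i : ℕ, (z ^ i) m = m → n ∣ i) (hzn : z ^ n = 1)
    (hcount : ∀ d : F, Nat.card {m : M // m ≠ 0 ∧ Q (j m) = d} = n * o d)
    (P : Matrix ι ι F) (hP : P * P = P) (hPj : ∀ m : M, P *ᵥ j m = j m)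
    (hPr : ∀ x : ι → F, ∃ m : M, P *ᵥ x = j m)
    (horth : ∀ x y : ι → F, QuadraticMap.polar ⇑Q (P *ᵥ x) ((1 - P) *ᵥ y) = 0)
    (u : ↥(isometryGroup F ⇑Q))
    (huj : ∀ m : M, ((u : GL ι F) : Matrix ι ι F) *ᵥ j m = j (z m))
    (hu1 : ((u : GL ι F) : Matrix ι ι F) * (1 - P) = 1 - P) :
    u * g = g * u ∧
    ((u : GL ι F) : Matrix ι ι F) * P = P * ((u : GL ι F) : Matrix ι ι F) ∧
    (∀ y : ι → F, P *ᵥ y = y → y ≠ 0 →
      ∀ i : ℕ, (((u : GL ι F) : Matrix ι ι F) ^ i) *ᵥ y = y → n ∣ i) ∧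
    ((u : GL ι F) : Matrix ι ι F) ^ n = 1 ∧
    (∀ d : F, Nat.card {y : ι → F // P *ᵥ y = y ∧ y ≠ 0 ∧ Q y = d} = n * o d) := by
  have hj : Function.Injective j := by
    apply (injective_iff_map_eq_zero j).mpr
    intro m hm
    apply hnd m
    intro m'
    rw [hm, QuadraticMap.polar_zero_left]
  set U : Matrix ι ι F := ((u : GL ι F) : Matrix ι ι F) with hUdef
  set Gm : Matrix ι ι F := ((g : GL ι F) : Matrix ι ι F) with hGdef
  have hPUP : P * (U * P) = U * P := by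
    apply mat_ext_mv
    intro x
    rw [← Matrix.mulVec_mulVec, ← Matrix.mulVec_mulVec]
    obtain ⟨m, hm⟩ := hPr x
    rw [hm, huj, hPj]
  have hPkill : P * (1 - P) = 0 := by
    rw [Matrix.mul_sub, Matrix.mul_one, hP, sub_self]
  have hsplit : P + (1 - P) = 1 := by abel
  have hU : U = U * P + (1 - P) := by
    conv_lhs => rw [← Matrix.mul_one U, ← hsplit, Matrix.mul_add, hu1]
  have huP : U * P = P * U := by
    calc U * P = P * (U * P) + P * (1 - P) := by rw [hPUP, hPkill, add_zero]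
      _ = P * (U * P + (1 - P)) := by rw [Matrix.mul_add]
      _ = P * U := by rw [← hU]
  have hpowj : ∀ (i : ℕ) (m : M), (U ^ i) *ᵥ j m = j ((z ^ i) m) := by
    intro i
    induction i with
    | zero => intro m; simp
    | succ i ih =>
      intro m
      rw [pow_succ, ← Matrix.mulVec_mulVec, huj, ih, pow_succ, Module.End.mul_apply]
  have hpow1 : ∀ i : ℕ, U ^ i * (1 - P) = 1 - P := by
    intro i
    induction i with
    | zero => simp
    | succ i ih => rw [pow_succ, Matrix.mul_assoc, hu1, ih]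
  have hfree' : ∀ y : ι → F, P *ᵥ y = y → y ≠ 0 → ∀ i : ℕ, (U ^ i) *ᵥ y = y → n ∣ i := by
    intro y hy hy0 i hi
    obtain ⟨m, hm⟩ := hPr y
    rw [hy] at hm
    have hm0 : m ≠ 0 := by
      rintro rfl
      rw [map_zero] at hm
      exact hy0 hm
    rw [hm, hpowj] at hi
    exact hfree m hm0 i (hj hi)
  have hun : U ^ n = 1 := by
    have h1 : U ^ n * P = P := by
      apply mat_ext_mv
      intro x
      rw [← Matrix.mulVec_mulVec]
      obtain ⟨m, hm⟩ := hPr x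
      rw [hm, hpowj, hzn, Module.End.one_apply]
    calc U ^ n = U ^ n * (P + (1 - P)) := by rw [hsplit, Matrix.mul_one]
      _ = P + (1 - P) := by rw [Matrix.mul_add, h1, hpow1]
      _ = 1 := hsplit
  have hcount' : ∀ d : F, Nat.card {y : ι → F // P *ᵥ y = y ∧ y ≠ 0 ∧ Q y = d} = n * o d := by
    intro d
    rw [← hcount d]
    refine (Nat.card_congr (Equiv.ofBijective
      (fun m : {m : M // m ≠ 0 ∧ Q (j m) = d} =>
        (⟨j m.1, hPj m.1, fun h0 => m.2.1 (hj (by rw [h0, map_zero])), m.2.2⟩ :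
          {y : ι → F // P *ᵥ y = y ∧ y ≠ 0 ∧ Q y = d})) ⟨?_, ?_⟩)).symm
    · intro m m' h
      have := congrArg Subtype.val h
      exact Subtype.ext (hj this)
    · rintro ⟨y, hy, hy0, hyd⟩
      obtain ⟨m, hm⟩ := hPr y
      rw [hy] at hm
      have hm0 : m ≠ 0 := by
        rintro rfl
        rw [map_zero] at hm
        exact hy0 hm
      refine ⟨⟨m, hm0, by rw [← hm]; exact hyd⟩, ?_⟩
      exact Subtype.ext hm.symm
  refine ⟨?_, huP, hfree', hun, hcount'⟩
  -- `u` commutes with `g`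
  have hGinj : ∀ v : ι → F, Gm *ᵥ v = 0 → v = 0 := by
    intro v hv
    have h1 : (((g : GL ι F)⁻¹ : GL ι F) : Matrix ι ι F) * Gm = 1 := Units.inv_mul (g : GL ι F)
    have h2 : v = ((((g : GL ι F)⁻¹ : GL ι F) : Matrix ι ι F) * Gm) *ᵥ v := by
      rw [h1, Matrix.one_mulVec]
    rw [h2, ← Matrix.mulVec_mulVec, hv, Matrix.mulVec_zero]
  have hγinj : Function.Injective γ := by
    apply (injective_iff_map_eq_zero γ).mpr
    intro m hm
    apply hj
    rw [map_zero]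
    apply hGinj
    rw [hγ, hm, map_zero]
  have hγsurj : Function.Surjective γ := Finite.injective_iff_surjective.mp hγinj
  have hGpol : ∀ x y : ι → F, QuadraticMap.polar ⇑Q (Gm *ᵥ x) (Gm *ᵥ y)
      = QuadraticMap.polar ⇑Q x y := fun x y => mv_polar Q g x y
  have hker : ∀ x : ι → F, P *ᵥ (Gm *ᵥ ((1 - P) *ᵥ x)) = 0 := by
    intro x
    set v := Gm *ᵥ ((1 - P) *ᵥ x) with hv
    have hperp : ∀ m' : M, QuadraticMap.polar ⇑Q v (j m') = 0 := by
      intro m'
      obtain ⟨m'', rfl⟩ := hγsurj m'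
      rw [← hγ, hv, hGpol, QuadraticMap.polar_comm]
      have := horth (j m'') x
      rwa [hPj] at this
    obtain ⟨m₀, hm₀⟩ := hPr v
    have : m₀ = 0 := by
      apply hnd
      intro m'
      have h1 : QuadraticMap.polar ⇑Q v (j m')
          = QuadraticMap.polar ⇑Q (P *ᵥ v) (j m') + QuadraticMap.polar ⇑Q ((1 - P) *ᵥ v) (j m') := by
        rw [← QuadraticMap.polar_add_left, ← Matrix.add_mulVec, hsplit, Matrix.one_mulVec]
      have h2 : QuadraticMap.polar ⇑Q ((1 - P) *ᵥ v) (j m') = 0 := by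
        rw [QuadraticMap.polar_comm]
        have := horth (j m') v
        rwa [hPj] at this
      rw [← hm₀]
      rw [hperp m', h2, add_zero] at h1
      exact h1.symm
    rw [hm₀, this, map_zero]
  have hfix : ∀ x : ι → F, U *ᵥ ((1 - P) *ᵥ x) = (1 - P) *ᵥ x := by
    intro x
    rw [Matrix.mulVec_mulVec, hu1]
  apply ext_mv
  intro x
  rw [mv_mul, mv_mul]
  show U *ᵥ (Gm *ᵥ x) = Gm *ᵥ (U *ᵥ x)
  have hx : x = P *ᵥ x + (1 - P) *ᵥ x := by
    rw [← Matrix.add_mulVec, hsplit, Matrix.one_mulVec]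
  obtain ⟨m, hm⟩ := hPr x
  have hA : U *ᵥ (Gm *ᵥ (P *ᵥ x)) = Gm *ᵥ (U *ᵥ (P *ᵥ x)) := by
    rw [hm, hγ, huj, huj, hγ, hzγ]
  have hB : U *ᵥ (Gm *ᵥ ((1 - P) *ᵥ x)) = Gm *ᵥ (U *ᵥ ((1 - P) *ᵥ x)) := by
    rw [hfix]
    have hk := hker x
    generalize Gm *ᵥ ((1 - P) *ᵥ x) = v at hk ⊢
    have h1 : v = (1 - P) *ᵥ v := by
      rw [Matrix.sub_mulVec, Matrix.one_mulVec, hk, sub_zero]
    rw [h1, hfix]
  rw [hx, Matrix.mulVec_add, Matrix.mulVec_add, Matrix.mulVec_add, Matrix.mulVec_add, hA, hB]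

end Cfsg.Agent.Helper59.PFTRANSCore
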