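import Mathlib
import Cfsg.Agent.Helper45.IDMinus
import Cfsg.Agent.Helper43.OrthSemi
import Cfsg.Agent.Helper43.USimDet
import Cfsg.Agent.Helper43.NormGen
import Cfsg.Agent.Helper59.PFTRANSCore
import Cfsg.Agent.Helper68.PFPROJ
import Cfsg.Agent.Helper68.PFUDEF
import Cfsg.Agent.Helper78.PFSPINCore
import Cfsg.Agent.Helper42.PFSIGN
import Cfsg.Agent.Helper3.PFMOVED

/-!
# Helper59: PIECE TRANS of CALL S2720 (helper43): from a model to the isometry `u`.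
-/

set_option autoImplicit false

namespace Cfsg.Agent.Helper59.PFTRANS

open Cfsg Matrix Polynomial Cfsg.Agent.Helper45 Cfsg.Agent.Helper45.ID

universe u

variable {ι : Type} [Fintype ι] [DecidableEq ι] {F : Type u} [Field F] [Fintype F]

/-- SPIN (helper78's wrapper of `pf_spin_core`, from SIGN and MOVED). -/
theorem pf_spin_neg' (Q : QuadraticForm F (ι → F)) (hq : Odd (Fintype.card F))
    (u : ↥(isometryGroup F ⇑Q)) (P : Matrix ι ι F) (n : ℕ) (o : F → ℕ) (hP : P * P = P)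
    (horth : ∀ x y : ι → F, QuadraticMap.polar ⇑Q (P *ᵥ x) ((1 - P) *ᵥ y) = 0)
    (huP : ((u : GL ι F) : Matrix ι ι F) * P = P * ((u : GL ι F) : Matrix ι ι F))
    (hu1 : ((u : GL ι F) : Matrix ι ι F) * (1 - P) = 1 - P)
    (hn : Even n) (hn0 : 0 < n)
    (hfree : ∀ y : ι → F, P *ᵥ y = y → y ≠ 0 →
      ∀ i : ℕ, (((u : GL ι F) : Matrix ι ι F) ^ i) *ᵥ y = y → n ∣ i)
    (hun : ((u : GL ι F) : Matrix ι ι F) ^ n = 1)
    (hcount : ∀ d : F, Nat.card {y : ι → F // P *ᵥ y = y ∧ y ≠ 0 ∧ Q y = d} = n * o d)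
    (hodd : ∀ d : F, d ≠ 0 → Odd (o d)) (heven : Even (o 0)) (c : F) (hc : c ≠ 0) :
    spin ⇑Q c u = -1 := by
  obtain ⟨k, hk, hmoved⟩ :=
    Cfsg.Agent.Helper3.PFMOVED.pf_moved Q hq P n o hP horth hcount hodd heven c hc
  exact Cfsg.Agent.Helper78.PFSPINCore.pf_spin_core Q u P n k hP huP hu1 hn hfree hun c hk hmoved
    (fun σ hper hσn hcard => Cfsg.Agent.Helper42.PFSIGN.pf_sign σ n k hn hn0 hper hσn hcard)

/-- TRANS (from PROJ, UDEF, SPIN): from a model to the isometry `u`. -/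
theorem pf_transport (Q : QuadraticForm F (ι → F))
    (hQ : (QuadraticMap.polarBilin Q).Nondegenerate) (hq : Odd (Fintype.card F))
    (g : ↥(isometryGroup F ⇑Q)) {M : Type*} [AddCommGroup M] [Module F M] [Finite M]
    (j : M →ₗ[F] (ι → F)) (z γ : M →ₗ[F] M) (n : ℕ) (o : F → ℕ)
    (hz : ∀ m : M, Q (j (z m)) = Q (j m))
    (hγ : ∀ m : M, ((g : GL ι F) : Matrix ι ι F) *ᵥ j m = j (γ m))
    (hzγ : ∀ m : M, z (γ m) = γ (z m))
    (hnd : ∀ m : M, (∀ m' : M, QuadraticMap.polar ⇑Q (j m) (j m') = 0) → m = 0)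
    (hn : Even n) (hn0 : 0 < n)
    (hfree : ∀ m : M, m ≠ 0 → ∀ i : ℕ, (z ^ i) m = m → n ∣ i) (hzn : z ^ n = 1)
    (hcount : ∀ d : F, Nat.card {m : M // m ≠ 0 ∧ Q (j m) = d} = n * o d)
    (hodd : ∀ d : F, d ≠ 0 → Odd (o d)) (heven : Even (o 0)) :
    ∃ u : ↥(isometryGroup F ⇑Q), u * g = g * u ∧ ∀ c : F, c ≠ 0 → spin ⇑Q c u = -1 := by
  have hj : Function.Injective j := by
    apply (injective_iff_map_eq_zero j).mpr
    intro m hm
    apply hnd m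
    intro m'
    rw [hm, QuadraticMap.polar_zero_left]
  obtain ⟨P, hP, hPj, hPr, horth⟩ := Cfsg.Agent.Helper68.PFPROJ.pf_proj Q j hnd
  obtain ⟨u, huj, hu1⟩ := Cfsg.Agent.Helper68.PFUDEF.pf_udef Q hQ j hj z P hP hPj hPr horth hz
  obtain ⟨hcomm, huP, hfree', hun, hcount'⟩ :=
    Cfsg.Agent.Helper59.PFTRANSCore.pf_transport_core Q g j z γ n o hγ hzγ hnd hfree hzn hcount
      P hP hPj hPr horth u huj hu1
  exact ⟨u, hcomm, fun c hc =>
    pf_spin_neg' Q hq u P n o hP horth huP hu1 hn hn0 hfree' hun hcount' hodd heven c hc⟩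

end Cfsg.Agent.Helper59.PFTRANS
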