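import Mathlib
import Cfsg.Agent.Helper18.NGroup
import Cfsg.Agent.S2326

/-!
CALL S2314 piece CV6 (helper59, double): `U` is a Sylow `p`-subgroup of every standard parabolic
subgroup, so every `p`-subgroup of `P_J` is `P_J`-conjugate into `U`.
-/

set_option autoImplicit false

namespace Cfsg.Agent.Helper59.UCCV6

open Cfsg.Lie

variable {F : Type*} [Field F] [Fintype F] {D : ChevalleyDatum}

open scoped Pointwise in
/-- CV6: `U` is a Sylow `p`-subgroup of every standard parabolic subgroup. -/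
theorem sylow_in_parabolic (p : ℕ) [Fact p.Prime] [CharP F p]
    (hD : D ∈ [chevG2, chevB2, chevD4, chevF4, chevE6, chevE7, chevE8]) (J : Set ℕ) :
    ∀ Q : Subgroup (GL D.Idx F), Q ≤ D.parabolicSubgroup F J → IsPGroup p Q →
      ∃ c ∈ D.parabolicSubgroup F J, ∀ x ∈ Q, c⁻¹ * x * c ∈ D.posUnipotent F := by
  intro Q hQP hQ
  have hPG : D.parabolicSubgroup F J ≤ D.group F := by
    refine sup_le (Cfsg.Agent.Helper18.borelSubgroup_le_group D hD) ?_
    rw [Subgroup.closure_le]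
    rintro g ⟨j, -, -, hg⟩
    exact Cfsg.Agent.Helper18.wordMat_mem_group D hD _ g hg
  have hUP : D.posUnipotent F ≤ D.parabolicSubgroup F J := le_sup_left.trans le_sup_left
  have hUG : D.posUnipotent F ≤ D.group F := hUP.trans hPG
  obtain ⟨P, hP⟩ := Cfsg.Agent.S2326.result (F := F) p D hD
  -- `U` is a `p`-group
  have hUp : IsPGroup p (D.posUnipotent F) := by
    intro x
    obtain ⟨k, hk⟩ := P.isPGroup' ⟨⟨x.1, hUG x.2⟩, by
      rw [hP, Subgroup.mem_subgroupOf]; exact x.2⟩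
    refine ⟨k, ?_⟩
    have h1 := congrArg (fun y : (P : Subgroup ↥(D.group F)) => ((y : ↥(D.group F)) : GL D.Idx F)) hk
    apply Subtype.ext
    simpa using h1
  -- index of `U` in `P_J` is prime to `p`
  have hidxG : ¬ p ∣ (D.posUnipotent F).relIndex (D.group F) := by
    have h1 := P.not_dvd_index
    rw [hP] at h1
    exact h1
  have hidx : ¬ p ∣ ((D.posUnipotent F).subgroupOf (D.parabolicSubgroup F J)).index := by
    intro h
    apply hidxG
    rw [← Subgroup.relIndex_mul_relIndex _ _ _ hUP hPG]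
    exact Dvd.dvd.mul_right h _
  have hU' : IsPGroup p ((D.posUnipotent F).subgroupOf (D.parabolicSubgroup F J)) :=
    hUp.comap_subtype
  obtain ⟨S₂, hS₂⟩ := (hQ.comap_subtype (K := D.parabolicSubgroup F J)).exists_le_sylow
  obtain ⟨c, hc⟩ := MulAction.exists_smul_eq ↥(D.parabolicSubgroup F J) S₂ (hU'.toSylow hidx)
  refine ⟨((c⁻¹ : ↥(D.parabolicSubgroup F J)) : GL D.Idx F), (c⁻¹).2, ?_⟩
  intro x hx
  have hx2 : (⟨x, hQP hx⟩ : ↥(D.parabolicSubgroup F J)) ∈ (S₂ : Subgroup _) :=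
    hS₂ (by rw [Subgroup.mem_comap]; exact hx)
  have h3 : MulAut.conj c • (⟨x, hQP hx⟩ : ↥(D.parabolicSubgroup F J))
      ∈ MulAut.conj c • (S₂ : Subgroup ↥(D.parabolicSubgroup F J)) :=
    Subgroup.smul_mem_pointwise_smul _ _ _ hx2
  rw [← Sylow.coe_subgroup_smul, hc, IsPGroup.toSylow_coe, Subgroup.mem_subgroupOf] at h3
  have h4 : ((MulAut.conj c • (⟨x, hQP hx⟩ : ↥(D.parabolicSubgroup F J)) :
      ↥(D.parabolicSubgroup F J)) : GL D.Idx F) = (c : GL D.Idx F) * x * (c : GL D.Idx F)⁻¹ := by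
    rw [MulAut.smul_def, MulAut.conj_apply]
    simp
  rw [h4] at h3
  simpa using h3

end Cfsg.Agent.Helper59.UCCV6
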