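import Mathlib
import Cfsg.Agent.S0570
import Cfsg.Agent.Helper1.Hall
import Cfsg.Agent.Helper35.HallCoprime
import Cfsg.Agent.Helper64.PiTwo

/-!
# CALL S1438 piece CC (helper59 double): in a nilpotent subgroup the elements of order prime
to `k` generate a subgroup of order prime to `k`
-/

set_option autoImplicit false

namespace Cfsg.Agent.Helper59

open Cfsg Subgroup

universe u

variable {G : Type u} [Group G] [Finite G]

/-- CC (pure). In a nilpotent subgroup `F` the elements of order prime to `k` generate a subgroup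
of order prime to `k`. -/
theorem bg157_coprime_closure {Γ : Type u} [Group Γ] [Finite Γ] {F : Subgroup Γ}
    (hF : Group.IsNilpotent ↥F) (k : ℕ) (hk : 0 < k) :
    (Nat.card ↥(Subgroup.closure {f : Γ | f ∈ F ∧ (orderOf f).Coprime k})).Coprime k := by
  classical
  have := hF
  obtain ⟨a, b, hab, hcop, ha, hb⟩ :=
    Cfsg.Agent.Helper35.exists_pi_factorization {p : ℕ | ¬ p ∣ k} (Nat.card ↥F) Nat.card_pos.ne'
  obtain ⟨H, hH⟩ := Cfsg.Agent.Helper1.hall_exists_aux (Nat.card ↥F) ↥F a b rfl hab hcop
  have ha0 : 0 < a := by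
    rcases Nat.eq_zero_or_pos a with h | h
    · rw [h, zero_mul] at hab
      exact absurd hab Nat.card_pos.ne'
    · exact h
  have hidx : H.index = b := by
    have h1 := H.card_mul_index
    rw [hH, hab] at h1
    exact Nat.eq_of_mul_eq_mul_left ha0 h1
  have : H.Normal := Cfsg.Agent.S0570.normal_of_hall_of_nilpotent H (by rw [hH, hidx]; exact hcop)
  have hle : Subgroup.closure {f : Γ | f ∈ F ∧ (orderOf f).Coprime k} ≤ H.map F.subtype := by
    rw [Subgroup.closure_le]
    rintro f ⟨hfF, hfk⟩
    refine ⟨⟨f, hfF⟩, ?_, rfl⟩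
    apply Cfsg.Agent.Helper64.mem_of_coprime_index H
    rw [hidx]
    by_contra hnc
    obtain ⟨p, hp, hp1, hp2⟩ := Nat.Prime.not_coprime_iff_dvd.mp hnc
    have hpk : p ∣ k := by
      by_contra hpk
      exact hb p hp hpk hp2
    have ho : orderOf (⟨f, hfF⟩ : ↥F) = orderOf f := by
      rw [← Subgroup.orderOf_coe]
    rw [ho] at hp1
    have := Nat.Coprime.eq_one_of_dvd (Nat.Coprime.coprime_dvd_left hp1 hfk) hpk
    exact hp.one_lt.ne' this
  have hcard : Nat.card ↥(H.map F.subtype) = a := by
    rw [Subgroup.card_map_of_injective F.subtype_injective, hH]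
  have hdvd : Nat.card ↥(Subgroup.closure {f : Γ | f ∈ F ∧ (orderOf f).Coprime k}) ∣ a := by
    rw [← hcard]
    exact Subgroup.card_dvd_of_le hle
  have hak : a.Coprime k := by
    by_contra hnc
    obtain ⟨p, hp, hp1, hp2⟩ := Nat.Prime.not_coprime_iff_dvd.mp hnc
    exact ha p hp hp1 hp2
  exact Nat.Coprime.coprime_dvd_left hdvd hak

end Cfsg.Agent.Helper59
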