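import Cfsg.Agent.Helper23.Trans
import Cfsg.Agent.Helper23.FittingHall

/-!
# CALL BG36 (helper2), piece T7 (double by helper59)
-/

set_option autoImplicit false
set_option linter.unusedVariables false

namespace Cfsg.Agent.Helper59

open Cfsg Subgroup

universe u

variable {G : Type u} [Group G] [Finite G]

/-- PIECE T7: Cauchy in the complement `E` (`|M| = |E| |M_σ|`, `q ∤ |M_σ|`). -/
theorem bg36_exists_z (hG : IsMinSimpleOddOrder G) {M E : Subgroup G} (hM : IsCoatom M)
    (hE : IsComplIn E (sigmaCore M) M) {q : ℕ} (hq : q.Prime) (hqM : q ∣ Nat.card M)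
    (hqσ : q ∉ sigma M) : ∃ z ∈ E, orderOf z = q := by
  have hcard := Cfsg.Agent.Helper23.card_of_isComplIn E (sigmaCore M) M hE
  have hnd : ¬ q ∣ Nat.card ↥(sigmaCore M) := fun hd =>
    hqσ (Cfsg.Agent.Helper23.mem_of_dvd_card_piCoreOf (sigma M) M hq hd)
  rw [hcard] at hqM
  have hqE : q ∣ Nat.card ↥E := (hq.dvd_mul.mp hqM).resolve_right hnd
  have := Fact.mk hq
  obtain ⟨z, hz⟩ := exists_prime_orderOf_dvd_card' q hqE
  exact ⟨z, z.2, by rw [Subgroup.orderOf_coe]; exact hz⟩

end Cfsg.Agent.Helper59
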