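import Mathlib

/-!
# CALL BGP (helper23), piece TC (helper59): counting the conjugates of a TI-set
-/

set_option autoImplicit false

namespace Cfsg.Agent.Helper59

open Subgroup

universe u

variable {G : Type u} [Group G] [Finite G]

/-- TC (pure). Counting the conjugates of a TI-set `S` (`1 ∉ S`) with set-normalizer `Z`:
`|⋃ g S g⁻¹| · |Z| = |S| · |G|`. -/
theorem bgp_ti_count (S : Set G) (Z : Subgroup G)
    (hTI : ∀ g : G, g ∉ normalizer S → ∀ x ∈ S, g * x * g⁻¹ ∈ S → x = 1)
    (hN : normalizer S = Z) (h1 : (1 : G) ∉ S) :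
    Set.ncard {a : G | ∃ g : G, ∃ z ∈ S, a = g * z * g⁻¹} * Nat.card Z =
      Set.ncard S * Nat.card G := by
  classical
  subst hN
  obtain ⟨T, hT⟩ : ∃ T : Set G, T = {a : G | ∃ g : G, ∃ z ∈ S, a = g * z * g⁻¹} := ⟨_, rfl⟩
  rw [← hT]
  have hmemT : ∀ (g z : G), z ∈ S → g * z * g⁻¹ ∈ T := by
    intro g z hz
    rw [hT]
    exact ⟨g, z, hz, rfl⟩
  let φ : (G ⧸ normalizer S) × S → T := fun p =>
    ⟨p.1.out * p.2.1 * p.1.out⁻¹, hmemT _ _ p.2.2⟩
  have hφ : Function.Bijective φ := by
    constructor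
    · rintro ⟨q, z⟩ ⟨q', z'⟩ h
      have h' : q.out * z.1 * q.out⁻¹ = q'.out * z'.1 * q'.out⁻¹ := congrArg Subtype.val h
      have hconj : q'.out⁻¹ * q.out * z.1 * (q'.out⁻¹ * q.out)⁻¹ = z'.1 := by
        calc q'.out⁻¹ * q.out * z.1 * (q'.out⁻¹ * q.out)⁻¹
            = q'.out⁻¹ * (q.out * z.1 * q.out⁻¹) * q'.out := by group
          _ = z'.1 := by rw [h']; group
      have hg : q'.out⁻¹ * q.out ∈ normalizer S := by
        by_contra hg
        have h2 := hTI _ hg z.1 z.2 (by rw [hconj]; exact z'.2)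
        exact h1 (h2 ▸ z.2)
      have hq : q = q' := by
        have h3 : (QuotientGroup.mk q'.out : G ⧸ normalizer S) = QuotientGroup.mk q.out :=
          QuotientGroup.eq.mpr hg
        rw [QuotientGroup.out_eq', QuotientGroup.out_eq'] at h3
        exact h3.symm
      subst hq
      have hz : z.1 = z'.1 := mul_left_cancel (mul_right_cancel h')
      exact Prod.ext rfl (Subtype.ext hz)
    · rintro ⟨a, ha⟩
      have ha' := ha
      rw [hT] at ha'
      obtain ⟨g, z, hz, rfl⟩ := ha'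
      obtain ⟨n, hn⟩ : ∃ n : G, n = g⁻¹ * (QuotientGroup.mk g : G ⧸ normalizer S).out := ⟨_, rfl⟩
      have hnmem : n ∈ normalizer S := by
        rw [hn]
        apply QuotientGroup.eq.mp
        rw [QuotientGroup.out_eq']
      have hz' : n⁻¹ * z * n ∈ S := by
        have h2 := (mem_set_normalizer_iff.mp (inv_mem hnmem) z).mp hz
        rwa [inv_inv] at h2
      have hout : (QuotientGroup.mk g : G ⧸ normalizer S).out = g * n := by
        rw [hn]
        group
      refine ⟨(QuotientGroup.mk g, ⟨n⁻¹ * z * n, hz'⟩), Subtype.ext ?_⟩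
      show (QuotientGroup.mk g : G ⧸ normalizer S).out * (n⁻¹ * z * n)
        * (QuotientGroup.mk g : G ⧸ normalizer S).out⁻¹ = g * z * g⁻¹
      rw [hout]
      group
  have hcard : Nat.card T = Nat.card (G ⧸ normalizer S) * Nat.card S := by
    rw [← Nat.card_prod]
    exact (Nat.card_congr (Equiv.ofBijective φ hφ)).symm
  rw [← Nat.card_coe_set_eq, hcard, ← Nat.card_coe_set_eq S,
    Subgroup.card_eq_card_quotient_mul_card_subgroup (normalizer S)]
  ring

end Cfsg.Agent.Helper59
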