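import Mathlib

/-!
# CALL BGP (helper23), piece UC (helper59): from subgroups of prime order to elements
-/

set_option autoImplicit false

namespace Cfsg.Agent.Helper59

open Subgroup

universe u

variable {G : Type u} [Group G] [Finite G]

/-- UC (pure). From subgroups of prime order to elements. -/
theorem bgp_cent_of_prime {Ks L : Subgroup G}
    (h : ∀ Y : Subgroup G, Y ≤ Ks → (Nat.card Y).Prime → centralizer (Y : Set G) ≤ L) :
    ∀ y ∈ Ks, y ≠ 1 → centralizer ({y} : Set G) ≤ L := by
  intro y hy hy1
  have hfin : 0 < orderOf y := orderOf_pos y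
  have hne : orderOf y ≠ 1 := by rwa [Ne, orderOf_eq_one_iff]
  obtain ⟨p, hp, hpd⟩ := Nat.exists_prime_and_dvd hne
  have ho : orderOf (y ^ (orderOf y / p)) = p := orderOf_pow_orderOf_div hfin.ne' hpd
  have hY := h (zpowers (y ^ (orderOf y / p)))
    (by rw [zpowers_le]; exact Ks.pow_mem hy _)
    (by rw [Nat.card_zpowers, ho]; exact hp)
  refine le_trans ?_ hY
  intro c hc
  rw [mem_centralizer_iff] at hc ⊢
  intro z hz
  obtain ⟨k, rfl⟩ := mem_zpowers_iff.mp hz
  have h1 : Commute y c := hc y rfl
  exact ((h1.pow_left _).zpow_left k).eq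

end Cfsg.Agent.Helper59
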