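import Mathlib

/-!
# CALL BGP (helper23), piece ZF (helper59): a fixed-point-free element on a group with cyclic
commutator subgroup
-/

set_option autoImplicit false

namespace Cfsg.Agent.Helper59

open Subgroup

universe u

variable {G : Type u} [Group G] [Finite G]

omit [Finite G] in
/-- conjugation by an element normalizing `A` acts on the cyclic group `A` as a power map. -/
theorem bgp_zf_pow (A : Subgroup G) (hA : IsCyclic ↥A) (g : G)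
    (hg : ∀ a ∈ A, g * a * g⁻¹ ∈ A) : ∃ m : ℤ, ∀ a ∈ A, g * a * g⁻¹ = a ^ m := by
  let σ : ↥A →* ↥A :=
    { toFun := fun a => ⟨g * a.1 * g⁻¹, hg a.1 a.2⟩
      map_one' := by
        apply Subtype.ext
        show g * 1 * g⁻¹ = 1
        group
      map_mul' := by
        intro a b
        apply Subtype.ext
        show g * (a.1 * b.1) * g⁻¹ = g * a.1 * g⁻¹ * (g * b.1 * g⁻¹)
        group }
  obtain ⟨m, hm⟩ := MonoidHom.map_cyclic σ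
  refine ⟨m, fun a ha => ?_⟩
  have h1 := congrArg Subtype.val (hm ⟨a, ha⟩)
  simpa [σ] using h1

/-- ZF (pure). `v` normalizes `Ks` and fixes no non-identity element of it; `Ks' = [Ks,Ks]` is
cyclic.  Then `Ks` centralizes `Ks'`. -/
theorem bgp_zfpf (Ks : Subgroup G) (v : G) (hv : v ∈ normalizer (Ks : Set G))
    (hfpf : ∀ y ∈ Ks, v * y = y * v → y = 1) (hA : IsCyclic ↥⁅Ks, Ks⁆) :
    ∀ y ∈ Ks, ∀ a ∈ ⁅Ks, Ks⁆, y * a = a * y := by
  classical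
  -- elements normalizing `Ks` normalize `⁅Ks, Ks⁆`
  have hnorm : ∀ g ∈ normalizer (Ks : Set G), ∀ a ∈ ⁅Ks, Ks⁆, g * a * g⁻¹ ∈ ⁅Ks, Ks⁆ := by
    intro g hg a ha
    have h1 : Ks.map (MulAut.conj g : G →* G) = Ks := mem_normalizer_iff_map_conj_eq.mp hg
    have h2 : (⁅Ks, Ks⁆).map (MulAut.conj g : G →* G) = ⁅Ks, Ks⁆ := by
      rw [Subgroup.map_commutator, h1]
    rw [← h2]
    exact ⟨a, ha, rfl⟩
  obtain ⟨m, hm⟩ := bgp_zf_pow ⁅Ks, Ks⁆ hA v (hnorm v hv)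
  -- the elements `v⁻¹ * y⁻¹ * v * y` centralize `⁅Ks, Ks⁆`
  have hcomm : ∀ y ∈ Ks, ∀ a ∈ ⁅Ks, Ks⁆, (v⁻¹ * y⁻¹ * v * y) * a = a * (v⁻¹ * y⁻¹ * v * y) := by
    intro y hy a ha
    obtain ⟨k, hk⟩ := bgp_zf_pow ⁅Ks, Ks⁆ hA y (hnorm y (le_normalizer hy))
    have h1 : v * (y * a * y⁻¹) * v⁻¹ = y * (v * a * v⁻¹) * y⁻¹ := by
      rw [hk a ha, hm _ (zpow_mem ha k), hm a ha, hk _ (zpow_mem ha m), ← zpow_mul, ← zpow_mul,
        mul_comm]
    calc (v⁻¹ * y⁻¹ * v * y) * a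
        = v⁻¹ * y⁻¹ * (v * (y * a * y⁻¹) * v⁻¹) * v * y := by group
      _ = v⁻¹ * y⁻¹ * (y * (v * a * v⁻¹) * y⁻¹) * v * y := by rw [h1]
      _ = a * (v⁻¹ * y⁻¹ * v * y) := by group
  -- `y ↦ v⁻¹ * y⁻¹ * v * y` is a bijection of `Ks`
  have hmem : ∀ y ∈ Ks, v⁻¹ * y⁻¹ * v * y ∈ Ks := by
    intro y hy
    have h1 := (mem_normalizer_iff.mp (inv_mem hv) y⁻¹).mp (inv_mem hy)
    rw [inv_inv] at h1
    exact Ks.mul_mem h1 hy
  let ψ : ↥Ks → ↥Ks := fun y => ⟨v⁻¹ * y.1⁻¹ * v * y.1, hmem y.1 y.2⟩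
  have hinj : Function.Injective ψ := by
    intro y y' h
    have h1 : v⁻¹ * y.1⁻¹ * v * y.1 = v⁻¹ * y'.1⁻¹ * v * y'.1 := congrArg Subtype.val h
    have h2 : v * (y'.1 * y.1⁻¹) = (y'.1 * y.1⁻¹) * v := by
      have h3 : y.1⁻¹ * v * y.1 = y'.1⁻¹ * v * y'.1 := by
        have h4 := congrArg (fun t => v * t) h1
        simp only [mul_assoc, mul_inv_cancel_left] at h4
        simpa [mul_assoc] using h4
      calc v * (y'.1 * y.1⁻¹) = y'.1 * (y'.1⁻¹ * v * y'.1) * y.1⁻¹ := by group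
        _ = y'.1 * (y.1⁻¹ * v * y.1) * y.1⁻¹ := by rw [h3]
        _ = (y'.1 * y.1⁻¹) * v := by group
    have h5 := hfpf (y'.1 * y.1⁻¹) (Ks.mul_mem y'.2 (inv_mem y.2)) h2
    apply Subtype.ext
    exact (mul_inv_eq_one.mp h5).symm
  have hsurj : Function.Surjective ψ := Finite.injective_iff_surjective.mp hinj
  intro y hy a ha
  obtain ⟨y₀, hy₀⟩ := hsurj ⟨y, hy⟩
  have h1 : v⁻¹ * y₀.1⁻¹ * v * y₀.1 = y := congrArg Subtype.val hy₀
  rw [← h1]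
  exact hcomm y₀.1 y₀.2 a ha

end Cfsg.Agent.Helper59
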