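import Mathlib

/-!
# CALL BGP (helper23), piece ZK (helper59): cyclic Sylow subgroups give a cyclic commutator subgroup
-/

set_option autoImplicit false

namespace Cfsg.Agent.Helper59

open Subgroup

universe u

variable {G : Type u} [Group G] [Finite G]

/-- ZK (pure). A subgroup all of whose Sylow subgroups are cyclic has cyclic commutator subgroup
(`IsZGroup.isCyclic_commutator` transported from `commutator ↥Ks` to `⁅Ks, Ks⁆`). -/
theorem bgp_comm_cyclic (Ks : Subgroup G)
    (hS : ∀ (p : ℕ) [Fact p.Prime] (P : Sylow p Ks), IsCyclic P) : IsCyclic ↥⁅Ks, Ks⁆ := by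
  have hZ : IsZGroup ↥Ks := ⟨fun p hp P => @hS p ⟨hp⟩ P⟩
  have h1 : IsCyclic ↥(_root_.commutator ↥Ks) := IsZGroup.isCyclic_commutator ↥Ks
  have h2 : ⁅Ks, Ks⁆ = (_root_.commutator ↥Ks).map Ks.subtype := by
    rw [_root_.commutator_def, Subgroup.map_commutator, ← MonoidHom.range_eq_map, Subgroup.range_subtype]
  rw [h2]
  exact isCyclic_of_surjective _
    (Subgroup.equivMapOfInjective _ _ Ks.subtype_injective).surjective

end Cfsg.Agent.Helper59
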