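import Mathlib

/-!
# Helper59: PIECE D10 of CALL S1351D (helper1): the union bound for pairwise disjoint sets
avoiding `1`.
-/

set_option autoImplicit false

namespace Cfsg.Agent.Helper59

universe u v

variable {G : Type u} [Group G]

/-- D10 (pure): the union bound for pairwise disjoint sets avoiding `1`. -/
theorem bgs_union_bound [Finite G] {ι : Type v} [Fintype ι] (T : ι → Set G) (C : Set G)
    (hT : ∀ i j, i ≠ j → Disjoint (T i) (T j)) (hTC : ∀ i, Disjoint (T i) C)
    (h1 : ∀ i, (1 : G) ∉ T i) (h1C : (1 : G) ∉ C) :
    ∑ i, (T i).ncard + C.ncard + 1 ≤ Nat.card G := by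
  classical
  have := Fintype.ofFinite G
  have hTf : ∀ i, (T i).ncard = (T i).toFinset.card := fun i => Set.ncard_eq_toFinset_card' (T i)
  have hCf : C.ncard = C.toFinset.card := Set.ncard_eq_toFinset_card' C
  have hbi : ∑ i, (T i).toFinset.card = (Finset.univ.biUnion fun i => (T i).toFinset).card := by
    rw [Finset.card_biUnion]
    intro i _ j _ hij
    show Disjoint (T i).toFinset (T j).toFinset
    rw [Set.disjoint_toFinset]
    exact hT i j hij
  have hd1 : Disjoint (Finset.univ.biUnion fun i => (T i).toFinset) C.toFinset := by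
    rw [Finset.disjoint_biUnion_left]
    intro i _
    rw [Set.disjoint_toFinset]
    exact hTC i
  have hd2 : Disjoint ((Finset.univ.biUnion fun i => (T i).toFinset) ∪ C.toFinset)
      ({1} : Finset G) := by
    rw [Finset.disjoint_singleton_right, Finset.mem_union, not_or]
    refine ⟨?_, ?_⟩
    · rw [Finset.mem_biUnion]
      rintro ⟨i, _, hi⟩
      exact h1 i (Set.mem_toFinset.mp hi)
    · intro h
      exact h1C (Set.mem_toFinset.mp h)
  have hcard := Finset.card_le_univ
    (((Finset.univ.biUnion fun i => (T i).toFinset) ∪ C.toFinset) ∪ ({1} : Finset G))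
  rw [Finset.card_union_of_disjoint hd2, Finset.card_union_of_disjoint hd1, ← hbi,
    Finset.card_singleton] at hcard
  rw [Nat.card_eq_fintype_card]
  simp only [hTf, hCf]
  exact hcard

end Cfsg.Agent.Helper59
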