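import Mathlib
import Cfsg.Agent.Helper59.Deg11A

/-!
# Transitive groups of degree 11: structure of point stabilizers
-/

set_option autoImplicit false
set_option linter.unusedSectionVars false
set_option linter.style.haveILetI false

namespace Cfsg.Agent.Helper59

open MulAction

variable {G α : Type*} [Group G] [Finite G] [MulAction G α] [Fintype α] [DecidableEq α]

namespace D11

theorem exists_third (D : D11 G α) (a b : α) : ∃ o : α, o ≠ a ∧ o ≠ b := by
  have h : 0 < ((Finset.univ.erase a).erase b).card := by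
    have h1 : (Finset.univ.erase a).card = 10 := by
      rw [Finset.card_erase_of_mem (Finset.mem_univ a), Finset.card_univ, D.card]
    have h2 := Finset.pred_card_le_card_erase (s := Finset.univ.erase a) (a := b)
    omega
  obtain ⟨o, ho⟩ := Finset.card_pos.mp h
  rw [Finset.mem_erase, Finset.mem_erase] at ho
  exact ⟨o, ho.2.1, ho.1⟩

/-- A subgroup of a two-point stabilizer with an orbit of 9 points forces 3-transitivity. -/
theorem tr3_of_card_orbit (D : D11 G α) {a b : α} (hab : a ≠ b) (T : Subgroup G)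
    (hT : T ≤ stabilizer G a ⊓ stabilizer G b) {o : α} (hoa : o ≠ a) (hob : o ≠ b)
    (h : 9 ≤ Nat.card (orbit T o)) : Tr3 G α := by
  have hfix : ∀ t ∈ T, t • a = a ∧ t • b = b := by
    intro t ht
    have := hT ht
    rw [Subgroup.mem_inf, mem_stabilizer_iff, mem_stabilizer_iff] at this
    exact this
  have hcardΔ : ((Finset.univ.erase a).erase b).card = 9 := by
    rw [Finset.card_erase_of_mem (by simp [hab.symm]),
      Finset.card_erase_of_mem (Finset.mem_univ a), Finset.card_univ, D.card]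
  have hsub : orbit T o ⊆ (((Finset.univ.erase a).erase b : Finset α) : Set α) := by
    rintro x ⟨t, rfl⟩
    rw [Finset.mem_coe, Finset.mem_erase, Finset.mem_erase]
    obtain ⟨h1, h2⟩ := hfix t.1 t.2
    refine ⟨fun e => hob (MulAction.injective t.1 (e.trans h2.symm)),
      fun e => hoa (MulAction.injective t.1 (e.trans h1.symm)), Finset.mem_univ _⟩
  have heq : orbit T o = (((Finset.univ.erase a).erase b : Finset α) : Set α) := by
    apply Set.eq_of_subset_of_ncard_le hsub _ (Set.toFinite _)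
    rw [Set.ncard_coe_finset, hcardΔ, ← Nat.card_coe_set_eq]
    exact h
  apply D.tr3_of_stab hab
  intro c c' hca hcb hc'a hc'b
  have hc : c ∈ orbit T o := by
    rw [heq, Finset.mem_coe, Finset.mem_erase, Finset.mem_erase]
    exact ⟨hcb, hca, Finset.mem_univ _⟩
  have hc' : c' ∈ orbit T o := by
    rw [heq, Finset.mem_coe, Finset.mem_erase, Finset.mem_erase]
    exact ⟨hc'b, hc'a, Finset.mem_univ _⟩
  obtain ⟨t1, rfl⟩ := hc
  obtain ⟨t2, rfl⟩ := hc'
  obtain ⟨h1a, h1b⟩ := hfix t1.1 t1.2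
  obtain ⟨h2a, h2b⟩ := hfix t2.1 t2.2
  refine ⟨t2.1 * t1.1⁻¹, ?_, ?_, ?_⟩
  · rw [mul_smul, inv_smul_eq_iff.mpr h1a.symm, h2a]
  · rw [mul_smul, inv_smul_eq_iff.mpr h1b.symm, h2b]
  · rw [mul_smul]
    change t2.1 • t1.1⁻¹ • t1.1 • o = t2.1 • o
    rw [inv_smul_smul]

/-- If the group is not 3-transitive then 27 does not divide the order of a two-point
stabilizer. -/
theorem not_dvd_27 (D : D11 G α) (hnt : ¬ Tr3 G α) {a b : α} (hab : a ≠ b) :
    ¬ 27 ∣ Nat.card (stabilizer G a ⊓ stabilizer G b : Subgroup G) := by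
  intro h27
  haveI : Fact (Nat.Prime 3) := ⟨by norm_num⟩
  obtain ⟨T0, hT0⟩ := Sylow.exists_subgroup_card_pow_prime (G := (stabilizer G a ⊓ stabilizer G b : Subgroup G)) 3 (n := 3) (by norm_num; exact h27)
  set T : Subgroup G := T0.map (stabilizer G a ⊓ stabilizer G b : Subgroup G).subtype with hTdef
  have hTle : T ≤ stabilizer G a ⊓ stabilizer G b := Subgroup.map_subtype_le _
  have hTcard : Nat.card T = 27 := by
    rw [hTdef, Subgroup.card_map_of_injective (Subgroup.subtype_injective _), hT0]; norm_num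
  have hTp : IsPGroup 3 T := IsPGroup.of_card (n := 3) (by rw [hTcard]; norm_num)
  obtain ⟨o, hoa, hob⟩ := D.exists_third a b
  have hfix : ∀ t ∈ T, t • a = a ∧ t • b = b := by
    intro t ht
    have := hTle ht
    rw [Subgroup.mem_inf, mem_stabilizer_iff, mem_stabilizer_iff] at this
    exact this
  have h3 : Nat.card (T ⊓ stabilizer G o : Subgroup G) ∣ 3 := by
    apply D.card_three_fix _ (hTp.to_le inf_le_left) hab hoa.symm hob.symm
    intro q hq
    rw [Subgroup.mem_inf, mem_stabilizer_iff] at hq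
    exact ⟨(hfix q hq.1).1, (hfix q hq.1).2, hq.2⟩
  have horb := card_orbit_subgroup T o
  rw [hTcard] at horb
  have hle3 : Nat.card (T ⊓ stabilizer G o : Subgroup G) ≤ 3 := Nat.le_of_dvd (by norm_num) h3
  have h9 : 9 ≤ Nat.card (orbit T o) := by
    by_contra hlt
    push Not at hlt
    have : Nat.card (orbit T o) * Nat.card (T ⊓ stabilizer G o : Subgroup G) ≤ 8 * 3 :=
      Nat.mul_le_mul (by omega) hle3
    omega
  exact hnt (D.tr3_of_card_orbit hab T hTle hoa hob h9)

/-- The order of a two-point stabilizer is `2^i * 3^j` with `i ≤ 7`, `j ≤ 4`. -/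
theorem card_stab_two (D : D11 G α) {a b : α} (hab : a ≠ b) :
    ∃ i j : ℕ, i ≤ 7 ∧ j ≤ 4 ∧
      Nat.card (stabilizer G a ⊓ stabilizer G b : Subgroup G) = 2 ^ i * 3 ^ j := by
  have hfix : ∀ g ∈ (stabilizer G a ⊓ stabilizer G b : Subgroup G), g • a = a ∧ g • b = b := by
    intro g hg
    rw [Subgroup.mem_inf, mem_stabilizer_iff, mem_stabilizer_iff] at hg
    exact hg
  set h := Nat.card (stabilizer G a ⊓ stabilizer G b : Subgroup G) with hh
  have hdvd : h ∣ 362880 := by
    have := D.cardG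
    rw [D.card_eq hab] at this
    exact Nat.dvd_of_mul_dvd_mul_left (by norm_num : 0 < 110)
      (show 110 * h ∣ 110 * 362880 from this)
  have h5 : ¬ 5 ∣ h := fun h5 => by
    rcases D.prime_dvd_stab hab hfix (by norm_num : Nat.Prime 5) h5 with h | h <;> omega
  have h7 : ¬ 7 ∣ h := fun h7 => by
    rcases D.prime_dvd_stab hab hfix (by norm_num : Nat.Prime 7) h7 with h | h <;> omega
  have hcop : Nat.Coprime h 35 := by
    have e : (35 : ℕ) = 5 * 7 := by norm_num
    rw [e]
    exact Nat.Coprime.mul_right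
      (((Nat.Prime.coprime_iff_not_dvd (by norm_num : Nat.Prime 5)).mpr h5).symm)
      (((Nat.Prime.coprime_iff_not_dvd (by norm_num : Nat.Prime 7)).mpr h7).symm)
  have hdvd' : h ∣ 2 ^ 7 * 3 ^ 4 := by
    apply hcop.dvd_of_dvd_mul_right
    have e : 2 ^ 7 * 3 ^ 4 * 35 = 362880 := by norm_num
    rw [e]; exact hdvd
  obtain ⟨k1, k2, hk1, hk2, hk⟩ := (Nat.dvd_mul).mp hdvd'
  obtain ⟨i, hi, rfl⟩ := (Nat.dvd_prime_pow Nat.prime_two).mp hk1
  obtain ⟨j, hj, rfl⟩ := (Nat.dvd_prime_pow Nat.prime_three).mp hk2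
  exact ⟨i, j, hi, hj, hk.symm⟩

/-- In the 3-transitive case, if no element of order 3 fixes three points, a three-point
stabilizer has order `2^j` with `j ≤ 7`. -/
theorem card_stab_three (D : D11 G α) (h3 : Tr3 G α)
    (hno : ∀ (a b c : α) (z : G), a ≠ b → a ≠ c → b ≠ c → orderOf z = 3 → z • a = a →
      z • b = b → z • c = c → False)
    {a b c : α} (hab : a ≠ b) (hac : a ≠ c) (hbc : b ≠ c) :
    ∃ j : ℕ, j ≤ 7 ∧
      Nat.card (stabilizer G a ⊓ stabilizer G b ⊓ stabilizer G c : Subgroup G) = 2 ^ j := by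
  have hfix : ∀ g ∈ (stabilizer G a ⊓ stabilizer G b ⊓ stabilizer G c : Subgroup G),
      g • a = a ∧ g • b = b ∧ g • c = c := by
    intro g hg
    rw [Subgroup.mem_inf, Subgroup.mem_inf, mem_stabilizer_iff, mem_stabilizer_iff,
      mem_stabilizer_iff] at hg
    exact ⟨hg.1.1, hg.1.2, hg.2⟩
  set k := Nat.card (stabilizer G a ⊓ stabilizer G b ⊓ stabilizer G c : Subgroup G) with hk
  have hkpos : k ≠ 0 := Nat.card_pos.ne'
  have hdvd : k ∣ 40320 := by
    have := D.cardG
    rw [D.card_eq3 h3 hab hac hbc] at this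
    exact Nat.dvd_of_mul_dvd_mul_left (by norm_num : 0 < 990)
      (show 990 * k ∣ 990 * 40320 from this)
  have hprime : ∀ {q : ℕ}, q.Prime → q ∣ k → q = 2 := by
    intro q hq hqk
    rcases D.prime_dvd_stab hab (fun g hg => ⟨(hfix g hg).1, (hfix g hg).2.1⟩) hq hqk with h | h
    · exact h
    · exfalso
      subst h
      haveI : Fact (Nat.Prime 3) := ⟨by norm_num⟩
      obtain ⟨z, hz⟩ := exists_prime_orderOf_dvd_card' 3 hqk
      have hz' : orderOf (z : G) = 3 := by rw [Subgroup.orderOf_coe]; exact hz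
      obtain ⟨h1, h2, h3'⟩ := hfix z z.2
      exact hno a b c z hab hac hbc hz' h1 h2 h3'
  have hpow := Nat.eq_prime_pow_of_unique_prime_dvd hkpos hprime
  refine ⟨_, ?_, hpow⟩
  by_contra hlt
  push Not at hlt
  have h8 : 2 ^ 8 ∣ k := by
    rw [hpow]; exact pow_dvd_pow 2 hlt
  have := h8.trans hdvd
  norm_num at this

end D11

end Cfsg.Agent.Helper59
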