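import Mathlib

/-!
# Transitive groups of degree 11: common definitions

Definitions shared by the files proving that an insoluble transitive group of degree 11 not
containing the alternating group is sharply 4-transitive or `PSL(2,11)`.
-/

set_option autoImplicit false

namespace Cfsg.Agent.Helper59

/-- The set of points of `α` fixed by `g`. -/
def fxs {G : Type*} (α : Type*) [SMul G α] [Fintype α] [DecidableEq α] (g : G) : Finset α :=
  Finset.univ.filter (fun a => g • a = a)

/-- The number of points of `α` fixed by `g`. -/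
def fx {G : Type*} (α : Type*) [SMul G α] [Fintype α] [DecidableEq α] (g : G) : ℕ :=
  (fxs α g).card

/-- Three-fold transitivity, spelled out for points. -/
def Tr3 (G α : Type*) [SMul G α] : Prop :=
  ∀ a b c a' b' c' : α, a ≠ b → a ≠ c → b ≠ c → a' ≠ b' → a' ≠ c' → b' ≠ c' →
    ∃ g : G, g • a = a' ∧ g • b = b' ∧ g • c = c'

/-- The data of a faithful 2-transitive group of degree 11 not containing the alternating group:
the possible numbers of fixed points of elements of prime order (from Jordan's theorem). -/
structure D11 (G α : Type*) [Group G] [MulAction G α] [Fintype α] [DecidableEq α] : Prop where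
  card : Fintype.card α = 11
  faith : ∀ g : G, (∀ a : α, g • a = a) → g = 1
  two : ∀ a b a' b' : α, a ≠ b → a' ≠ b' → ∃ g : G, g • a = a' ∧ g • b = b'
  o2 : ∀ g : G, orderOf g = 2 → fx α g = 1 ∨ fx α g = 3 ∨ fx α g = 5 ∨ fx α g = 7
  o3 : ∀ g : G, orderOf g = 3 → fx α g = 2 ∨ fx α g = 5
  o5 : ∀ g : G, orderOf g = 5 → fx α g = 1
  o7 : ∀ g : G, orderOf g ≠ 7
  o11 : ∀ g : G, orderOf g = 11 → fx α g = 0
  prime : ∀ g : G, (orderOf g).Prime → orderOf g ≤ 11
  cardG : Nat.card G ∣ 39916800

end Cfsg.Agent.Helper59
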