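import Mathlib
import Cfsg.Agent.Helper59.ZassEven

set_option autoImplicit false

/-!
# Transitive groups of degree `p + 1` and order `(p + 1) p d`, `d < p` (helper59)

`exists_ctx0`: such a group is 2-transitive, only the identity fixes three points, the stabiliser
of a point `a` has a normal subgroup `K` of order `p` regular on the remaining points, and the
two-point stabilisers have order `d` (context `ZassEven.Ctx0`).
-/

namespace Cfsg.Agent.Helper59

namespace DegP1

open MulAction

universe u v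

theorem card_ne {α : Type v} [Fintype α] (a : α) :
    Nat.card {y : α // y ≠ a} = Fintype.card α - 1 := by
  classical
  rw [Nat.card_eq_fintype_card, Fintype.card_subtype_compl, Fintype.card_subtype_eq]

theorem exists_ctx0 {G : Type u} [Group G] {α : Type v} [MulAction G α] [Finite G] [Fintype α]
    [FaithfulSMul G α] [IsPretransitive G α] {p d : ℕ} (hp : p.Prime)
    (hα : Fintype.card α = p + 1) (hG : Nat.card G = (p + 1) * p * d) (hd : d < p) {a b : α}
    (hab : a ≠ b) :
    ∃ K : Subgroup G, Nat.card K = p ∧ ZassEven.Ctx0 G α a b K ∧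
      Nat.card ↥(stabilizer G a ⊓ stabilizer G b) = d := by
  classical
  haveI : Fact p.Prime := ⟨hp⟩
  have hd0 : 0 < d := by
    rcases Nat.eq_zero_or_pos d with h | h
    · rw [h, mul_zero] at hG
      exact absurd hG Nat.card_pos.ne'
    · exact h
  -- the stabiliser has order `p * d`
  have hS : Nat.card (stabilizer G a) = p * d := by
    have h1 := Subgroup.card_mul_index (stabilizer G a)
    rw [index_stabilizer_of_transitive, Nat.card_eq_fintype_card (α := α), hα, hG] at h1
    have h2 : Nat.card (stabilizer G a) * (p + 1) = (p * d) * (p + 1) := by rw [h1]; ring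
    exact Nat.eq_of_mul_eq_mul_right (by omega) h2
  -- a normal Sylow `p`-subgroup of the stabiliser
  obtain ⟨P⟩ : Nonempty (Sylow p (stabilizer G a)) := inferInstance
  have hpd : ¬ p ∣ d := fun h => absurd (Nat.le_of_dvd hd0 h) (by omega)
  have hPcard : Nat.card (P : Subgroup (stabilizer G a)) = p := by
    rw [Sylow.card_eq_multiplicity, hS, Nat.factorization_mul hp.ne_zero hd0.ne']
    simp [hp.factorization_self, Nat.factorization_eq_zero_of_not_dvd hpd]
  have hPidx : (P : Subgroup (stabilizer G a)).index = d := by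
    have h1 := Subgroup.card_mul_index (P : Subgroup (stabilizer G a))
    rw [hPcard, hS] at h1
    exact Nat.eq_of_mul_eq_mul_left hp.pos h1
  have hnP : Nat.card (Sylow p (stabilizer G a)) = 1 := by
    have h1 := card_sylow_modEq_one p (stabilizer G a)
    have h2 := Sylow.card_dvd_index P
    rw [hPidx] at h2
    have h3 := Nat.le_of_dvd hd0 h2
    have h4 : Nat.card (Sylow p (stabilizer G a)) % p = 1 % p := h1
    rw [Nat.mod_eq_of_lt (by omega), Nat.mod_eq_of_lt hp.one_lt] at h4
    exact h4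
  haveI : Subsingleton (Sylow p (stabilizer G a)) := (Nat.card_eq_one_iff_unique.mp hnP).1
  have hPn : (P : Subgroup (stabilizer G a)).Normal := Sylow.normal_of_subsingleton P
  set K : Subgroup G := (P : Subgroup (stabilizer G a)).map (stabilizer G a).subtype with hK
  have hKcard : Nat.card K = p := by
    rw [hK, Subgroup.card_map_of_injective (Subgroup.subtype_injective _), hPcard]
  have hKa : ∀ k ∈ K, k • a = a := by
    rintro _ ⟨x, -, rfl⟩
    exact x.2
  have hKn : ∀ g : G, g • a = a → ∀ k ∈ K, g * k * g⁻¹ ∈ K := by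
    rintro g hg _ ⟨x, hx, rfl⟩
    exact ⟨(⟨g, hg⟩ : stabilizer G a) * x * (⟨g, hg⟩ : stabilizer G a)⁻¹,
      hPn.conj_mem x hx ⟨g, hg⟩, rfl⟩
  -- elements of `K` have order dividing `p`
  have hKp : ∀ k ∈ K, k ^ p = 1 := by
    intro k hk
    have h1 := pow_card_eq_one' (G := K) (x := ⟨k, hk⟩)
    rw [hKcard] at h1
    exact congrArg Subtype.val h1
  -- semiregularity
  have hKs : ∀ k ∈ K, ∀ x : α, x ≠ a → k • x = x → k = 1 := by
    intro k hk x hx hkx
    have h1 : (MulAction.toPermHom G α k) ^ p ^ 1 = 1 := by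
      rw [pow_one, ← map_pow, hKp k hk, map_one]
    have h2 := Equiv.Perm.card_compl_support_modEq h1
    have h3 : ({a, x} : Finset α) ⊆ (MulAction.toPermHom G α k).supportᶜ := by
      intro y hy
      rw [Finset.mem_insert, Finset.mem_singleton] at hy
      rw [Finset.mem_compl, Equiv.Perm.notMem_support]
      rcases hy with rfl | rfl
      · exact hKa k hk
      · exact hkx
    have h4 := Finset.card_le_card h3
    rw [Finset.card_pair hx.symm] at h4
    have h5 : (MulAction.toPermHom G α k).supportᶜ.card ≤ p + 1 := by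
      rw [← hα]
      exact Finset.card_le_univ _
    have h6 : (MulAction.toPermHom G α k).supportᶜ.card % p = (p + 1) % p := by
      rw [← hα]; exact h2
    have h7 : (MulAction.toPermHom G α k).supportᶜ.card = p + 1 := by
      rw [Nat.add_mod_left, Nat.mod_eq_of_lt hp.one_lt] at h6
      by_contra hne
      have h8 : (MulAction.toPermHom G α k).supportᶜ.card ≤ p := by omega
      rcases Nat.lt_or_eq_of_le h8 with h9 | h9
      · rw [Nat.mod_eq_of_lt h9] at h6
        omega
      · rw [h9, Nat.mod_self] at h6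
        omega
    have h8 : (MulAction.toPermHom G α k).supportᶜ = Finset.univ := by
      apply Finset.eq_univ_of_card
      rw [h7, hα]
    have h9 : MulAction.toPermHom G α k = 1 := by
      rw [← Equiv.Perm.support_eq_empty_iff, ← Finset.compl_univ, ← h8, compl_compl]
    have h10 : MulAction.toPermHom G α k = MulAction.toPermHom G α 1 := by rw [h9, map_one]
    exact MulAction.toPerm_injective h10
  -- transitivity
  have hKne : ∀ k ∈ K, ∀ x : α, x ≠ a → k • x ≠ a := by
    intro k hk x hx h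
    apply hx
    have h2 : k • x = k • a := by rw [h, hKa k hk]
    exact smul_left_cancel k h2
  have hKt : ∀ x y : α, x ≠ a → y ≠ a → ∃ k ∈ K, k • x = y := by
    intro x y hx hy
    have hinj : Function.Injective (fun k : K => (⟨(k : G) • x, hKne k k.2 x hx⟩ : {y : α // y ≠ a})) := by
      intro k k' h
      have h1 : (k : G) • x = (k' : G) • x := congrArg Subtype.val h
      have h2 : ((k' : G)⁻¹ * k) • x = x := by rw [mul_smul, h1, inv_smul_smul]
      have h3 := hKs _ (K.mul_mem (K.inv_mem k'.2) k.2) x hx h2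
      exact Subtype.ext (inv_mul_eq_one.mp h3).symm
    have hbij := hinj.bijective_of_nat_card_le (by rw [card_ne, hα, hKcard]; omega)
    obtain ⟨k, hk⟩ := hbij.2 ⟨y, hy⟩
    exact ⟨k, k.2, congrArg Subtype.val hk⟩
  -- commutativity
  have hKc : ∀ x ∈ K, ∀ y ∈ K, x * y = y * x := by
    intro x hx y hy
    haveI : IsCyclic K := isCyclic_of_prime_card hKcard
    letI := IsCyclic.commGroup (α := K)
    exact congrArg Subtype.val (mul_comm (⟨x, hx⟩ : K) ⟨y, hy⟩)
  -- 2-transitivity
  have ht2 : ∀ x y x' y' : α, x ≠ y → x' ≠ y' → ∃ g : G, g • x = x' ∧ g • y = y' := by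
    intro x y x' y' hxy hxy'
    obtain ⟨g₁, hg₁⟩ := exists_smul_eq G x a
    obtain ⟨g₂, hg₂⟩ := exists_smul_eq G x' a
    have h1 : g₁ • y ≠ a := fun h => hxy (smul_left_cancel g₁ (hg₁.trans h.symm))
    have h2 : g₂ • y' ≠ a := fun h => hxy' (smul_left_cancel g₂ (hg₂.trans h.symm))
    obtain ⟨k, hk, hky⟩ := hKt _ _ h1 h2
    refine ⟨g₂⁻¹ * k * g₁, ?_, ?_⟩
    · rw [mul_smul, mul_smul, hg₁, hKa k hk, inv_smul_eq_iff, hg₂]
    · rw [mul_smul, mul_smul, hky, inv_smul_smul]
  -- only the identity fixes three points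
  have hs3 : ∀ (g : G) (x y z : α), x ≠ y → x ≠ z → y ≠ z → g • x = x → g • y = y →
      g • z = z → g = 1 := by
    intro g x y z hxy hxz hyz hx hy hz
    obtain ⟨g₁, hg₁⟩ := exists_smul_eq G x a
    have hy' : g₁ • y ≠ a := fun h => hxy (smul_left_cancel g₁ (hg₁.trans h.symm))
    have hz' : g₁ • z ≠ a := fun h => hxz (smul_left_cancel g₁ (hg₁.trans h.symm))
    have hyz' : g₁ • y ≠ g₁ • z := fun h => hyz (smul_left_cancel g₁ h)
    obtain ⟨k, hk, hky⟩ := hKt _ _ hy' hz'
    have hk1 : k ≠ 1 := by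
      rintro rfl
      rw [one_smul] at hky
      exact hyz' hky
    have hg'a : (g₁ * g * g₁⁻¹) • a = a := by
      rw [mul_smul, mul_smul, ← hg₁, inv_smul_smul, hx]
    have hg'y : (g₁ * g * g₁⁻¹) • (g₁ • y) = g₁ • y := by
      rw [mul_smul, mul_smul, inv_smul_smul, hy]
    have hg'z : (g₁ * g * g₁⁻¹) • (g₁ • z) = g₁ • z := by
      rw [mul_smul, mul_smul, inv_smul_smul, hz]
    have hg'y' : (g₁ * g * g₁⁻¹)⁻¹ • (g₁ • y) = g₁ • y := by rw [inv_smul_eq_iff, hg'y]
    -- `g'` commutes with `k`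
    have hconj : (g₁ * g * g₁⁻¹) * k * (g₁ * g * g₁⁻¹)⁻¹ = k := by
      have hmem := hKn _ hg'a k hk
      have h1 : ((g₁ * g * g₁⁻¹) * k * (g₁ * g * g₁⁻¹)⁻¹) • (g₁ • y) = k • (g₁ • y) := by
        rw [mul_smul, mul_smul, hg'y', hky, hg'z]
      have h2 : (k⁻¹ * ((g₁ * g * g₁⁻¹) * k * (g₁ * g * g₁⁻¹)⁻¹)) • (g₁ • y) = g₁ • y := by
        rw [mul_smul, h1, inv_smul_smul]
      have h3 := hKs _ (K.mul_mem (K.inv_mem hk) hmem) _ hy' h2
      exact (inv_mul_eq_one.mp h3).symm
    have hall : ∀ k' ∈ K, (g₁ * g * g₁⁻¹) * k' = k' * (g₁ * g * g₁⁻¹) := by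
      intro k' hk'
      have h1 : (⟨k', hk'⟩ : K) ∈ Subgroup.zpowers (⟨k, hk⟩ : K) :=
        mem_zpowers_of_prime_card hKcard (fun h => hk1 (congrArg Subtype.val h))
      obtain ⟨n, hn⟩ := Subgroup.mem_zpowers_iff.mp h1
      have hn' : k ^ n = k' := by
        have := congrArg Subtype.val hn
        simpa using this
      have h2 : (g₁ * g * g₁⁻¹) * k' * (g₁ * g * g₁⁻¹)⁻¹ = k' := by
        rw [← hn', ← conj_zpow, hconj]
      calc (g₁ * g * g₁⁻¹) * k' = ((g₁ * g * g₁⁻¹) * k' * (g₁ * g * g₁⁻¹)⁻¹) * (g₁ * g * g₁⁻¹) := by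
            group
        _ = k' * (g₁ * g * g₁⁻¹) := by rw [h2]
    have hg'1 : g₁ * g * g₁⁻¹ = 1 := by
      apply FaithfulSMul.eq_of_smul_eq_smul (α := α)
      intro w
      rw [one_smul]
      by_cases hw : w = a
      · rw [hw, hg'a]
      · obtain ⟨k', hk', hk'w⟩ := hKt _ _ hy' hw
        rw [← hk'w, ← mul_smul, hall k' hk', mul_smul, hg'y]
    calc g = g₁⁻¹ * (g₁ * g * g₁⁻¹) * g₁ := by group
      _ = 1 := by rw [hg'1]; group
  refine ⟨K, hKcard, ⟨hab, ht2, hs3, hKa, hKn, hKc, hKt, hKs⟩, ?_⟩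
  -- the order of the two-point stabiliser
  have hbij : Function.Bijective (fun x : K × ↥(stabilizer G a ⊓ stabilizer G b) =>
      (⟨(x.1 : G) * (x.2 : G), by
        have h2 := x.2.2
        rw [Subgroup.mem_inf, mem_stabilizer_iff, mem_stabilizer_iff] at h2
        rw [mem_stabilizer_iff, mul_smul, h2.1, hKa _ x.1.2]⟩ : stabilizer G a)) := by
    constructor
    · rintro ⟨k, h⟩ ⟨k', h'⟩ heq
      have h1 : (k : G) * (h : G) = (k' : G) * (h' : G) := congrArg Subtype.val heq
      have hh := h.2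
      have hh' := h'.2
      rw [Subgroup.mem_inf, mem_stabilizer_iff, mem_stabilizer_iff] at hh hh'
      have h2 : ((k' : G)⁻¹ * k) • b = b := by
        have e1 : (k' : G)⁻¹ * k = (h' : G) * (h : G)⁻¹ := by
          calc (k' : G)⁻¹ * k = (k' : G)⁻¹ * ((k : G) * h) * (h : G)⁻¹ := by group
            _ = (k' : G)⁻¹ * ((k' : G) * h') * (h : G)⁻¹ := by rw [h1]
            _ = (h' : G) * (h : G)⁻¹ := by group
        rw [e1, mul_smul, inv_smul_eq_iff.mpr hh.2.symm, hh'.2]
      have h3 := hKs _ (K.mul_mem (K.inv_mem k'.2) k.2) b hab.symm h2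
      have h4 : (k : G) = k' := (inv_mul_eq_one.mp h3).symm
      have h5 : (h : G) = h' := by
        rw [h4] at h1
        exact mul_left_cancel h1
      exact Prod.ext (Subtype.ext h4) (Subtype.ext h5)
    · rintro ⟨g, hg⟩
      rw [mem_stabilizer_iff] at hg
      have hgb : g • b ≠ a := fun h => hab.symm (smul_left_cancel g (h.trans hg.symm))
      obtain ⟨k, hk, hkb⟩ := hKt b (g • b) hab.symm hgb
      have hmem : k⁻¹ * g ∈ stabilizer G a ⊓ stabilizer G b := by
        rw [Subgroup.mem_inf, mem_stabilizer_iff, mem_stabilizer_iff]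
        constructor
        · rw [mul_smul, hg, inv_smul_eq_iff, hKa k hk]
        · rw [mul_smul, inv_smul_eq_iff, hkb]
      refine ⟨(⟨k, hk⟩, ⟨k⁻¹ * g, hmem⟩), ?_⟩
      apply Subtype.ext
      show k * (k⁻¹ * g) = g
      group
  have h1 := Nat.card_congr (Equiv.ofBijective _ hbij)
  rw [Nat.card_prod, hKcard, hS] at h1
  exact (Nat.eq_of_mul_eq_mul_left hp.pos h1)

end DegP1

end Cfsg.Agent.Helper59
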