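import Mathlib

set_option autoImplicit false

/-!
# A field from an abelian semiregular group of automorphisms with a large orbit (helper59)

Let `A` be a finite commutative group and `c : D →* MulAut A` an action of a commutative group `D`
which is semiregular on `A \ {1}` and such that `|A| ≤ 2 |D| + 1` (e.g. `D` has two orbits on
`A \ {1}`).  Then every nontrivial `D`-invariant subgroup of `A` is `A`, the ring of endomorphisms
of `A` commuting with `D` is a finite field `F` and `ev : F → A`, `φ ↦ φ e` is a bijection for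
every `e ≠ 1`; `D` acts through multiplication by `μ d ∈ F`.

(Variant of `Cfsg.Agent.Helper21.FieldOfReg`, where `D` is regular on `A \ {1}`.)
-/

namespace Cfsg.Agent.Helper59

namespace FieldOfHalf

universe u v

section Defs

variable {A : Type u} [CommGroup A] {D : Type v} [Group D] (c : D →* MulAut A)

/-- The additive endomorphism induced by `c d`. -/
def cEnd (d : D) : AddMonoid.End (Additive A) := MonoidHom.toAdditive (c d).toMonoidHom

theorem cEnd_apply (d : D) (a : Additive A) :
    cEnd c d a = Additive.ofMul (c d (Additive.toMul a)) := rfl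

theorem cEnd_mul (d d' : D) : cEnd c (d * d') = cEnd c d * cEnd c d' := by
  refine DFunLike.ext _ _ (fun a => ?_)
  show Additive.ofMul (c (d * d') (Additive.toMul a)) =
    Additive.ofMul (c d (c d' (Additive.toMul a)))
  rw [map_mul]; rfl

theorem cEnd_one : cEnd c 1 = 1 := by
  refine DFunLike.ext _ _ (fun a => ?_)
  show Additive.ofMul (c 1 (Additive.toMul a)) = a
  rw [map_one]; rfl

/-- The commutant of `D` in the endomorphism ring. -/
def FF : Subring (AddMonoid.End (Additive A)) := Subring.centralizer (Set.range (cEnd c))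

theorem comm_apply (φ : FF c) (d : D) (a : Additive A) :
    φ.1 (cEnd c d a) = cEnd c d (φ.1 a) := by
  have h := Subring.mem_centralizer_iff.mp φ.2 (cEnd c d) ⟨d, rfl⟩
  exact (DFunLike.congr_fun h a).symm

/-- Evaluation at `e`. -/
def ev (e : A) (φ : FF c) : A := Additive.toMul (φ.1 (Additive.ofMul e))

theorem ev_zero (e : A) : ev c e 0 = 1 := rfl

theorem ev_one (e : A) : ev c e 1 = e := rfl

theorem ev_add (e : A) (φ ψ : FF c) : ev c e (φ + ψ) = ev c e φ * ev c e ψ := rfl

/-- The element of the commutant given by `d` (needs `D` commutative). -/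
def mkF (hcomm : ∀ d d' : D, d * d' = d' * d) (d : D) : FF c :=
  ⟨cEnd c d, by
    rw [FF, Subring.mem_centralizer_iff]
    rintro _ ⟨d', rfl⟩
    rw [← cEnd_mul, ← cEnd_mul, hcomm]⟩

theorem ev_mkF_mul (hcomm : ∀ d d' : D, d * d' = d' * d) (e : A) (d : D) (φ : FF c) :
    ev c e (mkF c hcomm d * φ) = c d (ev c e φ) := rfl

theorem ev_mkF (hcomm : ∀ d d' : D, d * d' = d' * d) (e : A) (d : D) :
    ev c e (mkF c hcomm d) = c d e := rfl

theorem mkF_mul (hcomm : ∀ d d' : D, d * d' = d' * d) (d d' : D) :
    mkF c hcomm (d * d') = mkF c hcomm d * mkF c hcomm d' :=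
  Subtype.ext (cEnd_mul c d d')

theorem mkF_one (hcomm : ∀ d d' : D, d * d' = d' * d) : mkF c hcomm 1 = 1 :=
  Subtype.ext (cEnd_one c)

/-- The kernel of an element of the commutant, as a subgroup of `A`. -/
def kerSub (φ : FF c) : Subgroup A where
  carrier := {x | φ.1 (Additive.ofMul x) = 0}
  one_mem' := map_zero φ.1
  mul_mem' := by
    intro x y hx hy
    show φ.1 (Additive.ofMul x + Additive.ofMul y) = 0
    rw [map_add]
    have hx' : φ.1 (Additive.ofMul x) = 0 := hx
    have hy' : φ.1 (Additive.ofMul y) = 0 := hy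
    rw [hx', hy', add_zero]
  inv_mem' := by
    intro x hx
    show φ.1 (- Additive.ofMul x) = 0
    have hx' : φ.1 (Additive.ofMul x) = 0 := hx
    rw [map_neg, hx', neg_zero]

theorem mem_kerSub (φ : FF c) (x : A) : x ∈ kerSub c φ ↔ φ.1 (Additive.ofMul x) = 0 := Iff.rfl

theorem kerSub_invariant (φ : FF c) (d : D) (x : A) (hx : x ∈ kerSub c φ) :
    c d x ∈ kerSub c φ := by
  rw [mem_kerSub] at hx ⊢
  have h := comm_apply c φ d (Additive.ofMul x)
  rw [cEnd_apply] at h
  have h2 : Additive.toMul (Additive.ofMul x) = x := rfl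
  rw [h2, hx] at h
  rw [h]
  exact map_zero (cEnd c d)

/-- The set of values `φ e`, as a subgroup of `A`. -/
def evSub (e : A) : Subgroup A where
  carrier := Set.range (ev c e)
  one_mem' := ⟨0, rfl⟩
  mul_mem' := by
    rintro _ _ ⟨φ, rfl⟩ ⟨ψ, rfl⟩
    exact ⟨φ + ψ, rfl⟩
  inv_mem' := by
    rintro _ ⟨φ, rfl⟩
    exact ⟨-φ, rfl⟩

variable {c}

/-- Every nontrivial invariant subgroup is everything. -/
theorem invariant_eq_top [Finite A] [Finite D]
    (hsemi : ∀ (d : D) (x : A), x ≠ 1 → c d x = x → d = 1)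
    (hcard : Nat.card A ≤ 2 * Nat.card D + 1)
    (B : Subgroup A) (hB : ∀ d : D, ∀ x ∈ B, c d x ∈ B) (hne : B ≠ ⊥) : B = ⊤ := by
  classical
  obtain ⟨⟨x, hxB⟩, hx1'⟩ := (Subgroup.ne_bot_iff_exists_ne_one).mp hne
  have hx1 : x ≠ 1 := fun h => hx1' (Subtype.ext h)
  let f : Option D → B := fun o => o.elim 1 (fun d => ⟨c d x, hB d x hxB⟩)
  have hne1 : ∀ d : D, c d x ≠ 1 := by
    intro d h
    apply hx1
    have := (c d).injective (h.trans (map_one (c d)).symm)
    exact this
  have hf : Function.Injective f := by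
    intro o o' h
    cases o with
    | none =>
      cases o' with
      | none => rfl
      | some d' =>
        exfalso
        have h' : (1 : A) = c d' x := congrArg Subtype.val h
        exact hne1 d' h'.symm
    | some d =>
      cases o' with
      | none =>
        exfalso
        have h' : c d x = (1 : A) := congrArg Subtype.val h
        exact hne1 d h'
      | some d' =>
        have h' : c d x = c d' x := congrArg Subtype.val h
        have h2 : c (d'⁻¹ * d) x = x := by
          rw [map_mul, MulAut.mul_apply, h', ← MulAut.mul_apply, ← map_mul, inv_mul_cancel,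
            map_one, MulAut.one_apply]
        have h3 := hsemi (d'⁻¹ * d) x hx1 h2
        have h4 : d = d' := by
          have : d = d' * (d'⁻¹ * d) := by group
          rw [this, h3, mul_one]
        rw [h4]
  have h1 : Nat.card D + 1 ≤ Nat.card B := by
    have := Nat.card_le_card_of_injective f hf
    rwa [Finite.card_option] at this
  obtain ⟨k, hk⟩ := Subgroup.card_subgroup_dvd_card B
  have hApos : 0 < Nat.card A := Nat.card_pos
  have hk1 : k = 1 := by
    rcases Nat.lt_or_ge k 2 with h | h
    · interval_cases k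
      · rw [mul_zero] at hk; omega
      · rfl
    · exfalso
      have : 2 * Nat.card B ≤ Nat.card A := by rw [hk]; nlinarith
      omega
  apply Subgroup.eq_top_of_card_eq
  rw [hk, hk1, mul_one]

theorem eq_zero_of_kerSub_ne_bot [Finite A] [Finite D]
    (hsemi : ∀ (d : D) (x : A), x ≠ 1 → c d x = x → d = 1)
    (hcard : Nat.card A ≤ 2 * Nat.card D + 1) (φ : FF c) (h : kerSub c φ ≠ ⊥) : φ = 0 := by
  have htop := invariant_eq_top hsemi hcard (kerSub c φ) (kerSub_invariant c φ) h
  apply Subtype.ext
  refine DFunLike.ext _ _ (fun a => ?_)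
  have h1 : Additive.toMul a ∈ kerSub c φ := by rw [htop]; trivial
  exact h1

theorem ev_injective [Finite A] [Finite D]
    (hsemi : ∀ (d : D) (x : A), x ≠ 1 → c d x = x → d = 1)
    (hcard : Nat.card A ≤ 2 * Nat.card D + 1) {e : A} (he : e ≠ 1) :
    Function.Injective (ev c e) := by
  intro φ ψ h
  have h0 : φ - ψ = 0 := by
    apply eq_zero_of_kerSub_ne_bot hsemi hcard
    intro hbot
    have hmem : e ∈ kerSub c (φ - ψ) := by
      rw [mem_kerSub]
      show φ.1 (Additive.ofMul e) - ψ.1 (Additive.ofMul e) = 0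
      have h' : φ.1 (Additive.ofMul e) = ψ.1 (Additive.ofMul e) := h
      rw [h', sub_self]
    rw [hbot, Subgroup.mem_bot] at hmem
    exact he hmem
  exact sub_eq_zero.mp h0

theorem ev_surjective [Finite A] [Finite D] (hcomm : ∀ d d' : D, d * d' = d' * d)
    (hsemi : ∀ (d : D) (x : A), x ≠ 1 → c d x = x → d = 1)
    (hcard : Nat.card A ≤ 2 * Nat.card D + 1) {e : A} (he : e ≠ 1) :
    Function.Surjective (ev c e) := by
  have htop : evSub c e = ⊤ := by
    apply invariant_eq_top hsemi hcard
    · rintro d _ ⟨φ, rfl⟩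
      exact ⟨mkF c hcomm d * φ, ev_mkF_mul c hcomm e d φ⟩
    · intro hbot
      have hmem : e ∈ evSub c e := ⟨1, ev_one c e⟩
      rw [hbot, Subgroup.mem_bot] at hmem
      exact he hmem
  intro a
  have : a ∈ evSub c e := by rw [htop]; trivial
  exact this

theorem ff_eq_zero_or [Finite A] [Finite D]
    (hsemi : ∀ (d : D) (x : A), x ≠ 1 → c d x = x → d = 1)
    (hcard : Nat.card A ≤ 2 * Nat.card D + 1) (φ ψ : FF c) (h : φ * ψ = 0) :
    φ = 0 ∨ ψ = 0 := by
  by_cases hψ : ψ = 0
  · exact Or.inr hψ
  left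
  have hex : ∃ a : Additive A, ψ.1 a ≠ 0 := by
    by_contra hcon
    push Not at hcon
    apply hψ
    apply Subtype.ext
    exact DFunLike.ext _ _ hcon
  obtain ⟨a, ha⟩ := hex
  apply eq_zero_of_kerSub_ne_bot hsemi hcard
  intro hbot
  have hmem : Additive.toMul (ψ.1 a) ∈ kerSub c φ := by
    rw [mem_kerSub]
    have h1 : (φ * ψ).1 a = 0 := by rw [h]; rfl
    exact h1
  rw [hbot, Subgroup.mem_bot] at hmem
  exact ha hmem

theorem mkF_ne_zero (hcomm : ∀ d d' : D, d * d' = d' * d) {e : A} (he : e ≠ 1) (d : D) :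
    mkF c hcomm d ≠ 0 := by
  intro h
  have h1 : ev c e (mkF c hcomm d) = 1 := by rw [h, ev_zero]
  rw [ev_mkF] at h1
  apply he
  have := (c d).injective (h1.trans (map_one (c d)).symm)
  exact this

end Defs

/-- The packaged field. -/
theorem exists_field {A : Type u} [Group A] [Finite A] (hc : ∀ a b : A, a * b = b * a)
    {D : Type v} [Group D] [Finite D] (c : D →* MulAut A)
    (hcomm : ∀ d d' : D, d * d' = d' * d)
    (hsemi : ∀ (d : D) (x : A), x ≠ 1 → c d x = x → d = 1)
    (hcard : Nat.card A ≤ 2 * Nat.card D + 1) (e : A) (he : e ≠ 1) :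
    ∃ (F : Type u) (_ : Field F) (_ : Fintype F) (ev : F → A) (μ : D → F),
      Function.Bijective ev ∧ ev 0 = 1 ∧ ev 1 = e ∧
      (∀ x y, ev (x + y) = ev x * ev y) ∧ (∀ d x, ev (μ d * x) = c d (ev x)) ∧
      (∀ d, μ d ≠ 0) ∧ (∀ d d', μ (d * d') = μ d * μ d') ∧ μ 1 = 1 := by
  classical
  let instCG : CommGroup A := { (inferInstance : Group A) with mul_comm := hc }
  have hfin : Finite (FF c) := Finite.of_injective (ev c e) (ev_injective hsemi hcard he)
  let instFT : Fintype (FF c) := Fintype.ofFinite _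
  have hnt : Nontrivial (FF c) := by
    refine ⟨⟨0, 1, ?_⟩⟩
    intro h01
    apply he
    have := congrArg (ev c e) h01
    rw [ev_zero, ev_one] at this
    exact this.symm
  have hnzd : NoZeroDivisors (FF c) :=
    ⟨fun {a b} h => ff_eq_zero_or hsemi hcard a b h⟩
  have hdom : IsDomain (FF c) := NoZeroDivisors.to_isDomain _
  let instDR : DivisionRing (FF c) := Fintype.divisionRingOfIsDomain (FF c)
  let instFld : Field (FF c) := littleWedderburn (FF c)
  exact ⟨FF c, instFld, instFT, ev c e, mkF c hcomm,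
    ⟨ev_injective hsemi hcard he, ev_surjective hcomm hsemi hcard he⟩, ev_zero c e, ev_one c e,
    ev_add c e, ev_mkF_mul c hcomm e, mkF_ne_zero hcomm he, mkF_mul c hcomm, mkF_one c hcomm⟩

end FieldOfHalf

end Cfsg.Agent.Helper59
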