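import Mathlib
import Cfsg.Agent.Helper59.ZassEven
import Cfsg.Agent.Helper59.FieldOfHalf
import Cfsg.Agent.Helper66.ZassCoord

set_option autoImplicit false

/-!
# Groups of degree `p + 1` with a regular normal subgroup are semi-affine (helper59)

`affine_of_regular`: in the `ZassEven.Ctx0` context with `|K| = p` an odd prime and degree `p + 1`,
a regular normal subgroup `N` is elementary abelian of order `2 ^ q` (`q` prime), the points are
coordinatised by `GaloisField 2 q` so that every element of `G` is `x ↦ u * φ x + v`, and the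
order of the two-point stabiliser divides `q`.
-/

namespace Cfsg.Agent.Helper59

namespace DegP1

open MulAction

universe u v

theorem reg_eq {G : Type u} [Group G] {α : Type v} [MulAction G α] {N : Subgroup G}
    (hNs : ∀ g ∈ N, ∀ x : α, g • x = x → g = 1) {n n' : G} (hn : n ∈ N) (hn' : n' ∈ N) {x : α}
    (h : n • x = n' • x) : n = n' := by
  have h1 : (n'⁻¹ * n) • x = x := by rw [mul_smul, h, inv_smul_smul]
  have h2 := hNs _ (N.mul_mem (N.inv_mem hn') hn) x h1
  exact (inv_mul_eq_one.mp h2).symm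

/-- Field coordinates for a regular normal subgroup. -/
theorem affine_field {G : Type u} [Group G] {α : Type v} [MulAction G α] [Finite G] [Fintype α]
    [FaithfulSMul G α] {a b : α} {K : Subgroup G}
    (C0 : ZassEven.Ctx0 G α a b K) {p : ℕ} (hp : p.Prime) (hp2 : p ≠ 2)
    (hα : Fintype.card α = p + 1) (hKcard : Nat.card K = p)
    (N : Subgroup G) (hNn : N.Normal) (hNt : ∀ x y : α, ∃ g ∈ N, g • x = y)
    (hNs : ∀ g ∈ N, ∀ x : α, g • x = x → g = 1) :
    ∃ (F : Type u) (_ : Field F) (_ : Fintype F) (_ : CharP F 2) (e₁ : F ≃ α),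
      Fintype.card F = p + 1 ∧
      Nat.card ↥(stabilizer G a ⊓ stabilizer G b) ∣ Nat.card (F ≃+* F) ∧
      ∀ g : G, ∃ (u : F) (_ : u ≠ 0) (v : F) (φ : F ≃+* F),
        ∀ x : F, g • e₁ x = e₁ (u * φ x + v) := by
  classical
  have hab := C0.hab
  have hbijN : Function.Bijective (fun n : N => (n : G) • a) := by
    constructor
    · intro n n' h
      exact Subtype.ext (reg_eq hNs n.2 n'.2 h)
    · intro x
      obtain ⟨g, hg, hgx⟩ := hNt a x
      exact ⟨⟨g, hg⟩, hgx⟩
  have hNcard : Nat.card N = p + 1 := by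
    rw [Nat.card_eq_of_bijective _ hbijN, Nat.card_eq_fintype_card, hα]
  have hodd : Odd p := hp.odd_of_ne_two hp2
  haveI : Fact (Nat.Prime 2) := ⟨Nat.prime_two⟩
  obtain ⟨t, ht⟩ := exists_prime_orderOf_dvd_card' (G := N) 2
    (by rw [hNcard]; obtain ⟨k, hk⟩ := hodd; omega)
  have ht1 : (t : G) ≠ 1 := by
    intro h
    have : t = 1 := Subtype.ext h
    rw [this, orderOf_one] at ht
    omega
  have ht2 : (t : G) * t = 1 := by
    have := pow_orderOf_eq_one t
    rw [ht, pow_two] at this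
    exact congrArg Subtype.val this
  have hta : (t : G) • a ≠ a := fun h => ht1 (hNs t t.2 a h)
  have hsq : ∀ n ∈ N, n * n = 1 := by
    intro n hn
    by_cases hn1 : n = 1
    · rw [hn1, mul_one]
    have hna : n • a ≠ a := fun h => hn1 (hNs n hn a h)
    obtain ⟨k, hk, hkt⟩ := C0.Kt _ _ hta hna
    have hka : k⁻¹ • a = a := by rw [inv_smul_eq_iff, C0.Ka k hk]
    have h1 : k * t * k⁻¹ = n := by
      apply reg_eq hNs (hNn.conj_mem t t.2 k) hn (x := a)
      rw [mul_smul, mul_smul, hka, hkt]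
    rw [← h1]
    calc k * t * k⁻¹ * (k * t * k⁻¹) = k * ((t : G) * t) * k⁻¹ := by group
      _ = 1 := by rw [ht2]; group
  have hNc : ∀ x y : N, x * y = y * x := by
    intro x y
    apply Subtype.ext
    have hx := hsq x x.2
    have hy := hsq y y.2
    have hxy := hsq (x * y) (N.mul_mem x.2 y.2)
    symm
    calc (y : G) * x = ((x : G) * x) * ((y : G) * x) * ((y : G) * y) := by
          rw [hx, hy, one_mul, mul_one]
      _ = x * (((x : G) * y) * ((x : G) * y)) * y := by group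
      _ = x * y := by rw [hxy, mul_one]
  have hKN : ∀ h ∈ K, ∀ n ∈ N, h * n * h⁻¹ ∈ N := fun h _ n hn => hNn.conj_mem n hn h
  set c : K →* MulAut N := Cfsg.Agent.Helper66.conjOn N K hKN with hc
  have hcval : ∀ (k : K) (n : N), ((c k n : N) : G) = k * n * (k : G)⁻¹ := fun k n => rfl
  have hsemi : ∀ (k : K) (x : N), x ≠ 1 → c k x = x → k = 1 := by
    intro k x hx hkx
    have h1 : (k : G) * x * (k : G)⁻¹ = x := congrArg Subtype.val hkx
    have hxa : (x : G) • a ≠ a := fun h => hx (Subtype.ext (hNs x x.2 a h))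
    apply Subtype.ext
    apply C0.Ks k k.2 _ hxa
    calc (k : G) • ((x : G) • a) = ((k : G) * x * (k : G)⁻¹) • ((k : G) • a) := by
          rw [mul_smul, mul_smul, inv_smul_smul]
      _ = (x : G) • a := by rw [h1, C0.Ka k k.2]
  obtain ⟨e₀, he₀N, he₀⟩ := hNt a b
  have he₀1 : (⟨e₀, he₀N⟩ : N) ≠ 1 := by
    intro h
    have : e₀ = 1 := congrArg Subtype.val h
    rw [this, one_smul] at he₀
    exact hab he₀
  obtain ⟨F, iF, iFT, ev, μ, hev, hev0, hev1, hevadd, hevμ, hμ0, hμmul, hμ1⟩ :=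
    FieldOfHalf.exists_field hNc c (fun k k' => Subtype.ext (C0.Kc k k.2 k' k'.2)) hsemi
      (by rw [hNcard, hKcard]; omega) ⟨e₀, he₀N⟩ he₀1
  have hFcard : Fintype.card F = p + 1 := by
    rw [← Nat.card_eq_fintype_card, Nat.card_eq_of_bijective ev hev, hNcard]
  have h2F : (2 : F) = 0 := by
    have h1 : (1 + 1 : F) = 0 := by
      apply hev.1
      rw [hevadd, hev1, hev0]
      exact Subtype.ext (hsq e₀ he₀N)
    rw [← h1]; norm_num
  have hchar : CharP F 2 := CharTwo.of_one_ne_zero_of_two_eq_zero one_ne_zero h2F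
  have hevinj : ∀ x y : F, ((ev x : N) : G) = ev y → x = y := fun x y h => hev.1 (Subtype.ext h)
  have hμsurj : ∀ x : F, x ≠ 0 → ∃ k : K, μ k = x := by
    intro x hx
    have hx1 : ev x ≠ 1 := by rw [← hev0]; exact fun h => hx (hev.1 h)
    have hxa : ((ev x : N) : G) • a ≠ a := fun h => hx1 (Subtype.ext (hNs _ (ev x).2 a h))
    obtain ⟨k, hk, hkb⟩ := C0.Kt b _ hab.symm hxa
    refine ⟨⟨k, hk⟩, ?_⟩
    apply hev.1
    have := hevμ ⟨k, hk⟩ 1
    rw [mul_one, hev1] at this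
    rw [this]
    apply Subtype.ext
    apply reg_eq hNs (c ⟨k, hk⟩ ⟨e₀, he₀N⟩).2 (ev x).2 (x := a)
    rw [hcval]
    show (k * e₀ * k⁻¹) • a = _
    rw [mul_smul, mul_smul, inv_smul_eq_iff.mpr (C0.Ka k hk).symm, he₀, hkb]
  have hmemH : ∀ h : G, h ∈ stabilizer G a ⊓ stabilizer G b ↔ h • a = a ∧ h • b = b := by
    intro h
    rw [Subgroup.mem_inf, mem_stabilizer_iff, mem_stabilizer_iff]
  have hHa : ∀ h : ↥(stabilizer G a ⊓ stabilizer G b), (h : G) • a = a :=
    fun h => ((hmemH h).mp h.2).1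
  have hHb : ∀ h : ↥(stabilizer G a ⊓ stabilizer G b), (h : G) • b = b :=
    fun h => ((hmemH h).mp h.2).2
  -- conjugation by an element of `H` is a field automorphism
  have hΦ' : ∀ h : G, h • a = a → h • b = b →
      ∃ φ : F ≃+* F, ∀ x : F, ((ev (φ x) : N) : G) = h * (ev x : N) * h⁻¹ := by
    intro h hha hhb
    have hex : ∀ x : F, ∃ y : F, ((ev y : N) : G) = h * (ev x : N) * h⁻¹ := by
      intro x
      obtain ⟨y, hy⟩ := hev.2 ⟨h * (ev x : N) * h⁻¹, hNn.conj_mem _ (ev x).2 h⟩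
      exact ⟨y, congrArg Subtype.val hy⟩
    choose f hf using hex
    have hfadd : ∀ x y, f (x + y) = f x + f y := by
      intro x y
      apply hevinj
      rw [hf, hevadd, hevadd, Subgroup.coe_mul, Subgroup.coe_mul, hf, hf]
      group
    have hf1 : f 1 = 1 := by
      apply hevinj
      rw [hf, hev1]
      apply reg_eq hNs (hNn.conj_mem _ he₀N h) he₀N (x := a)
      rw [mul_smul, mul_smul, inv_smul_eq_iff.mpr hha.symm, he₀, hhb]
    have hfμ : ∀ (k : K) (x : F),
        f (μ k * x) = μ ⟨h * k * h⁻¹, C0.Kn h hha k k.2⟩ * f x := by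
      intro k x
      apply hevinj
      rw [hf, hevμ, hevμ, hcval, hcval, hf]
      group
    have hf0 : f 0 = 0 := by
      have := hfadd 0 0
      rw [add_zero] at this
      exact left_eq_add.mp this
    have hfmul : ∀ x y, f (x * y) = f x * f y := by
      intro x y
      by_cases hx : x = 0
      · rw [hx, zero_mul, hf0, zero_mul]
      obtain ⟨k, rfl⟩ := hμsurj x hx
      have h1 := hfμ k 1
      rw [mul_one, hf1, mul_one] at h1
      rw [hfμ k y, h1]
    let fr : F →+* F :=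
      { toFun := f, map_one' := hf1, map_mul' := hfmul, map_zero' := hf0, map_add' := hfadd }
    have hbij : Function.Bijective fr :=
      ⟨fr.injective, Finite.injective_iff_surjective.mp fr.injective⟩
    exact ⟨RingEquiv.ofBijective fr hbij, fun x => hf x⟩
  choose Φ hΦ using (fun h : ↥(stabilizer G a ⊓ stabilizer G b) => hΦ' (h : G) (hHa h) (hHb h))
  let Φhom : ↥(stabilizer G a ⊓ stabilizer G b) →* (F ≃+* F) :=
    { toFun := Φ
      map_one' := by
        apply RingEquiv.ext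
        intro x
        apply hevinj
        rw [hΦ]
        simp
      map_mul' := by
        intro h h'
        apply RingEquiv.ext
        intro x
        apply hevinj
        rw [RingAut.mul_apply, hΦ, hΦ, hΦ]
        simp [mul_assoc] }
  have hΦinj : Function.Injective Φhom := by
    intro h h' hh
    have h1 : ∀ n ∈ N, (h : G) * n * (h : G)⁻¹ = h' * n * (h' : G)⁻¹ := by
      intro n hn
      obtain ⟨x, hx⟩ := hev.2 ⟨n, hn⟩
      have e1 := hΦ h x
      have e2 := hΦ h' x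
      rw [hx] at e1 e2
      rw [← e1, ← e2]
      exact congrArg (fun φ : F ≃+* F => ((ev (φ x) : N) : G)) hh
    apply Subtype.ext
    have h2 : ((h' : G)⁻¹ * h) = 1 := by
      apply FaithfulSMul.eq_of_smul_eq_smul (α := α)
      intro x
      obtain ⟨n, hn, hnx⟩ := hNt a x
      rw [one_smul, ← hnx, ← mul_smul]
      have h3 : (h' : G)⁻¹ * h * n = n * ((h' : G)⁻¹ * h) := by
        have := h1 n hn
        calc (h' : G)⁻¹ * h * n = (h' : G)⁻¹ * (h * n * (h : G)⁻¹) * h := by group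
          _ = (h' : G)⁻¹ * (h' * n * (h' : G)⁻¹) * h := by rw [this]
          _ = n * ((h' : G)⁻¹ * h) := by group
      rw [h3, mul_smul, mul_smul, hHa h, inv_smul_eq_iff.mpr (hHa h').symm]
    exact (inv_mul_eq_one.mp h2).symm
  have hdvd : Nat.card ↥(stabilizer G a ⊓ stabilizer G b) ∣ Nat.card (F ≃+* F) :=
    Subgroup.card_dvd_of_injective Φhom hΦinj
  -- the coordinates
  have hbij₁ : Function.Bijective (fun x : F => ((ev x : N) : G) • a) :=
    hbijN.comp hev
  refine ⟨F, iF, iFT, hchar, Equiv.ofBijective _ hbij₁, hFcard, hdvd, ?_⟩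
  intro g
  obtain ⟨n₀, hn₀, hn₀a⟩ := hNt a (g • a)
  have hg₀a : (n₀⁻¹ * g) • a = a := by rw [mul_smul, ← hn₀a, inv_smul_smul]
  have hg₀b : (n₀⁻¹ * g) • b ≠ a := by
    intro h
    exact hab.symm (smul_left_cancel _ (h.trans hg₀a.symm))
  obtain ⟨k, hk, hkb⟩ := C0.Kt b _ hab.symm hg₀b
  have hka : k⁻¹ • a = a := by rw [inv_smul_eq_iff, C0.Ka k hk]
  have hha : (k⁻¹ * (n₀⁻¹ * g)) • a = a := by rw [mul_smul, hg₀a, hka]
  have hhb : (k⁻¹ * (n₀⁻¹ * g)) • b = b := by rw [mul_smul, ← hkb, inv_smul_smul]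
  obtain ⟨v, hv⟩ := hev.2 ⟨n₀, hn₀⟩
  have hv' : ((ev v : N) : G) = n₀ := congrArg Subtype.val hv
  refine ⟨μ ⟨k, hk⟩, hμ0 _, v,
    Φ ⟨k⁻¹ * (n₀⁻¹ * g), (hmemH _).mpr ⟨hha, hhb⟩⟩, fun x => ?_⟩
  rw [Equiv.ofBijective_apply, Equiv.ofBijective_apply]
  have e1 := hΦ ⟨k⁻¹ * (n₀⁻¹ * g), (hmemH _).mpr ⟨hha, hhb⟩⟩ x
  have e2 : ((ev (μ ⟨k, hk⟩ * Φ ⟨k⁻¹ * (n₀⁻¹ * g), (hmemH _).mpr ⟨hha, hhb⟩⟩ x + v) : N) : G) =
      n₀ * (k * ((k⁻¹ * (n₀⁻¹ * g)) * (ev x : N) * (k⁻¹ * (n₀⁻¹ * g))⁻¹) * k⁻¹) := by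
    rw [add_comm, hevadd, Subgroup.coe_mul, hv', hevμ, hcval, e1]
  rw [e2]
  have e3 : n₀ * (k * ((k⁻¹ * (n₀⁻¹ * g)) * ((ev x : N) : G) * (k⁻¹ * (n₀⁻¹ * g))⁻¹) * k⁻¹) =
      g * (ev x : N) * (k⁻¹ * (n₀⁻¹ * g))⁻¹ * k⁻¹ := by group
  rw [e3, mul_smul, mul_smul, mul_smul, hka, inv_smul_eq_iff.mpr hha.symm]

/-- **Regular normal subgroup ⟹ semi-affine over `GaloisField 2 q`.** -/
theorem affine_of_regular {G : Type u} [Group G] {α : Type v} [MulAction G α] [Finite G]
    [Fintype α] [FaithfulSMul G α] {a b : α} {K : Subgroup G}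
    (C0 : ZassEven.Ctx0 G α a b K) {p : ℕ} (hp : p.Prime) (hp2 : p ≠ 2)
    (hα : Fintype.card α = p + 1) (hKcard : Nat.card K = p)
    (N : Subgroup G) (hNn : N.Normal) (hNt : ∀ x y : α, ∃ g ∈ N, g • x = y)
    (hNs : ∀ g ∈ N, ∀ x : α, g • x = x → g = 1) :
    ∃ q : ℕ, q.Prime ∧ p + 1 = 2 ^ q ∧ Nat.card ↥(stabilizer G a ⊓ stabilizer G b) ∣ q ∧
      ∃ e : α ≃ GaloisField 2 q, ∀ g : G, ∃ (u : (GaloisField 2 q)ˣ) (v : GaloisField 2 q)
        (φ : GaloisField 2 q ≃+* GaloisField 2 q),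
        ∀ x : α, e (g • x) = (u : GaloisField 2 q) * φ (e x) + v := by
  classical
  obtain ⟨F, iF, iFT, hchar, e₁, hFcard, hdvd, haff⟩ :=
    affine_field C0 hp hp2 hα hKcard N hNn hNt hNs
  haveI : Fact (Nat.Prime 2) := ⟨Nat.prime_two⟩
  letI : Algebra (ZMod 2) F := ZMod.algebra F 2
  set q := Module.finrank (ZMod 2) F with hq
  have hFq : p + 1 = 2 ^ q := by
    rw [← hFcard, ← Nat.card_eq_fintype_card, ← FiniteField.pow_finrank_eq_natCard 2 F]
  have hqprime : q.Prime := by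
    have hq1 : q ≠ 1 := by
      intro h
      rw [h] at hFq
      have := hp.one_lt
      omega
    have h1 : (2 ^ q - 1).Prime := by
      rw [← hFq]; simpa using hp
    exact (Nat.prime_of_pow_sub_one_prime hq1 h1).2
  have hcardAut : Nat.card (F ≃+* F) = q := by
    rw [hq, ← IsGalois.card_aut_eq_finrank (ZMod 2) F]
    apply Nat.card_congr
    exact
      { toFun := fun φ => AlgEquiv.ofRingEquiv (f := φ) (fun r =>
          RingHom.congr_fun (Subsingleton.elim ((φ : F →+* F).comp (algebraMap (ZMod 2) F))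
            (algebraMap (ZMod 2) F)) r)
        invFun := fun φ => φ.toRingEquiv
        left_inv := fun φ => by ext x; rfl
        right_inv := fun φ => by ext x; rfl }
  rw [hcardAut] at hdvd
  letI : Fintype (GaloisField 2 q) := Fintype.ofFinite _
  have hGF : Fintype.card F = Fintype.card (GaloisField 2 q) := by
    rw [hFcard, hFq, ← Nat.card_eq_fintype_card, GaloisField.card 2 q hqprime.ne_zero]
  let ψ : F ≃+* GaloisField 2 q := FiniteField.ringEquivOfCardEq hGF
  refine ⟨q, hqprime, hFq, hdvd, e₁.symm.trans ψ.toEquiv, fun g => ?_⟩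
  obtain ⟨u, hu, v, φ, hg⟩ := haff g
  refine ⟨Units.mk0 (ψ u) (by simpa using hu), ψ v, ψ.symm.trans (φ.trans ψ), fun x => ?_⟩
  obtain ⟨y, rfl⟩ := e₁.surjective x
  rw [hg]
  simp

end DegP1

end Cfsg.Agent.Helper59
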