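import Mathlib
import Cfsg.Agent.Helper59.Sharp3Idx
import Cfsg.Agent.Helper59.ZassEven
import Cfsg.Agent.Helper66.Moebius
import Cfsg.Agent.Helper66.ZassCoord
import Cfsg.Agent.Helper57.ListSub

set_option autoImplicit false

/-!
# Sharply 3-transitive groups of degree `p + 1` are `PGL(2, p)` (helper59)

`pgl_of_sharp3`: a faithful sharply 3-transitive group of degree `p + 1` (`p` prime, given through
the kernel `K` of order `p` of a point stabiliser) is isomorphic to `PGL(2, ZMod p)`.  The element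
interchanging `∞` and `0` and fixing `1` is shown to be `x ↦ x⁻¹` by induction along the prime
field, using the relation `τ e τ = e τ e⁻¹ z` (`Sharp3Even.Ctx.rel_R`).
-/

namespace Cfsg.Agent.Helper59

namespace DegP1

open MulAction Matrix OnePoint Cfsg.Agent.Helper66

universe u v

/-- `GL₂` of isomorphic rings. -/
noncomputable def glCongr {R S : Type*} [CommRing R] [CommRing S] (e : R ≃+* S) :
    GL (Fin 2) R ≃* GL (Fin 2) S :=
  Units.mapEquiv (RingEquiv.mapMatrix e).toMulEquiv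

/-- `PGL₂` of isomorphic rings. -/
noncomputable def pglCongr {R S : Type*} [CommRing R] [CommRing S] (e : R ≃+* S) :
    ProjGenLinGroup (Fin 2) R ≃* ProjGenLinGroup (Fin 2) S :=
  QuotientGroup.congr (Subgroup.center (GL (Fin 2) R)) (Subgroup.center (GL (Fin 2) S))
    (glCongr e) (Cfsg.Agent.Helper57.map_center_of_mulEquiv' (glCongr e))

/-- The `Sharp3Even` context from the `ZassEven` context and transitivity of the two-point
stabiliser. -/
theorem ctx_of_ctx0 {G : Type u} [Group G] {α : Type v} [MulAction G α] {a b c : α}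
    {K : Subgroup G} (C0 : ZassEven.Ctx0 G α a b K)
    (htr : ∀ y : α, y ≠ a → y ≠ b → ∃ h : G, h • a = a ∧ h • b = b ∧ h • c = y) :
    Sharp3Even.Ctx G α a b K := by
  refine ⟨C0.hab, ?_, C0.s3, C0.Ka, C0.Kn, C0.Kc, C0.Kt, C0.Ks⟩
  intro x y z x' y' z' hxy hxz hyz hxy' hxz' hyz'
  obtain ⟨g₁, hg₁0, hg₁1⟩ := C0.t2 x y a b hxy C0.hab
  obtain ⟨g₂, hg₂0, hg₂1⟩ := C0.t2 x' y' a b hxy' C0.hab
  have hw : g₁ • z ≠ a ∧ g₁ • z ≠ b :=
    ⟨fun h => hxz (smul_left_cancel g₁ (hg₁0.trans h.symm)),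
      fun h => hyz (smul_left_cancel g₁ (hg₁1.trans h.symm))⟩
  have hw' : g₂ • z' ≠ a ∧ g₂ • z' ≠ b :=
    ⟨fun h => hxz' (smul_left_cancel g₂ (hg₂0.trans h.symm)),
      fun h => hyz' (smul_left_cancel g₂ (hg₂1.trans h.symm))⟩
  obtain ⟨h₁, h₁a, h₁b, h₁c⟩ := htr _ hw.1 hw.2
  obtain ⟨h₂, h₂a, h₂b, h₂c⟩ := htr _ hw'.1 hw'.2
  have h₁a' : h₁⁻¹ • a = a := by rw [inv_smul_eq_iff, h₁a]
  have h₁b' : h₁⁻¹ • b = b := by rw [inv_smul_eq_iff, h₁b]
  refine ⟨g₂⁻¹ * h₂ * h₁⁻¹ * g₁, ?_, ?_, ?_⟩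
  · rw [mul_smul, mul_smul, mul_smul, hg₁0, h₁a', h₂a, inv_smul_eq_iff, hg₂0]
  · rw [mul_smul, mul_smul, mul_smul, hg₁1, h₁b', h₂b, inv_smul_eq_iff, hg₂1]
  · rw [mul_smul, mul_smul, mul_smul, ← h₁c, inv_smul_smul, h₂c, inv_smul_smul]

/-- The two-point stabiliser is abelian when `K` has prime order. -/
theorem comm_H {G : Type u} [Group G] {α : Type v} [MulAction G α] {a b c : α}
    {K : Subgroup G} (C0 : ZassEven.Ctx0 G α a b K) {p : ℕ} [Fact p.Prime]
    (hKcard : Nat.card K = p) (hca : c ≠ a) (hcb : c ≠ b) :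
    ∀ h ∈ stabilizer G a ⊓ stabilizer G b, ∀ h' ∈ stabilizer G a ⊓ stabilizer G b,
      h * h' = h' * h := by
  intro h hh h' hh'
  rw [Subgroup.mem_inf, mem_stabilizer_iff, mem_stabilizer_iff] at hh hh'
  obtain ⟨k, hk, hkb⟩ := C0.Kt b c C0.hab.symm hca
  have hk1 : k ≠ 1 := by
    rintro rfl
    rw [one_smul] at hkb
    exact hcb hkb.symm
  have hpow : ∀ g : G, g • a = a → ∃ n : ℤ, g * k * g⁻¹ = k ^ n := by
    intro g hg
    have h1 : (⟨g * k * g⁻¹, C0.Kn g hg k hk⟩ : K) ∈ Subgroup.zpowers (⟨k, hk⟩ : K) :=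
      mem_zpowers_of_prime_card hKcard (fun h => hk1 (congrArg Subtype.val h))
    obtain ⟨n, hn⟩ := Subgroup.mem_zpowers_iff.mp h1
    refine ⟨n, ?_⟩
    have := congrArg Subtype.val hn
    simpa using this.symm
  obtain ⟨i, hi⟩ := hpow h hh.1
  obtain ⟨j, hj⟩ := hpow h' hh'.1
  have e1 : (h * h') * k * (h * h')⁻¹ = k ^ (i * j) := by
    calc (h * h') * k * (h * h')⁻¹ = h * (h' * k * h'⁻¹) * h⁻¹ := by group
      _ = h * k ^ j * h⁻¹ := by rw [hj]
      _ = (h * k * h⁻¹) ^ j := by rw [conj_zpow]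
      _ = k ^ (i * j) := by rw [hi, _root_.zpow_mul]
  have e2 : (h' * h) * k * (h' * h)⁻¹ = k ^ (i * j) := by
    calc (h' * h) * k * (h' * h)⁻¹ = h' * (h * k * h⁻¹) * h'⁻¹ := by group
      _ = h' * k ^ i * h'⁻¹ := by rw [hi]
      _ = (h' * k * h'⁻¹) ^ i := by rw [conj_zpow]
      _ = k ^ (i * j) := by rw [hj, mul_comm i j, _root_.zpow_mul]
  have e3 : ((h' * h)⁻¹ * (h * h')) * k = k * ((h' * h)⁻¹ * (h * h')) := by
    have e4 : (h * h') * k = k ^ (i * j) * (h * h') := by
      rw [← e1]; group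
    have e5 : (h' * h)⁻¹ * k ^ (i * j) = k * (h' * h)⁻¹ := by
      rw [← e2]; group
    calc ((h' * h)⁻¹ * (h * h')) * k = (h' * h)⁻¹ * ((h * h') * k) := by group
      _ = (h' * h)⁻¹ * (k ^ (i * j) * (h * h')) := by rw [e4]
      _ = ((h' * h)⁻¹ * k ^ (i * j)) * (h * h') := by group
      _ = k * (h' * h)⁻¹ * (h * h') := by rw [e5]
      _ = k * ((h' * h)⁻¹ * (h * h')) := by group
  have hua : ((h' * h)⁻¹ * (h * h')) • a = a := by
    rw [mul_smul, mul_smul, hh'.1, hh.1, inv_smul_eq_iff, mul_smul, hh.1, hh'.1]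
  have hub : ((h' * h)⁻¹ * (h * h')) • b = b := by
    rw [mul_smul, mul_smul, hh'.2, hh.2, inv_smul_eq_iff, mul_smul, hh.2, hh'.2]
  have e6 := C0.cent_eq_one hua hub hk hk1 e3
  exact (inv_mul_eq_one.mp e6).symm

/-- **Sharply 3-transitive groups of degree `p + 1`** (in the form needed for the groups of degree
`p + 1` and order `(p + 1) p d`): if the two-point stabiliser is transitive on the remaining
points, then `G ≃* PGL₂(p)`. -/
theorem pgl_of_sharp3 {G : Type u} [Group G] {α : Type v} [MulAction G α] [Finite G] [Fintype α]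
    [FaithfulSMul G α] {a b c : α} {K : Subgroup G} (C0 : ZassEven.Ctx0 G α a b K) {p : ℕ}
    (hp : p.Prime) (hα : Fintype.card α = p + 1) (hKcard : Nat.card K = p) (hca : c ≠ a)
    (hcb : c ≠ b)
    (hG : Nat.card G = (p + 1) * p * Nat.card ↥(stabilizer G a ⊓ stabilizer G b))
    (htr : ∀ y : α, y ≠ a → y ≠ b → ∃ h : G, h • a = a ∧ h • b = b ∧ h • c = y) :
    Nat.card ↥(stabilizer G a ⊓ stabilizer G b) = p - 1 ∧
      Nonempty (G ≃* ProjGenLinGroup (Fin 2) (ZMod p)) := by
  classical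
  haveI : Fact p.Prime := ⟨hp⟩
  have C := ctx_of_ctx0 C0 htr
  have hHcard : Nat.card ↥(stabilizer G a ⊓ stabilizer G b) = p - 1 := by
    rw [C.card_H hca hcb, hα]; omega
  refine ⟨hHcard, ?_⟩
  have hab := C.hab
  have hmemH : ∀ h : G, h ∈ stabilizer G a ⊓ stabilizer G b ↔ h • a = a ∧ h • b = b := by
    intro h
    rw [Subgroup.mem_inf, mem_stabilizer_iff, mem_stabilizer_iff]
  obtain ⟨F, iF, iFT, iDE, ι, μ, hιi, hι0, hι1, hT, hμ, hμmul, hμ1, hμ0, hμinj, hFcard, -⟩ :=
    exists_coord a b c hab hca hcb K C.Ka (fun t ht ht1 x hx => C.K_smul_ne ht ht1 hx) C.Kt C.Kc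
      (stabilizer G a ⊓ stabilizer G b) (fun h hh => ((hmemH h).mp hh).2)
      (fun h hh t ht => C.Kn h ((hmemH h).mp hh).1 t ht) (comm_H C0 hKcard hca hcb)
      (fun h hh x hxa hxb hx => C.s3 h a b x hab hxa.symm hxb.symm ((hmemH h).mp hh).1
        ((hmemH h).mp hh).2 hx)
      (by rw [hKcard, hHcard]; have := hp.two_le; omega)
  have hFp : Fintype.card F = p := hFcard.trans hKcard
  let φ : ZMod p ≃+* F := ZMod.ringEquivOfPrime F hp hFp
  have hnat : ∀ x : F, ∃ n : ℕ, x = (n : F) := by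
    intro x
    refine ⟨(φ.symm x).val, ?_⟩
    have h1 : (((φ.symm x).val : ℕ) : ZMod p) = φ.symm x := ZMod.natCast_zmod_val _
    have h2 : φ (((φ.symm x).val : ℕ) : ZMod p) = (((φ.symm x).val : ℕ) : F) := map_natCast φ _
    rw [← h2, h1, RingEquiv.apply_symm_apply]
  have hHa : ∀ h : ↥(stabilizer G a ⊓ stabilizer G b), (h : G) • a = a :=
    fun h => ((hmemH h).mp h.2).1
  have hHb : ∀ h : ↥(stabilizer G a ⊓ stabilizer G b), (h : G) • b = b :=
    fun h => ((hmemH h).mp h.2).2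
  have hμc : ∀ h : ↥(stabilizer G a ⊓ stabilizer G b),
      (h : G) • c = ι ((μ h : F) : OnePoint F) := by
    intro h
    have := hμ h 1
    rwa [hι1, mul_one] at this
  have hιne : ∀ x : F, x ≠ 0 → ι (x : OnePoint F) ≠ a ∧ ι (x : OnePoint F) ≠ b := by
    intro x hx
    constructor
    · rw [← hιi]; intro h; exact OnePoint.coe_ne_infty x (ι.injective h)
    · rw [← hι0]; intro h; exact hx (OnePoint.coe_injective (ι.injective h))
  have hμsurj : ∀ x : F, x ≠ 0 → ∃ h : ↥(stabilizer G a ⊓ stabilizer G b), μ h = x := by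
    intro x hx
    obtain ⟨h, hha, hhb, hhc⟩ := htr _ (hιne x hx).1 (hιne x hx).2
    refine ⟨⟨h, (hmemH h).mpr ⟨hha, hhb⟩⟩, ?_⟩
    have := hμc ⟨h, (hmemH h).mpr ⟨hha, hhb⟩⟩
    rw [show ((⟨h, (hmemH h).mpr ⟨hha, hhb⟩⟩ : ↥(stabilizer G a ⊓ stabilizer G b)) : G) = h
      from rfl, hhc] at this
    exact (OnePoint.coe_injective (ι.injective this)).symm
  have hμinv : ∀ h : ↥(stabilizer G a ⊓ stabilizer G b), μ h⁻¹ = (μ h)⁻¹ := by
    intro h
    have : μ h * μ h⁻¹ = 1 := by rw [← hμmul, mul_inv_cancel, hμ1]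
    exact eq_inv_of_mul_eq_one_right this
  obtain ⟨τ, hτa, hτb, hτc⟩ := C.t3 a b c b a c hab hca.symm hcb.symm hab.symm hcb.symm hca.symm
  have hττ := C.tau_sq hca hcb hτa hτb hτc
  have hτi : τ⁻¹ = τ := inv_eq_of_mul_eq_one_left hττ
  have hF1 : ∀ h : ↥(stabilizer G a ⊓ stabilizer G b),
      τ • ι ((μ h : F) : OnePoint F) =
        ι ((μ (Sharp3Even.conjH hτa hτb h) : F) : OnePoint F) := by
    intro h
    rw [← hμc, ← hμc, Sharp3Even.conjH_coe, mul_smul, mul_smul, hτi, hτc]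
  have hF2 : ∀ h : ↥(stabilizer G a ⊓ stabilizer G b),
      μ (Sharp3Even.conjH hτa hτb h) = (μ h)⁻¹ := by
    by_cases hp2 : p = 2
    · intro h
      have h1 : h = 1 := by
        haveI : Subsingleton ↥(stabilizer G a ⊓ stabilizer G b) := by
          rw [← Finite.card_le_one_iff_subsingleton, hHcard, hp2]
        exact Subsingleton.elim _ _
      rw [h1, map_one, hμ1, inv_one]
    · have h2F : (2 : F) ≠ 0 := by
        haveI : CharP F p := charP_of_card_eq_prime hFp
        intro h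
        have h3 : ((2 : ℕ) : F) = 0 := by exact_mod_cast h
        rw [CharP.cast_eq_zero_iff F p] at h3
        have := Nat.le_of_dvd (by norm_num) h3
        have := hp.two_le
        omega
      obtain ⟨z, hz⟩ := hμsurj (-1) (neg_ne_zero.mpr one_ne_zero)
      have hz1 : z ≠ 1 := by
        rintro rfl
        rw [hμ1] at hz
        apply h2F
        linear_combination hz
      have hz2 : z * z = 1 := by
        apply hμinj
        rw [hμmul, hz, hμ1]; ring
      obtain ⟨e, heK, he⟩ := hT 1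
      have he1 : ∀ x : F, e • ι (x : OnePoint F) = ι ((x + 1 : F) : OnePoint F) := by
        intro x
        rw [he, mbT_smul_coe]
      have he2 : ∀ x : F, e⁻¹ • ι (x : OnePoint F) = ι ((x - 1 : F) : OnePoint F) := by
        intro x
        rw [inv_smul_eq_iff, he1, sub_add_cancel]
      have heb : e • b = c := by rw [← hι0, he1, zero_add, hι1]
      have hz1' : (z : G) ≠ 1 := fun h => hz1 (Subtype.ext h)
      have hz2' : (z : G) * z = 1 := congrArg Subtype.val hz2
      have hR := C.rel_R hca hcb hτa hτb hτc (hHa z) (hHb z) hz2' hz1' heK heb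
      have hτz := C.tau_z hca hcb hτa hτb hττ (hHa z) (hHb z) hz2' hz1'
      have hconjz : Sharp3Even.conjH hτa hτb z = z := by
        apply Subtype.ext
        rw [Sharp3Even.conjH_coe, hτi, hτz]
      have key : ∀ n : ℕ, ∀ h : ↥(stabilizer G a ⊓ stabilizer G b), μ h = (n : F) →
          μ (Sharp3Even.conjH hτa hτb h) = (μ h)⁻¹ := by
        intro n
        induction n with
        | zero =>
          intro h hh
          exact absurd (by simpa using hh) (hμ0 h)
        | succ n ih =>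
          intro h hh
          by_cases hn : (n : F) = 0
          · have h1 : h = 1 := by
              apply hμinj
              rw [hh, hμ1, Nat.cast_succ, hn, zero_add]
            rw [h1, map_one, hμ1, inv_one]
          · obtain ⟨h₀, hh₀⟩ := hμsurj (n : F) hn
            have ih' := ih h₀ hh₀
            have hpt := congrArg (fun g : G => g • ι ((n : F) : OnePoint F)) hR
            simp only [mul_smul] at hpt
            have hL1 : τ • ι ((n : F) : OnePoint F) = ι (((n : F)⁻¹ : F) : OnePoint F) := by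
              rw [← hh₀, hF1, ih']
            have hL2 : ((n : F)⁻¹ + 1 : F) = μ (h * h₀⁻¹) := by
              rw [hμmul, hμinv, hh, hh₀, Nat.cast_succ]
              field_simp
              ring
            have hL3 : τ • ι (((n : F)⁻¹ + 1 : F) : OnePoint F) =
                ι ((μ (Sharp3Even.conjH hτa hτb h) * (n : F) : F) : OnePoint F) := by
              rw [hL2, hF1, map_mul, hμmul, map_inv, hμinv, ih', hh₀, inv_inv]
            have hR1 : (z : G) • ι ((n : F) : OnePoint F) = ι ((-(n : F) : F) : OnePoint F) := by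
              rw [hμ z, hz, neg_one_mul]
            have hR2 : (-(n : F) - 1 : F) = μ (z * h) := by
              rw [hμmul, hz, hh, Nat.cast_succ]; ring
            have hR3 : τ • ι ((-(n : F) - 1 : F) : OnePoint F) =
                ι ((-μ (Sharp3Even.conjH hτa hτb h) : F) : OnePoint F) := by
              rw [hR2, hF1, map_mul, hμmul, hconjz, hz, neg_one_mul]
            rw [hL1, he1, hL3, hR1, he2, hR3, he1] at hpt
            have hfin := OnePoint.coe_injective (ι.injective hpt)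
            have h1 : μ (Sharp3Even.conjH hτa hτb h) * μ h = 1 := by
              rw [hh, Nat.cast_succ]; linear_combination hfin
            exact eq_inv_of_mul_eq_one_left h1
      intro h
      obtain ⟨n, hn⟩ := hnat (μ h)
      exact key n h hn
  have hT' : ∀ r : F, ∃ g : G, MoebMatch ι g (mbT r) := fun r => (hT r).imp fun t ht => ht.2
  have hD : ∀ (x : F) (hx : x ≠ 0), ∃ g : G, MoebMatch ι g (mbD x hx) := by
    intro x hx
    obtain ⟨h, hh⟩ := hμsurj x hx
    refine ⟨h, fun y => ?_⟩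
    induction y using OnePoint.rec with
    | infty => rw [mbD_smul_infty, hιi, hHa]
    | coe v => rw [mbD_smul_coe, hμ h, hh]
  have hW : ∃ g : G, MoebMatch ι g (mbW : GL (Fin 2) F) := by
    obtain ⟨z', hz'⟩ := hμsurj (-1) (neg_ne_zero.mpr one_ne_zero)
    refine ⟨z' * τ, fun y => ?_⟩
    induction y using OnePoint.rec with
    | infty => rw [mbW_smul_infty, hιi, hι0, mul_smul, hτa, hHb]
    | coe x =>
      by_cases hx : x = 0
      · rw [hx, mbW_smul_zero, hι0, hιi, mul_smul, hτb, hHa]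
      · obtain ⟨h, hh⟩ := hμsurj x hx
        rw [mbW_smul_coe hx, mul_smul, ← hh, hF1, hF2, hμ z', hz', neg_one_mul]
  have hcard : Nat.card G ≤ Fintype.card F * (Fintype.card F ^ 2 - 1) := by
    rw [hG, hHcard, hFp]
    have h1 : (p + 1) * (p - 1) = p ^ 2 - 1 := by
      obtain ⟨q, rfl⟩ : ∃ q, p = q + 1 := ⟨p - 1, by have := hp.one_lt; omega⟩
      simp only [Nat.add_sub_cancel]
      have : (q + 1) ^ 2 = (q + 1 + 1) * q + 1 := by ring
      omega
    apply le_of_eq
    calc (p + 1) * p * (p - 1) = p * ((p + 1) * (p - 1)) := by ring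
      _ = p * (p ^ 2 - 1) := by rw [h1]
  obtain ⟨E⟩ := pgl2_of_moebius (G := G) ι hT' hW hD hcard
  exact ⟨E.trans (pglCongr φ.symm)⟩

end DegP1

end Cfsg.Agent.Helper59
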