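/-
helper59, CALL S2174 (helper38), piece ORD: the four representatives `x47(1)`, `x44(1)`, `x47(1) x44(1)`,
`x39(1) x45(1)` of `F4(q)`, `q` even, have order two.
-/
import Cfsg.Agent.Helper38.ChevCentF4e
import Cfsg.Agent.Helper18.FAut5

set_option autoImplicit false

namespace Cfsg.Agent.Helper38

open Cfsg Cfsg.Lie Cfsg.Agent.Helper36 Cfsg.Agent.Helper17 Cfsg.Agent.Helper18

section F4IORD

variable {F : Type*} [Field F] {η : ℕ → ℕ → ℤ}

theorem f4iord_V (R : BRel chevF4 F η) (a1 a2 a3 a4 a5 a6 : F) :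
    chRootProd R gamF4 (c6F4 a1 a2 a3 a4 a5 a6) =
      xGL R.xadd 39 a1 * (xGL R.xadd 40 a2 * (xGL R.xadd 44 a3 * (xGL R.xadd 45 a4 *
        (xGL R.xadd 46 a5 * xGL R.xadd 47 a6)))) := by
  rw [chF4_V_eq, c6F4_39, c6F4_40, c6F4_44, c6F4_45, c6F4_46, c6F4_47]

theorem f4iord_sq [CharP F 2] (R : BRel chevF4 F η) (r : ℕ) :
    xGL R.xadd r (1 : F) * xGL R.xadd r 1 = 1 := by
  rw [xGL_mul, CharTwo.add_self_eq_zero, xGL_zero]

theorem f4iord_two {G : Type*} [Group G] {g : G} (h2 : g * g = 1) (h1 : g ≠ 1) : orderOf g = 2 := by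
  haveI : Fact (Nat.Prime 2) := ⟨Nat.prime_two⟩
  exact orderOf_eq_prime (by rw [pow_two]; exact h2) h1

theorem f4iord_ne (R : BRel chevF4 F η) (a1 a2 a3 a4 a5 a6 : F)
    (h : a1 ≠ 0 ∨ a3 ≠ 0 ∨ a4 ≠ 0 ∨ a6 ≠ 0) :
    xGL R.xadd 39 a1 * (xGL R.xadd 40 a2 * (xGL R.xadd 44 a3 * (xGL R.xadd 45 a4 *
        (xGL R.xadd 46 a5 * xGL R.xadd 47 a6)))) ≠ 1 := by
  intro hone
  have h0 : (1 : GL chevF4.Idx F) = chRootProd R gamF4 (c6F4 0 0 0 0 0 0) := by
    rw [f4iord_V R]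
    simp only [xGL_zero, mul_one]
  rw [← f4iord_V R a1 a2 a3 a4 a5 a6, h0] at hone
  have hu := chF4_V_unique R hone
  have e39 := hu 39 (by decide)
  have e44 := hu 44 (by decide)
  have e45 := hu 45 (by decide)
  have e47 := hu 47 (by decide)
  rw [c6F4_39, c6F4_39] at e39
  rw [c6F4_44, c6F4_44] at e44
  rw [c6F4_45, c6F4_45] at e45
  rw [c6F4_47, c6F4_47] at e47
  rcases h with h | h | h | h
  · exact h e39
  · exact h e44
  · exact h e45
  · exact h e47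

/-- PIECE ORD. -/
theorem f4i_order [CharP F 2] (R : BRel chevF4 F η) :
    orderOf (xGL R.xadd 47 (1 : F)) = 2 ∧ orderOf (xGL R.xadd 44 (1 : F)) = 2 ∧
    orderOf (xGL R.xadd 47 (1 : F) * xGL R.xadd 44 1) = 2 ∧
    orderOf (xGL R.xadd 39 (1 : F) * xGL R.xadd 45 1) = 2 := by
  have h47 : (47 : ℕ) ∈ gamF4 := by decide
  have h44 : (44 : ℕ) ∈ gamF4 := by decide
  have h39 : (39 : ℕ) ∈ gamF4 := by decide
  have h45 : (45 : ℕ) ∈ gamF4 := by decide
  refine ⟨f4iord_two (f4iord_sq R 47) ?_, f4iord_two (f4iord_sq R 44) ?_, f4iord_two ?_ ?_,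
    f4iord_two ?_ ?_⟩
  · have h := f4iord_ne R 0 0 0 0 0 (1 : F) (Or.inr (Or.inr (Or.inr one_ne_zero)))
    simpa only [xGL_zero, one_mul] using h
  · have h := f4iord_ne R 0 0 (1 : F) 0 0 0 (Or.inr (Or.inl one_ne_zero))
    simpa only [xGL_zero, one_mul, mul_one] using h
  · calc xGL R.xadd 47 (1 : F) * xGL R.xadd 44 1 * (xGL R.xadd 47 (1 : F) * xGL R.xadd 44 1)
        = xGL R.xadd 47 (1 : F) * (xGL R.xadd 44 1 * xGL R.xadd 47 (1 : F)) * xGL R.xadd 44 1 := by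
          simp only [mul_assoc]
      _ = xGL R.xadd 47 (1 : F) * (xGL R.xadd 47 1 * xGL R.xadd 44 (1 : F)) * xGL R.xadd 44 1 := by
          rw [chF4_comm R h44 h47]
      _ = (xGL R.xadd 47 (1 : F) * xGL R.xadd 47 1) * (xGL R.xadd 44 (1 : F) * xGL R.xadd 44 1) := by
          simp only [mul_assoc]
      _ = 1 := by rw [f4iord_sq R, f4iord_sq R, mul_one]
  · have h := f4iord_ne R 0 0 (1 : F) 0 0 (1 : F) (Or.inr (Or.inl one_ne_zero))
    rw [chF4_comm R h47 h44]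
    simpa only [xGL_zero, one_mul, mul_one] using h
  · calc xGL R.xadd 39 (1 : F) * xGL R.xadd 45 1 * (xGL R.xadd 39 (1 : F) * xGL R.xadd 45 1)
        = xGL R.xadd 39 (1 : F) * (xGL R.xadd 45 1 * xGL R.xadd 39 (1 : F)) * xGL R.xadd 45 1 := by
          simp only [mul_assoc]
      _ = xGL R.xadd 39 (1 : F) * (xGL R.xadd 39 1 * xGL R.xadd 45 (1 : F)) * xGL R.xadd 45 1 := by
          rw [chF4_comm R h45 h39]
      _ = (xGL R.xadd 39 (1 : F) * xGL R.xadd 39 1) * (xGL R.xadd 45 (1 : F) * xGL R.xadd 45 1) := by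
          simp only [mul_assoc]
      _ = 1 := by rw [f4iord_sq R, f4iord_sq R, mul_one]
  · have h := f4iord_ne R (1 : F) 0 0 (1 : F) 0 0 (Or.inl one_ne_zero)
    simpa only [xGL_zero, one_mul, mul_one] using h

end F4IORD

end Cfsg.Agent.Helper38
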