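/-
helper59, CALL S2174 (helper38), piece SL2: in characteristic two `x_{-p}(1) x_p(1) x_{-p}(1)⁻¹ = n_p` and
`n_p² = 1`.
-/
import Cfsg.Agent.Helper38.ChevCentF4e
import Cfsg.Agent.Helper18.FAut5

set_option autoImplicit false

namespace Cfsg.Agent.Helper38

open Cfsg Cfsg.Lie Cfsg.Agent.Helper36 Cfsg.Agent.Helper17 Cfsg.Agent.Helper18

section F4ISL2

variable {F : Type*} [Field F] {η : ℕ → ℕ → ℤ}

theorem f4isl2_grp {G : Type*} [Group G] {a b : G} (haa : a * a = 1)
    (h1 : a * b * a * a = b * (a * b * a)) : b * a * b = a * b * a := by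
  have h2 : a * b = b * a * b * a := by
    calc a * b = a * b * (a * a) := by rw [haa, mul_one]
      _ = a * b * a * a := by simp only [mul_assoc]
      _ = b * (a * b * a) := h1
      _ = b * a * b * a := by simp only [mul_assoc]
  calc b * a * b = b * a * b * (a * a) := by rw [haa, mul_one]
    _ = (b * a * b * a) * a := by simp only [mul_assoc]
    _ = a * b * a := by rw [← h2]

theorem f4isl2_gen {D : ChevalleyDatum} [CharP F 2] (R : BRel D F η) {i : ℕ} (hi : i < D.rank) :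
    xGL R.xadd (D.neg (D.simple i)) 1 * xGL R.xadd (D.simple i) 1 *
      (xGL R.xadd (D.neg (D.simple i)) 1)⁻¹ = R.n i ∧ R.n i * R.n i = 1 := by
  have hneg1 : (-1 : F) = 1 := by
    rw [neg_eq_iff_add_eq_zero]
    exact CharTwo.add_self_eq_zero 1
  have hp := R.wf.simple_lt i hi
  have hnn : R.n i * R.n i = 1 := by
    have h := R.nGL_mul_neg hp (c := (1 : F)) one_ne_zero
    rw [hneg1] at h
    exact h
  refine ⟨?_, hnn⟩
  have hn : R.n i = xGL R.xadd (D.simple i) 1 * xGL R.xadd (D.neg (D.simple i)) 1 *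
      xGL R.xadd (D.simple i) 1 := by
    show nGL R.xadd (D.simple i) 1 = _
    rw [nGL_eq, inv_one, hneg1]
  have hη : ((η i (D.simple i) : ℤ) : F) = 1 := by
    rcases R.sgn i hi _ hp with h | h <;> rw [h] <;> simp [hneg1]
  have hconj := R.conj_x hi hp (1 : F)
  rw [R.wf.refl_simple i hi, hη, mul_one] at hconj
  have haa : xGL R.xadd (D.simple i) (1 : F) * xGL R.xadd (D.simple i) 1 = 1 := by
    rw [xGL_mul, CharTwo.add_self_eq_zero, xGL_zero]
  have hinv : (xGL R.xadd (D.neg (D.simple i)) (1 : F))⁻¹ = xGL R.xadd (D.neg (D.simple i)) 1 := by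
    rw [xGL_inv, hneg1]
  rw [hinv]
  have h1 : R.n i * xGL R.xadd (D.simple i) 1 = xGL R.xadd (D.neg (D.simple i)) 1 * R.n i := by
    rw [← hconj]
    group
  rw [hn] at h1 ⊢
  exact f4isl2_grp haa h1

/-- PIECE SL2: in characteristic two `x_{-p}(1) x_p(1) x_{-p}(1)⁻¹ = n_p` and `n_p² = 1`. -/
theorem f4i_sl2 [CharP F 2] (R : BRel chevF4 F η) {i : ℕ} (hi : i < 4) :
    xGL R.xadd (chevF4.neg (chevF4.simple i)) 1 * xGL R.xadd (chevF4.simple i) 1 *
      (xGL R.xadd (chevF4.neg (chevF4.simple i)) 1)⁻¹ = R.n i ∧ R.n i * R.n i = 1 :=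
  f4isl2_gen R (show i < chevF4.rank from hi)

end F4ISL2

end Cfsg.Agent.Helper38
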