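import Mathlib
import Cfsg.Prelude.Def_GeometricClasses
import Cfsg.Prelude.Def_Classical
import Cfsg.Agent.Helper13.NPDefs
import Cfsg.Agent.Helper96.OHDefs
import Cfsg.Agent.Helper70.OHONONISO
import Cfsg.Agent.Helper31.OHOPERP
import Cfsg.Agent.Helper31.OHOLINE

set_option autoImplicit false
set_option linter.unusedSectionVars false
set_option linter.unusedVariables false

/-!
# CALL NP (helper13), piece UNIV (helper59, double): a nondegenerate subspace of dimension `≥ 2`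
represents every nonzero scalar.
-/

namespace Cfsg.Agent.Helper59.NP5989

open Module Cfsg Cfsg.Geo Cfsg.Agent.Helper13.NP Cfsg.Agent.Helper96.OH

variable {ι : Type} [Fintype ι] [DecidableEq ι] {F : Type*} [Field F] [Fintype F]
  (Q : (ι → F) → F)

/-- UNIV [M]: a nondegenerate subspace of dimension `≥ 2` represents every nonzero scalar. -/
theorem np_univ (hQ : IsNondegenerateQuadraticForm Q) (h2 : (2 : F) ≠ 0)
    (K : Submodule F (ι → F)) (hK : ONd Q K) (hdim : 2 ≤ finrank F K) (a : F) (ha : a ≠ 0) :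
    ∃ k ∈ K, Q k = a := by
  classical
  have hK0 : K ≠ ⊥ := by
    rintro rfl
    rw [finrank_bot] at hdim
    omega
  obtain ⟨u₁, hu₁K, hu₁⟩ := Cfsg.Agent.Helper70.OH5992.o_noniso Q hQ K hK hK0
  have hmem : u₁ ∈ Submodule.span F {u₁} := Submodule.mem_span_singleton_self u₁
  have hM₁ : ONd Q (Submodule.span F {u₁}) := by
    intro w hw hw0
    obtain ⟨c, rfl⟩ := Submodule.mem_span_singleton.1 hw
    have hc : c ≠ 0 := by
      rintro rfl
      exact hw0 (zero_smul _ _)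
    have hne : QuadraticMap.polar Q (c • u₁) u₁ ≠ 0 := by
      rw [← pB_apply Q hQ]
      simp only [map_smul, LinearMap.smul_apply, smul_eq_mul]
      rw [pB_self]
      exact mul_ne_zero hc (mul_ne_zero h2 hu₁)
    exact ⟨⟨u₁, hmem, by rw [QuadraticMap.polar_comm]; exact hne⟩, ⟨u₁, hmem, hne⟩⟩
  have hle : Submodule.span F {u₁} ≤ K := by
    rw [Submodule.span_singleton_le_iff_mem]
    exact hu₁K
  have hid : ∀ M : Submodule F (ι → F), M.map (1 : Module.End F (ι → F)) ≤ M := by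
    intro M
    rw [Module.End.one_eq_id, Submodule.map_id]
  obtain ⟨P, hPK, -, hPnd, -, -, horth, hfin⟩ :=
    Cfsg.Agent.Helper31.OH5992.o_perp Q hQ 1 (opres_one Q) 1 one_pos (one_pow 1) K
      (Submodule.span F {u₁}) hK hM₁ hle (hid _) (hid _)
  have hu₁0 : u₁ ≠ 0 := by
    rintro rfl
    exact hu₁ (q_zero Q hQ)
  have hfin1 : finrank F (Submodule.span F {u₁}) = 1 := finrank_span_singleton hu₁0
  have hP0 : P ≠ ⊥ := by
    rintro rfl
    rw [finrank_bot] at hfin
    omega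
  obtain ⟨u₂, hu₂P, hu₂⟩ := Cfsg.Agent.Helper70.OH5992.o_noniso Q hQ P hPnd hP0
  have h12 : QuadraticMap.polar Q u₁ u₂ = 0 := horth u₁ hmem u₂ hu₂P
  obtain ⟨x, y, hxy⟩ := Cfsg.Agent.Helper13.exists_sq_add_sq_eq_one h2
    (a := Q u₁ / a) (b := Q u₂ / a) (div_ne_zero hu₁ ha) (div_ne_zero hu₂ ha)
  refine ⟨x • u₁ + y • u₂, K.add_mem (K.smul_mem _ hu₁K) (K.smul_mem _ (hPK hu₂P)), ?_⟩
  rw [Cfsg.Agent.Helper31.OH5992.oline_form Q hQ _ _ h12]
  have h3 : (Q u₁ / a * x ^ 2 + Q u₂ / a * y ^ 2) * a = 1 * a := by rw [hxy]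
  rw [one_mul] at h3
  rw [← h3]
  field_simp

end Cfsg.Agent.Helper59.NP5989
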