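import Mathlib
import Cfsg.Prelude.Def_GeometricClasses
import Cfsg.Prelude.Def_Classical
import Cfsg.Agent.Helper35.S88Defs
import Cfsg.Agent.Helper58.TSDefs
import Cfsg.Agent.Helper43.PrimeOrdO3
import Cfsg.Agent.Helper33.OType
import Cfsg.Agent.Helper43.S88OEDefs
import Cfsg.Agent.Helper70.S88OEELLMAP

set_option autoImplicit false

/-!
# Sub-CALL S88OE (helper43), piece CONJ (helper59, double): isometries of order `r` with the same
characteristic polynomial fix elliptic subspaces of the same dimensions.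
-/

namespace Cfsg.Agent.Helper59.S88OE

open Module Polynomial Cfsg Cfsg.Geo Cfsg.Agent.Helper58.TS Cfsg.Agent.Helper35.S88
open Cfsg.Agent.Helper43 Cfsg.Agent.Helper43.OrthEven Cfsg.Agent.Helper43.CycFactors
  Cfsg.Agent.Helper43.PrimeOrdMat Cfsg.Agent.Helper43.S88OE
open scoped MatrixGroups

universe u

variable {F : Type u} [Field F] [Fintype F]

variable {ι : Type} [Fintype ι] [DecidableEq ι]

/-- CONJ [M]: isometries of order `r` with the same characteristic polynomial fix elliptic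
subspaces of the same dimensions. -/
theorem oe_conj (p : ℕ) [Fact p.Prime] [CharP F p] (Q : (ι → F) → F)
    (hQ : IsNondegenerateQuadraticForm Q) (r : ℕ) [Fact r.Prime] (hr2 : 2 < r) (hrp : r ≠ p)
    (x y : GL ι F) (hx : x ∈ Cfsg.isometryGroup F Q) (hy : y ∈ Cfsg.isometryGroup F Q)
    (hxr : x ^ r = 1) (hx1 : x ≠ 1) (hyr : y ^ r = 1) (hy1 : y ≠ 1)
    (hch : (x : Matrix ι ι F).charpoly = (y : Matrix ι ι F).charpoly) (k : ℕ)
    (h : InvEll Q (y : Matrix ι ι F) k) : InvEll Q (x : Matrix ι ι F) k := by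
  classical
  have hr : r.Prime := Fact.out
  have hpp : p.Prime := Fact.out
  obtain ⟨x', hx'⟩ : ∃ x' : ↥(Cfsg.isometryGroup F ⇑(Cfsg.Agent.Helper98.op_qf Q hQ)),
      (x' : GL ι F) = x := ⟨⟨x, hx⟩, rfl⟩
  obtain ⟨y', hy'⟩ : ∃ y' : ↥(Cfsg.isometryGroup F ⇑(Cfsg.Agent.Helper98.op_qf Q hQ)),
      (y' : GL ι F) = y := ⟨⟨y, hy⟩, rfl⟩
  have hox : orderOf x' = r := by
    apply orderOf_eq_prime
    · apply Subtype.ext
      rw [Subgroup.coe_pow, hx', hxr]
      rfl
    · intro h1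
      apply hx1
      rw [← hx', h1]
      rfl
  have hoy : orderOf y' = r := by
    apply orderOf_eq_prime
    · apply Subtype.ext
      rw [Subgroup.coe_pow, hy', hyr]
      rfl
    · intro h1
      apply hy1
      rw [← hy', h1]
      rfl
  have hcop : r.Coprime p := (Nat.coprime_primes hr hpp).mpr hrp
  have hodd : Odd r := hr.odd_of_ne_two (by omega)
  have hconj : IsConj y' x' :=
    Cfsg.Agent.Helper43.PrimeOrdO.isConj_of_charpoly (p := p) (Cfsg.Agent.Helper98.op_qf Q hQ)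
      (Cfsg.Agent.Helper98.op_qf_nondeg Q hQ) y' x' (by rw [hoy]; exact hodd)
      (by rw [hoy]; exact hcop) (by rw [hox]; exact hcop) (by rw [hx', hy']; exact hch.symm)
  obtain ⟨c, hc⟩ := isConj_iff.mp hconj
  obtain ⟨W, ⟨hWk, hWnd, hWm⟩, hWy⟩ := h
  obtain ⟨h1, h2, h3⟩ := Cfsg.Agent.Helper70.S88OE.oe_ell_map Q (c : GL ι F) c.2 W hWnd hWm
  refine ⟨W.map (Matrix.toLin' ((c : GL ι F) : Matrix ι ι F)), ⟨by rw [h3, hWk], h1, h2⟩, ?_⟩
  have hmat : (x : Matrix ι ι F) * ((c : GL ι F) : Matrix ι ι F)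
      = ((c : GL ι F) : Matrix ι ι F) * (y : Matrix ι ι F) := by
    have e1 : x' * c = c * y' := by
      rw [← hc]
      group
    have e2 := congrArg
      (fun z : ↥(Cfsg.isometryGroup F ⇑(Cfsg.Agent.Helper98.op_qf Q hQ)) =>
        ((z : GL ι F) : Matrix ι ι F)) e1
    simpa [hx', hy'] using e2
  rintro _ ⟨_, ⟨w, hw, rfl⟩, rfl⟩
  refine ⟨Matrix.toLin' (y : Matrix ι ι F) w, hWy ⟨w, hw, rfl⟩, ?_⟩
  rw [← LinearMap.comp_apply, ← LinearMap.comp_apply, ← Matrix.toLin'_mul, ← Matrix.toLin'_mul,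
    hmat]

end Cfsg.Agent.Helper59.S88OE
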