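import Mathlib
import Cfsg.Prelude.Def_GeometricClasses
import Cfsg.Prelude.Def_Classical
import Cfsg.Agent.Helper35.S88Defs
import Cfsg.Agent.Helper58.TSDefs
import Cfsg.Agent.Helper43.PrimeOrdO3
import Cfsg.Agent.Helper33.OType
import Cfsg.Agent.Helper43.S88OEDefs
import Cfsg.Agent.Helper5.TBBLKE
import Cfsg.Agent.Helper73.S88OEZBLK
import Cfsg.Agent.Helper88.S88OEBLKPROD

set_option autoImplicit false

/-!
# Sub-CALL S88OE (helper43), piece EHOM (helper59, double): `n` atoms with the same polynomial.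
Induction on `n` (ZBLK; product of the space for `n` with the atom `tb_blk_even P 1`, FLAG1,
BLKPROD).
-/

namespace Cfsg.Agent.Helper59.S88OE

open Module Polynomial Cfsg Cfsg.Geo Cfsg.Agent.Helper58.TS Cfsg.Agent.Helper35.S88
open Cfsg.Agent.Helper43 Cfsg.Agent.Helper43.OrthEven Cfsg.Agent.Helper43.CycFactors
  Cfsg.Agent.Helper43.PrimeOrdMat Cfsg.Agent.Helper43.S88OE
open scoped MatrixGroups

universe u

variable {F : Type u} [Field F] [Fintype F]

/-- EHOM [M]: `n` atoms with the same polynomial. -/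
theorem oe_hom (p : ℕ) [Fact p.Prime] [CharP F p] (r : ℕ) [Fact r.Prime] (hr2 : 2 < r)
    (hrp : r ≠ p) (heven : Even (orderOf ((Fintype.card F : ℕ) : ZMod r))) (P : F[X])
    (hP : P ∈ cycJ F r) (n : ℕ) :
    ∃ (V : Type u) (_ : AddCommGroup V) (_ : Module F V) (_ : FiniteDimensional F V)
      (Q : QuadraticForm F V) (T : Module.End F V),
      Blk r Q T ∧ T.charpoly = P ^ n ∧
      finrank F V = orderOf ((Fintype.card F : ℕ) : ZMod r) * n ∧
      Flag Q T (orderOf ((Fintype.card F : ℕ) : ZMod r)) n := by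
  classical
  induction n with
  | zero =>
    obtain ⟨V, i1, i2, i3, Q, T, hblk, hch, hdim, hflag⟩ :=
      Cfsg.Agent.Helper73.S88OE.oe_zero_blk (F := F) r
        (orderOf ((Fintype.card F : ℕ) : ZMod r))
    exact ⟨V, i1, i2, i3, Q, T, hblk, by rw [hch, pow_zero], by rw [hdim, mul_zero], hflag⟩
  | succ n ih =>
    obtain ⟨Vb, _, _, _, Qb, Tb, hblkb, hchb, hdimb, hflagb⟩ := ih
    obtain ⟨Va, _, _, _, Qa, Ta, hnda, hTa, hcyca, hcha, hdima, -, -⟩ :=
      Cfsg.Agent.Helper5.TB.tb_blk_even p r hr2 hrp heven P hP 1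
    have hi : 2 * (orderOf ((Fintype.card F : ℕ) : ZMod r) / 2 * 1)
        = orderOf ((Fintype.card F : ℕ) : ZMod r) := by
      obtain ⟨k, hk⟩ := heven
      omega
    have hdima' : finrank F Va = orderOf ((Fintype.card F : ℕ) : ZMod r) := by
      rw [hdima, hi]
    have hflaga := Cfsg.Agent.Helper73.S88OE.oe_flag_one Qa Ta hnda _ hdima'
    obtain ⟨h1, h2, h3⟩ := Cfsg.Agent.Helper88.S88OE.oe_blk_prod r Qb Tb Qa Ta hblkb
      ⟨hnda, hTa, hcyca⟩ _ n 1 hflagb hflaga
    refine ⟨Vb × Va, inferInstance, inferInstance, inferInstance, Qb.prod Qa, Tb.prodMap Ta,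
      h1, ?_, ?_, h2⟩
    · rw [h3, hchb, hcha, pow_one, pow_succ]
    · rw [Module.finrank_prod, hdimb, hdima']
      ring

end Cfsg.Agent.Helper59.S88OE
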