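import Mathlib
import Cfsg.Agent.Helper80.CharOrtho

/-!
# Helper59: PIECE COL of CALL S0997 (helper79): column bound for a set of irreducible characters.
-/

set_option autoImplicit false
open Cfsg
open scoped ComplexConjugate

universe u

namespace Cfsg.Agent.Helper59

/-- COL -/
theorem s997_col_bound {G : Type u} [Group G] [Fintype G] (z : G)
    (S : Finset (Cfsg.IrrCharacter G)) :
    ∑ χ ∈ S, ‖(χ : G → ℂ) z‖ ^ 2 ≤ (Nat.card (Subgroup.centralizer ({z} : Set G)) : ℝ) := by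
  classical
  letI : Fintype (Cfsg.IrrCharacter G) := Fintype.ofFinite _
  have hall := Helper80.irr_finsum_column_orthogonality_of_isConj (IsConj.refl z)
  rw [finsum_eq_sum_of_fintype] at hall
  have h1 : ∀ χ : Cfsg.IrrCharacter G,
      (χ : G → ℂ) z * conj ((χ : G → ℂ) z) = ((‖(χ : G → ℂ) z‖ ^ 2 : ℝ) : ℂ) := by
    intro χ
    rw [Complex.mul_conj, Complex.normSq_eq_norm_sq]
  have h2 : ((∑ χ : Cfsg.IrrCharacter G, ‖(χ : G → ℂ) z‖ ^ 2 : ℝ) : ℂ)
      = (Nat.card (Subgroup.centralizer ({z} : Set G)) : ℂ) := by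
    rw [← hall]
    push_cast
    exact Finset.sum_congr rfl (fun χ _ => by rw [h1 χ]; push_cast; rfl)
  have h3 : ∑ χ : Cfsg.IrrCharacter G, ‖(χ : G → ℂ) z‖ ^ 2
      = (Nat.card (Subgroup.centralizer ({z} : Set G)) : ℝ) := by
    exact_mod_cast h2
  rw [← h3]
  exact Finset.sum_le_sum_of_subset_of_nonneg (Finset.subset_univ S)
    (fun χ _ _ => by positivity)

end Cfsg.Agent.Helper59
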