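-- helper59, CALL S2412A (helper65), piece EXTR
import Mathlib
import Cfsg.Agent.Helper65.SUGDefs

set_option autoImplicit false

namespace Cfsg.Agent.Helper59

open Matrix
open Cfsg.Agent.Helper5 (frobQ frobQ_apply frobQ_frobQ)
open Cfsg.Agent.Helper13
open Cfsg.Agent.Helper65

variable {F : Type*} [Field F] [Fintype F] {q n : ℕ}

/-- EXTR: commuting elements of coprime orders are powers of their product. -/
theorem sug_extract {G : Type*} [Group G] (x y : G) (hxy : Commute x y) (a b : ℕ)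
    (hab : Nat.Coprime a b) (hx : x ^ a = 1) (hy : y ^ b = 1) :
    x ∈ Subgroup.zpowers (x * y) ∧ y ∈ Subgroup.zpowers (x * y) := by
  have hbez : (1 : ℤ) = a * Nat.gcdA a b + b * Nat.gcdB a b := by
    have h1 := Nat.gcd_eq_gcd_ab a b
    rw [Nat.Coprime.gcd_eq_one hab] at h1
    exact_mod_cast h1
  constructor
  · refine Subgroup.mem_zpowers_iff.mpr ⟨b * Nat.gcdB a b, ?_⟩
    have h1 : (x * y) ^ b = x ^ b := by rw [hxy.mul_pow, hy, mul_one]
    have h2 : x ^ (1 : ℤ) = x ^ ((a : ℤ) * Nat.gcdA a b + b * Nat.gcdB a b) := by rw [← hbez]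
    rw [zpow_one, _root_.zpow_add, _root_.zpow_mul, zpow_natCast, hx, _root_.one_zpow, one_mul] at h2
    rw [_root_.zpow_mul, zpow_natCast, h1, ← zpow_natCast, ← _root_.zpow_mul]
    exact h2.symm
  · refine Subgroup.mem_zpowers_iff.mpr ⟨a * Nat.gcdA a b, ?_⟩
    have h1 : (x * y) ^ a = y ^ a := by rw [hxy.mul_pow, hx, one_mul]
    have h2 : y ^ (1 : ℤ) = y ^ ((a : ℤ) * Nat.gcdA a b + b * Nat.gcdB a b) := by rw [← hbez]
    rw [zpow_one, _root_.zpow_add, _root_.zpow_mul (a := y) (m := (b : ℤ)), zpow_natCast (a := y) (n := b), hy,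
      _root_.one_zpow, mul_one] at h2
    rw [_root_.zpow_mul, zpow_natCast, h1, ← zpow_natCast, ← _root_.zpow_mul]
    exact h2.symm

end Cfsg.Agent.Helper59
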