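-- helper59, CALL S2412A (helper65), piece FILL
import Mathlib
import Cfsg.Agent.Helper65.SUGDefs

set_option autoImplicit false

namespace Cfsg.Agent.Helper59

open Matrix
open Cfsg.Agent.Helper5 (frobQ frobQ_apply frobQ_frobQ)
open Cfsg.Agent.Helper13
open Cfsg.Agent.Helper65

variable {F : Type*} [Field F] [Fintype F] {q n : ℕ}

/-- FILL: one transvection and a torus element with enough norms give the full root group. -/
theorem sug_fill (hF : Fintype.card F = q ^ 2) (M : Subgroup ↥(Cfsg.SU n F q))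
    (v : Fin n → F) (hv0 : v ≠ 0) (hv : Cfsg.hermForm n F q v v = 0)
    (c₀ : F) (hc₀ : c₀ ≠ 0) (hc₀s : frobQ hF c₀ = -c₀) (ht : utv hF v c₀ ∈ M)
    (g : ↥(Cfsg.SU n F q)) (hg : g ∈ M) (lam : F) (hlam : lam ≠ 0) (hgv : uact g v = lam • v)
    (hfill : ∀ r : F, frobQ hF r = r → ∃ x y : F, (x = 0 ∨ ∃ i : ℕ, x = lam ^ i) ∧
      (y = 0 ∨ ∃ i : ℕ, y = lam ^ i) ∧ r = x * frobQ hF x + y * frobQ hF y) :
    v ∈ sugPhi hF M := by
  refine ⟨hv0, hv, ?_⟩
  intro c hc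
  have hNfix : ∀ x : F, frobQ hF (x * frobQ hF x) = x * frobQ hF x := by
    intro x
    rw [map_mul, frobQ_frobQ, mul_comm]
  have hskew : ∀ x : F, frobQ hF (c₀ * (x * frobQ hF x)) = -(c₀ * (x * frobQ hF x)) := by
    intro x
    rw [map_mul, hNfix, hc₀s, neg_mul]
  have hmem : ∀ x : F, (x = 0 ∨ ∃ i : ℕ, x = lam ^ i) →
      utv hF v (c₀ * (x * frobQ hF x)) ∈ M := by
    intro x hx
    rcases hx with rfl | ⟨i, rfl⟩
    · rw [zero_mul, mul_zero, utv_zero_right]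
      exact M.one_mem
    · rw [← utv_smul hF (lam ^ i) (pow_ne_zero i hlam) v c₀, ← sug_pow_eig g v lam hgv i,
        ← utv_conj hF (g ^ i) v c₀]
      exact M.mul_mem (M.mul_mem (M.pow_mem hg i) ht) (M.inv_mem (M.pow_mem hg i))
  have hrfix : frobQ hF (c / c₀) = c / c₀ := by
    rw [map_div₀, hc, hc₀s, neg_div_neg_eq]
  obtain ⟨x, y, hx, hy, hxy⟩ := hfill (c / c₀) hrfix
  have hc' : c = c₀ * (x * frobQ hF x) + c₀ * (y * frobQ hF y) := by
    rw [← mul_add, ← hxy, mul_div_cancel₀ c hc₀]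
  rw [hc', ← utv_mul hF v _ _ hv (hskew x) (hskew y)]
  exact M.mul_mem (hmem x hx) (hmem y hy)

end Cfsg.Agent.Helper59
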