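-- helper59, CALL S2412A (helper65), piece FILLP
import Mathlib
import Cfsg.Agent.Helper65.SUGDefs

set_option autoImplicit false

namespace Cfsg.Agent.Helper59

open Matrix
open Cfsg.Agent.Helper5 (frobQ frobQ_apply frobQ_frobQ)
open Cfsg.Agent.Helper13
open Cfsg.Agent.Helper65

variable {F : Type*} [Field F] [Fintype F] {q n : ℕ}

theorem sug_fill_prop_aux (hF : Fintype.card F = q ^ 2) (rho : F)
    (hgen : ∀ x : F, x ≠ 0 → ∃ i : ℕ, x = rho ^ i) (a : F) (ha : frobQ hF a = a) :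
    ∃ x : F, (x = 0 ∨ ∃ i : ℕ, x = (rho ^ 2) ^ i) ∧ x * frobQ hF x = a ^ 2 := by
  by_cases ha0 : a = 0
  · refine ⟨0, Or.inl rfl, ?_⟩
    rw [ha0, zero_mul]
    ring
  · obtain ⟨s, hs0, hs⟩ := ufld_exists_norm hF ha0 ha
    obtain ⟨m, hm⟩ := hgen s hs0
    refine ⟨(rho ^ 2) ^ m, Or.inr ⟨m, rfl⟩, ?_⟩
    have h1 : (rho ^ 2) ^ m = s ^ 2 := by rw [hm, ← pow_mul, ← pow_mul, mul_comm]
    rw [h1, map_pow, ← mul_pow, hs]

/-- FILLP: every element of the fixed field is a sum of two norms of elements of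
`{0} ∪ ⟨rho ^ 2⟩`. -/
theorem sug_fill_prop (hF : Fintype.card F = q ^ 2) (rho : F)
    (hgen : ∀ x : F, x ≠ 0 → ∃ i : ℕ, x = rho ^ i)
    (hsq : ∀ r : F, frobQ hF r = r →
      ∃ a b : F, frobQ hF a = a ∧ frobQ hF b = b ∧ r = a ^ 2 + b ^ 2)
    (r : F) (hr : frobQ hF r = r) :
    ∃ x y : F, (x = 0 ∨ ∃ i : ℕ, x = (rho ^ 2) ^ i) ∧ (y = 0 ∨ ∃ i : ℕ, y = (rho ^ 2) ^ i) ∧
      r = x * frobQ hF x + y * frobQ hF y := by
  obtain ⟨a, b, ha, hb, hab⟩ := hsq r hr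
  obtain ⟨x, hx, hxa⟩ := sug_fill_prop_aux hF rho hgen a ha
  obtain ⟨y, hy, hyb⟩ := sug_fill_prop_aux hF rho hgen b hb
  exact ⟨x, y, hx, hy, by rw [hxa, hyb, hab]⟩

end Cfsg.Agent.Helper59
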