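import Mathlib
import Cfsg.Agent.Helper65.SUGDefs

/-!
# CALL S2412A piece PAR (helper59 double): the torus parameters
-/

set_option autoImplicit false

namespace Cfsg.Agent.Helper59

open Matrix
open Cfsg.Agent.Helper5 (frobQ frobQ_apply frobQ_frobQ)
open Cfsg.Agent.Helper13
open Cfsg.Agent.Helper65

variable {F : Type*} [Field F] [Fintype F] {q n : ℕ}

/-- PAR: the torus parameters. -/
theorem sug_par (hF : Fintype.card F = q ^ 2) (hq3 : 3 ≤ q) (rho : F) (hrho : rho ≠ 0)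
    (hord : ∀ m : ℕ, rho ^ m = 1 → (q ^ 2 - 1) ∣ m) :
    ∃ (xi : F) (j : ℕ), xi * frobQ hF xi = 1 ∧ xi ^ 2 * rho ^ 2 = frobQ hF (rho ^ 2) ∧
      (rho ^ 2) ^ j * frobQ hF ((rho ^ 2) ^ j) = 1 ∧ xi ^ j ≠ (rho ^ 2) ^ j := by
  have hone : rho ^ (q ^ 2 - 1) = 1 := by
    have := FiniteField.pow_card_sub_one_eq_one rho hrho
    rwa [hF] at this
  have hmul : ∀ k : ℕ, rho ^ ((q ^ 2 - 1) * k) = 1 := by
    intro k
    rw [pow_mul, hone, one_pow]
  by_cases hq : q = 3
  · subst hq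
    have h8 : rho ^ 8 = 1 := by
      have := hone
      norm_num at this
      exact this
    refine ⟨rho ^ 6, 1, ?_, ?_, ?_, ?_⟩
    · rw [frobQ_apply]
      have : rho ^ 6 * (rho ^ 6) ^ 3 = (rho ^ 8) ^ 3 := by ring
      rw [this, h8, one_pow]
    · rw [frobQ_apply]
      have : (rho ^ 6) ^ 2 * rho ^ 2 = rho ^ 8 * (rho ^ 2) ^ 3 := by ring
      rw [this, h8, one_mul]
    · rw [frobQ_apply]
      have : (rho ^ 2) ^ 1 * ((rho ^ 2) ^ 1) ^ 3 = rho ^ 8 := by ring
      rw [this, h8]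
    · intro h
      have h4 : rho ^ 4 = 1 := by
        have h' : rho ^ 2 * rho ^ 4 = rho ^ 2 * 1 := by
          rw [mul_one]
          have : rho ^ 2 * rho ^ 4 = (rho ^ 6) ^ 1 := by ring
          rw [this, h]; ring
        exact mul_left_cancel₀ (pow_ne_zero 2 hrho) h'
      have := hord 4 h4
      norm_num at this
  · obtain ⟨t, rfl⟩ : ∃ t, q = t + 1 := ⟨q - 1, by omega⟩
    have ht3 : 3 ≤ t := by omega
    have hq2 : (t + 1) ^ 2 - 1 = t * (t + 2) := by
      have : (t + 1) ^ 2 = t * (t + 2) + 1 := by ring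
      rw [this]; simp
    rw [hq2] at hone hmul hord
    refine ⟨rho ^ t, t, ?_, ?_, ?_, ?_⟩
    · rw [frobQ_apply]
      have : rho ^ t * (rho ^ t) ^ (t + 1) = rho ^ (t * (t + 2)) := by ring
      rw [this, hone]
    · rw [frobQ_apply]
      ring
    · rw [frobQ_apply]
      have : (rho ^ 2) ^ t * ((rho ^ 2) ^ t) ^ (t + 1) = rho ^ (t * (t + 2) * 2) := by ring
      rw [this, hmul]
    · intro h
      obtain ⟨s, rfl⟩ : ∃ s, t = s + 2 := ⟨t - 2, by omega⟩
      have h1 : rho ^ ((s + 2) * s) = 1 := by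
        have h' : rho ^ (2 * (s + 2)) * rho ^ ((s + 2) * s) = rho ^ (2 * (s + 2)) * 1 := by
          rw [mul_one]
          have e1 : rho ^ (2 * (s + 2)) * rho ^ ((s + 2) * s) = (rho ^ (s + 2)) ^ (s + 2) := by
            ring
          rw [e1, h]; ring
        exact mul_left_cancel₀ (pow_ne_zero _ hrho) h'
      have hd := hord _ h1
      have hd2 : s + 2 + 2 ∣ s := by
        exact (Nat.mul_dvd_mul_iff_left (by omega : 0 < s + 2)).mp hd
      have hs : 0 < s := by omega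
      have := Nat.le_of_dvd hs hd2
      omega

end Cfsg.Agent.Helper59
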