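-- helper59, CALL S2412A (helper65), piece TWOSQ
import Mathlib
import Cfsg.Agent.Helper65.SUGDefs

set_option autoImplicit false

namespace Cfsg.Agent.Helper59

open Matrix
open Cfsg.Agent.Helper5 (frobQ frobQ_apply frobQ_frobQ)
open Cfsg.Agent.Helper13
open Cfsg.Agent.Helper65

variable {F : Type*} [Field F] [Fintype F] {q n : ℕ}

/-- TWOSQ: every element of the fixed field is a sum of two squares of the fixed field. -/
theorem sug_two_sq (hF : Fintype.card F = q ^ 2) (r : F) (hr : frobQ hF r = r) :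
    ∃ a b : F, frobQ hF a = a ∧ frobQ hF b = b ∧ r = a ^ 2 + b ^ 2 := by
  classical
  obtain ⟨K, hKdef⟩ : ∃ K : Subfield F, K = RingHom.eqLocusField (frobQ hF) (RingHom.id F) :=
    ⟨_, rfl⟩
  have hmem : ∀ x : F, x ∈ K → frobQ hF x = x := by
    intro x hx
    rw [hKdef] at hx
    exact hx
  have hK : ∀ x : ↥K, frobQ hF (x : F) = x := fun x => hmem x.1 x.2
  have hrK : r ∈ K := by
    rw [hKdef]
    exact hr
  haveI : Fintype ↥K := Fintype.ofFinite _
  have key : ∀ s : ↥K, ∃ a b : ↥K, s = a ^ 2 + b ^ 2 := by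
    intro s
    by_cases hc : Fintype.card ↥K % 2 = 1
    · obtain ⟨a, b, hab⟩ := FiniteField.exists_root_sum_quadratic (R := ↥K)
        (f := Polynomial.X ^ 2) (g := Polynomial.X ^ 2 - Polynomial.C s)
        (by rw [Polynomial.degree_X_pow]; rfl)
        (by rw [Polynomial.degree_X_pow_sub_C (by norm_num) s]; rfl) hc
      refine ⟨a, b, ?_⟩
      simp only [Polynomial.eval_pow, Polynomial.eval_X, Polynomial.eval_sub,
        Polynomial.eval_C] at hab
      linear_combination -hab
    · have h2 : ringChar ↥K = 2 := FiniteField.even_card_iff_char_two.mpr (by omega)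
      obtain ⟨t, ht⟩ := FiniteField.isSquare_of_char_two h2 s
      exact ⟨t, 0, by rw [ht]; ring⟩
  obtain ⟨a, b, hab⟩ := key ⟨r, hrK⟩
  refine ⟨a, b, hK a, hK b, ?_⟩
  have h1 := congrArg Subtype.val hab
  simpa using h1

end Cfsg.Agent.Helper59
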