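import Mathlib
import Cfsg.Agent.Helper65.SUGDefs

/-!
# CALL S2412A piece W2 (helper59 double): the first plane
-/

set_option autoImplicit false

namespace Cfsg.Agent.Helper59

open Matrix
open Cfsg.Agent.Helper5 (frobQ frobQ_apply frobQ_frobQ)
open Cfsg.Agent.Helper13
open Cfsg.Agent.Helper65

variable {F : Type*} [Field F] [Fintype F] {q n : ℕ}

omit [Fintype F] in
/-- the form of a vector supported on the first two coordinates against anything -/
theorem sug_w2_herm (hn : 2 ≤ n) (x y : Fin n → F)
    (hxs : ∀ i : Fin n, 2 ≤ i.val → x i = 0) :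
    Cfsg.hermForm n F q x y
      = x ⟨0, by omega⟩ * (y ⟨0, by omega⟩) ^ q + x ⟨1, by omega⟩ * (y ⟨1, by omega⟩) ^ q := by
  unfold Cfsg.hermForm
  apply Fintype.sum_eq_add
  · intro h
    have := congrArg Fin.val h
    simp at this
  · rintro i ⟨h0, h1⟩
    have hi : 2 ≤ i.val := by
      by_contra hlt
      have hlt' : i.val < 2 := by omega
      rcases Nat.lt_or_ge i.val 1 with h | h
      · exact h0 (Fin.ext (by simp; omega))
      · exact h1 (Fin.ext (by simp; omega))
    rw [hxs i hi, zero_mul]

/-- W2: two non-orthogonal members on the first two coordinates give all of the first plane. -/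
theorem sug_w2 (hF : Fintype.card F = q ^ 2) (hn : 2 ≤ n) (Φ : Set (Fin n → F))
    (hΦ : SugClosed hF Φ) (e f : Fin n → F) (he : e ∈ Φ) (hf : f ∈ Φ)
    (hes : ∀ i : Fin n, 2 ≤ i.val → e i = 0) (hfs : ∀ i : Fin n, 2 ≤ i.val → f i = 0)
    (hef : Cfsg.hermForm n F q e f ≠ 0) : SugFull q Φ 2 := by
  intro v hv0 hvv hvs
  have hee := (hΦ.iso e he).2
  rw [sug_w2_herm hn e e hes] at hee
  have hef' := hef
  rw [sug_w2_herm hn e f hes] at hef'
  set i0 : Fin n := ⟨0, by omega⟩ with hi0
  set i1 : Fin n := ⟨1, by omega⟩ with hi1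
  set D : F := e i0 * f i1 - e i1 * f i0 with hD
  have hD0 : D ≠ 0 := by
    intro h0
    have hrel : e i0 * f i1 = e i1 * f i0 := by
      have := h0
      rw [hD] at this
      linear_combination this
    have h1 : (e i0 * f i0 ^ q + e i1 * f i1 ^ q) * e i0 ^ q = 0 := by
      have : (e i0 * f i0 ^ q + e i1 * f i1 ^ q) * e i0 ^ q
          = e i0 * f i0 ^ q * e i0 ^ q + e i1 * (e i0 * f i1) ^ q := by ring
      rw [this, hrel]
      linear_combination f i0 ^ q * hee
    have h2 : (e i0 * f i0 ^ q + e i1 * f i1 ^ q) * e i1 ^ q = 0 := by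
      have : (e i0 * f i0 ^ q + e i1 * f i1 ^ q) * e i1 ^ q
          = e i0 * (e i1 * f i0) ^ q + e i1 * f i1 ^ q * e i1 ^ q := by ring
      rw [this, ← hrel]
      linear_combination f i1 ^ q * hee
    have h3 : e i0 ^ q = 0 := by
      rcases mul_eq_zero.mp h1 with h | h
      · exact absurd h hef'
      · exact h
    have h4 : e i1 ^ q = 0 := by
      rcases mul_eq_zero.mp h2 with h | h
      · exact absurd h hef'
      · exact h
    have h5 : e i0 = 0 := by
      by_contra hne
      exact pow_ne_zero q hne h3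
    have h6 : e i1 = 0 := by
      by_contra hne
      exact pow_ne_zero q hne h4
    apply hef'
    rw [h5, h6]; ring
  set a : F := (v i0 * f i1 - v i1 * f i0) / D with ha
  set b : F := (e i0 * v i1 - e i1 * v i0) / D with hb
  have hv : v = a • e + b • f := by
    funext i
    simp only [Pi.add_apply, Pi.smul_apply, smul_eq_mul]
    by_cases h2 : 2 ≤ i.val
    · rw [hvs i h2, hes i h2, hfs i h2]; ring
    · rcases Nat.lt_or_ge i.val 1 with h | h
      · have hi : i = i0 := Fin.ext (by simp [hi0]; omega)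
        rw [hi, ha, hb]
        field_simp
        rw [hD]; ring
      · have hi : i = i1 := Fin.ext (by simp [hi1]; omega)
        rw [hi, ha, hb]
        field_simp
        rw [hD]; ring
  rw [hv] at hv0 hvv ⊢
  exact sug_plane hF Φ hΦ e f he hf hef a b hv0 hvv

end Cfsg.Agent.Helper59
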