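import Mathlib
import Cfsg.Prelude.Def_GeometricClasses
import Cfsg.Agent.Helper71.T4Defs
import Cfsg.Agent.Helper96.T5Defs
import Cfsg.Agent.Helper46.T5ISOB
import Cfsg.Agent.Helper44.T5OSQ
import Cfsg.Agent.Helper10.T5OEV

/-!
# Helper59: PIECE ROOT of CALL S5704 (helper96).

The root elements `1 ⊗ t_w(c)` and `t_u(c) ⊗ 1` lie in `(Kronecker products) ⊓ Ω(Q)`.
-/

set_option autoImplicit false
set_option linter.unusedVariables false
set_option linter.unusedSectionVars false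
set_option linter.unusedSimpArgs false

namespace Cfsg.Agent.Helper59.T5ROOT

open Matrix Cfsg Cfsg.Geo Cfsg.Agent.Helper71.T4 Cfsg.Agent.Helper96.T5
open scoped Kronecker

variable {F : Type*} [Field F]

section General

variable {ι : Type*} [Fintype ι] [DecidableEq ι]

theorem tv_zero' (J : Matrix ι ι F) (w : ι → F) : tv J w 0 = 1 := by
  simp [tv]

theorem tv_mul_tv (J : Matrix ι ι F) (halt : ∀ x, bf J x x = 0) (w : ι → F) (c d : F) :
    tv J w c * tv J w d = tv J w (c + d) := by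
  simp only [tv]
  rw [Matrix.add_mul, Matrix.mul_add, Matrix.mul_add, Matrix.one_mul, Matrix.mul_one,
    Matrix.one_mul, Matrix.smul_mul, Matrix.mul_smul, rk_mul_rk, halt w, zero_smul, smul_zero,
    smul_zero, add_zero, add_smul, add_assoc, add_comm (d • rk J w w)]

theorem mat_eq_of_bf (A B : Matrix ι ι F) (h : ∀ x y, bf A x y = bf B x y) : A = B := by
  ext i j
  have := h (Pi.single i 1) (Pi.single j 1)
  simpa [bf] using this

theorem tv_form (J : Matrix ι ι F) (halt : ∀ x, bf J x x = 0) (w : ι → F) (c : F) :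
    (tv J w c)ᵀ * J * tv J w c = J := by
  apply mat_eq_of_bf
  intro x y
  rw [← bf_mulVec_right, ← bf_mulVec_left, tv_mulVec, tv_mulVec, bf_add_left, bf_add_right,
    bf_add_right, bf_smul_left, bf_smul_left, bf_smul_right, bf_smul_right, halt w,
    bf_swap J halt w y]
  ring

/-- A matrix whose column space is the image of an injective linear map from `F^n` has rank `n`. -/
theorem rank_eq_of_range {n : ℕ} (M : Matrix ι ι F) (L : (Fin n → F) →ₗ[F] (ι → F))
    (hL : Function.Injective L) (h1 : ∀ v, ∃ u, M *ᵥ v = L u) (h2 : ∀ u, ∃ v, M *ᵥ v = L u) :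
    M.rank = n := by
  have hr : LinearMap.range M.mulVecLin = LinearMap.range L := by
    apply le_antisymm
    · rintro _ ⟨v, rfl⟩
      obtain ⟨u, hu⟩ := h1 v
      exact ⟨u, by rw [Matrix.mulVecLin_apply, hu]⟩
    · rintro _ ⟨u, rfl⟩
      obtain ⟨v, hv⟩ := h2 u
      exact ⟨v, by rw [Matrix.mulVecLin_apply, hv]⟩
  rw [Matrix.rank, hr, LinearMap.finrank_range_of_inj hL, Module.finrank_fin_fun]

end General

variable {a b : ℕ}

/-- `u ↦ u ⊗ x` as a linear map. -/
def ptL (x : Fin b → F) : (Fin a → F) →ₗ[F] (Fin a × Fin b → F) where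
  toFun u := pt u x
  map_add' u v := pt_add_left u v x
  map_smul' c u := pt_smul_left c u x

/-- `y ↦ x ⊗ y` as a linear map. -/
def ptR (x : Fin a → F) : (Fin b → F) →ₗ[F] (Fin a × Fin b → F) where
  toFun y := pt x y
  map_add' u v := pt_add_right x u v
  map_smul' c u := pt_smul_right c x u

theorem ptL_inj (x : Fin b → F) (hx : x ≠ 0) : Function.Injective (ptL (a := a) x) := by
  obtain ⟨k, hk⟩ := Function.ne_iff.mp hx
  intro u v h
  ext i
  have := congrFun h (i, k)
  simp only [ptL, LinearMap.coe_mk, AddHom.coe_mk, pt] at this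
  exact mul_right_cancel₀ hk this

theorem ptR_inj (x : Fin a → F) (hx : x ≠ 0) : Function.Injective (ptR (b := b) x) := by
  obtain ⟨k, hk⟩ := Function.ne_iff.mp hx
  intro u v h
  ext i
  have := congrFun h (k, i)
  simp only [ptR, LinearMap.coe_mk, AddHom.coe_mk, pt] at this
  exact mul_left_cancel₀ hk this

theorem vmv_mulVec {n : ℕ} (x β y : Fin n → F) : vecMulVec x β *ᵥ y = (β ⬝ᵥ y) • x := by
  ext i
  simp only [Matrix.mulVec, dotProduct, Matrix.vecMulVec_apply, Pi.smul_apply, smul_eq_mul,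
    Finset.sum_mul]
  refine Finset.sum_congr rfl fun j _ => ?_
  ring

theorem rank_one_kron (x β y : Fin b → F) (hx : x ≠ 0) (hy : β ⬝ᵥ y = 1) :
    ((1 : Matrix (Fin a) (Fin a) F) ⊗ₖ vecMulVec x β).rank = a := by
  apply rank_eq_of_range _ (ptL x) (ptL_inj x hx)
  · intro v
    refine ⟨fun i => ∑ l, β l * v (i, l), ?_⟩
    ext ⟨i, k⟩
    simp only [ptL, LinearMap.coe_mk, AddHom.coe_mk, pt, Matrix.mulVec, dotProduct,
      Matrix.kroneckerMap_apply, Fintype.sum_prod_type, Matrix.vecMulVec_apply, Matrix.one_apply,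
      ite_mul, one_mul, zero_mul, Finset.sum_ite_eq, Finset.mem_univ, if_true, Finset.sum_mul]
    rw [Finset.sum_eq_single i]
    · simp only [if_true, Finset.sum_mul]
      refine Finset.sum_congr rfl fun l _ => ?_
      ring
    · intro j _ hj
      simp [Ne.symm hj]
    · intro h
      exact absurd (Finset.mem_univ i) h
  · intro u
    refine ⟨pt u y, ?_⟩
    rw [kron_mulVec_pt, Matrix.one_mulVec, vmv_mulVec, hy, one_smul]
    rfl

theorem rank_kron_one (x β y : Fin a → F) (hx : x ≠ 0) (hy : β ⬝ᵥ y = 1) :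
    (vecMulVec x β ⊗ₖ (1 : Matrix (Fin b) (Fin b) F)).rank = b := by
  apply rank_eq_of_range _ (ptR x) (ptR_inj x hx)
  · intro v
    refine ⟨fun k => ∑ j, β j * v (j, k), ?_⟩
    ext ⟨i, k⟩
    simp only [ptR, LinearMap.coe_mk, AddHom.coe_mk, pt, Matrix.mulVec, dotProduct,
      Matrix.kroneckerMap_apply, Fintype.sum_prod_type, Matrix.vecMulVec_apply, Matrix.one_apply,
      mul_ite, mul_one, mul_zero, ite_mul, zero_mul, Finset.sum_ite_eq, Finset.mem_univ, if_true,
      Finset.mul_sum]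
    refine Finset.sum_congr rfl fun j _ => ?_
    ring
  · intro u
    refine ⟨pt y u, ?_⟩
    rw [kron_mulVec_pt, Matrix.one_mulVec, vmv_mulVec, hy, one_smul]
    rfl

variable {J₁ : Matrix (Fin a) (Fin a) F} {J₂ : Matrix (Fin b) (Fin b) F}
  {Q : (Fin a × Fin b → F) → F}

/-- A one-parameter family of Kronecker products preserving the polar form, mapping pure tensors
to singular vectors and with `rank (φ c - 1)` even consists of elements of `Ω`. -/
theorem fam_mem [Fintype F] (hT : TQ J₁ J₂ Q) (hab : 5 ≤ a * b)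
    (φ : F → Matrix (Fin a × Fin b) (Fin a × Fin b) F)
    (hk : ∀ c, IsKron (φ c))
    (h0 : φ 0 = 1) (hadd : ∀ c d, φ c * φ d = φ (c + d))
    (hform : ∀ c, (φ c)ᵀ * (J₁ ⊗ₖ J₂) * φ c = J₁ ⊗ₖ J₂)
    (hpure : ∀ c u w, Q (φ c *ᵥ pt u w) = 0)
    (hrank : ∀ c, Even (φ c - 1).rank) (c : F) :
    InM (kronSub a b F ⊓ omegaGL Q) (φ c) := by
  let G : F → GL (Fin a × Fin b) F := fun c =>
    ⟨φ c, φ (-c), by rw [hadd, add_neg_cancel, h0], by rw [hadd, neg_add_cancel, h0]⟩
  have hG : ∀ c, ((G c : GL (Fin a × Fin b) F) : Matrix (Fin a × Fin b) (Fin a × Fin b) F) = φ c :=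
    fun c => rfl
  have hiso : ∀ c, G c ∈ isometryGroup F Q := by
    intro c
    apply Cfsg.Agent.Helper46.T5ISOB.isob hT (G c)
    · intro v v'
      rw [bf_mulVec_left, bf_mulVec_right]
      change bf ((φ c)ᵀ * (J₁ ⊗ₖ J₂) * φ c) v v' = _
      rw [hform c]
    · intro u w
      exact hpure c u w
  have hcard : Fintype.card (Fin a × Fin b) = a * b := by
    rw [Fintype.card_prod, Fintype.card_fin, Fintype.card_fin]
  have hΩ : G c ∈ omegaGL Q := by
    by_cases h2 : (2 : F) = 0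
    · exact Cfsg.Agent.Helper10.T5OEV.oev h2 Q hT.nq (Or.inr (by rw [hcard]; omega)) (G c)
        (hiso c) (hrank c)
    · have hsq : G c = G (c / 2) * G (c / 2) := by
        apply Units.ext
        change φ c = φ (c / 2) * φ (c / 2)
        rw [hadd]
        congr 1
        field_simp
        ring
      rw [hsq]
      exact Cfsg.Agent.Helper44.T5OSQ.osq h2 Q hT.nq (by rw [hcard]; omega) (G (c / 2))
        (hiso (c / 2))
  exact ⟨G c, ⟨mem_kronSub.mpr (hk c), hΩ⟩, rfl⟩

/-- PIECE ROOT: the root elements lie in `(Kronecker products) ⊓ Ω`. -/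
theorem root [Fintype F] (hT : TQ J₁ J₂ Q) (ha : Even a) (hb : Even b) (hab : 5 ≤ a * b) :
    HasR J₁ J₂ (kronSub a b F ⊓ omegaGL Q) := by
  constructor
  · intro w c
    revert c
    apply fam_mem hT hab (fun c => (1 : Matrix (Fin a) (Fin a) F) ⊗ₖ tv J₂ w c)
    · intro c
      exact ⟨1, tv J₂ w c, rfl⟩
    · show (1 : Matrix (Fin a) (Fin a) F) ⊗ₖ tv J₂ w 0 = 1
      rw [tv_zero', Matrix.one_kronecker_one]
    · intro c d
      show (1 : Matrix (Fin a) (Fin a) F) ⊗ₖ tv J₂ w c * (1 : Matrix (Fin a) (Fin a) F) ⊗ₖ tv J₂ w d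
        = (1 : Matrix (Fin a) (Fin a) F) ⊗ₖ tv J₂ w (c + d)
      rw [← Matrix.mul_kronecker_mul, Matrix.one_mul, tv_mul_tv J₂ hT.alt₂]
    · intro c
      show ((1 : Matrix (Fin a) (Fin a) F) ⊗ₖ tv J₂ w c)ᵀ * (J₁ ⊗ₖ J₂)
        * (1 : Matrix (Fin a) (Fin a) F) ⊗ₖ tv J₂ w c = J₁ ⊗ₖ J₂
      rw [← Matrix.kroneckerMap_transpose, ← Matrix.mul_kronecker_mul, ← Matrix.mul_kronecker_mul,
        Matrix.transpose_one, Matrix.one_mul, Matrix.mul_one, tv_form J₂ hT.alt₂]
    · intro c u x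
      show Q (((1 : Matrix (Fin a) (Fin a) F) ⊗ₖ tv J₂ w c) *ᵥ pt u x) = 0
      rw [kron_mulVec_pt]
      exact hT.pure _ _
    · intro c
      show Even (((1 : Matrix (Fin a) (Fin a) F) ⊗ₖ tv J₂ w c) - 1).rank
      have he : ((1 : Matrix (Fin a) (Fin a) F) ⊗ₖ tv J₂ w c) - 1
          = (1 : Matrix (Fin a) (Fin a) F) ⊗ₖ vecMulVec (c • w) (J₂ *ᵥ w) := by
        rw [tv, Matrix.kronecker_add, Matrix.one_kronecker_one, add_sub_cancel_left, rk,
          Matrix.smul_vecMulVec]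
      rw [he]
      by_cases hx : c • w = 0
      · rw [hx]
        have : vecMulVec (0 : Fin b → F) (J₂ *ᵥ w) = 0 := by
          ext i j; simp [Matrix.vecMulVec_apply]
        rw [this, Matrix.kronecker_zero, Matrix.rank_zero]
        exact Even.zero
      · have hw : w ≠ 0 := by
          rintro rfl
          exact hx (smul_zero c)
        obtain ⟨y, hy⟩ := exists_bf_eq_one J₂ hT.det₂ w hw
        have hy' : (J₂ *ᵥ w) ⬝ᵥ (-y) = 1 := by
          have h1 : bf J₂ (-y) w = 1 := by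
            rw [bf_neg_left, ← bf_swap J₂ hT.alt₂, hy]
          rw [dotProduct_comm]
          exact h1
        rw [rank_one_kron (c • w) (J₂ *ᵥ w) (-y) hx hy']
        exact ha
  · intro u c
    revert c
    apply fam_mem hT hab (fun c => tv J₁ u c ⊗ₖ (1 : Matrix (Fin b) (Fin b) F))
    · intro c
      exact ⟨tv J₁ u c, 1, rfl⟩
    · show tv J₁ u 0 ⊗ₖ (1 : Matrix (Fin b) (Fin b) F) = 1
      rw [tv_zero', Matrix.one_kronecker_one]
    · intro c d
      show tv J₁ u c ⊗ₖ (1 : Matrix (Fin b) (Fin b) F) * tv J₁ u d ⊗ₖ (1 : Matrix (Fin b) (Fin b) F)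
        = tv J₁ u (c + d) ⊗ₖ (1 : Matrix (Fin b) (Fin b) F)
      rw [← Matrix.mul_kronecker_mul, Matrix.one_mul, tv_mul_tv J₁ hT.alt₁]
    · intro c
      show (tv J₁ u c ⊗ₖ (1 : Matrix (Fin b) (Fin b) F))ᵀ * (J₁ ⊗ₖ J₂)
        * tv J₁ u c ⊗ₖ (1 : Matrix (Fin b) (Fin b) F) = J₁ ⊗ₖ J₂
      rw [← Matrix.kroneckerMap_transpose, ← Matrix.mul_kronecker_mul, ← Matrix.mul_kronecker_mul,
        Matrix.transpose_one, Matrix.one_mul, Matrix.mul_one, tv_form J₁ hT.alt₁]
    · intro c v x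
      show Q ((tv J₁ u c ⊗ₖ (1 : Matrix (Fin b) (Fin b) F)) *ᵥ pt v x) = 0
      rw [kron_mulVec_pt]
      exact hT.pure _ _
    · intro c
      show Even ((tv J₁ u c ⊗ₖ (1 : Matrix (Fin b) (Fin b) F)) - 1).rank
      have he : (tv J₁ u c ⊗ₖ (1 : Matrix (Fin b) (Fin b) F)) - 1
          = vecMulVec (c • u) (J₁ *ᵥ u) ⊗ₖ (1 : Matrix (Fin b) (Fin b) F) := by
        rw [tv, Matrix.add_kronecker, Matrix.one_kronecker_one, add_sub_cancel_left, rk,
          Matrix.smul_vecMulVec]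
      rw [he]
      by_cases hx : c • u = 0
      · rw [hx]
        have : vecMulVec (0 : Fin a → F) (J₁ *ᵥ u) = 0 := by
          ext i j; simp [Matrix.vecMulVec_apply]
        rw [this, Matrix.zero_kronecker, Matrix.rank_zero]
        exact Even.zero
      · have hw : u ≠ 0 := by
          rintro rfl
          exact hx (smul_zero c)
        obtain ⟨y, hy⟩ := exists_bf_eq_one J₁ hT.det₁ u hw
        have hy' : (J₁ *ᵥ u) ⬝ᵥ (-y) = 1 := by
          have h1 : bf J₁ (-y) u = 1 := by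
            rw [bf_neg_left, ← bf_swap J₁ hT.alt₁, hy]
          rw [dotProduct_comm]
          exact h1
        rw [rank_kron_one (c • u) (J₁ *ᵥ u) (-y) hx hy']
        exact hb

end Cfsg.Agent.Helper59.T5ROOT
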