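import Mathlib
import Cfsg.Agent.Helper96.T5Defs

/-!
# helper59: Siegel elements `rho G p q` (for CALL S5704, pieces T2B and T2C)

`rho G p q = 1 + rk G p q - rk G q p` acts by `v ↦ v + bf G v q • p - bf G v p • q`.
Additivity, inverses and a commutator identity; the elements `sg J₁ J₂ u x u' x'` of
`Helper96.T5Defs` are `rho (J₁ ⊗ₖ J₂) (pt u x) (pt u' x')`.
-/

set_option autoImplicit false

namespace Cfsg.Agent.Helper59.T5Rho

open Matrix Cfsg.Agent.Helper71.T4 Cfsg.Agent.Helper96.T5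
open scoped Kronecker

variable {F : Type*} [Field F]

section General

variable {ι : Type*} [Fintype ι] [DecidableEq ι]

/-- the Siegel element -/
def rho (G : Matrix ι ι F) (p q : ι → F) : Matrix ι ι F := 1 + rk G p q - rk G q p

theorem rho_mulVec (G : Matrix ι ι F) (p q v : ι → F) :
    rho G p q *ᵥ v = v + bf G v q • p - bf G v p • q := by
  rw [rho, Matrix.sub_mulVec, Matrix.add_mulVec, Matrix.one_mulVec, rk_mulVec, rk_mulVec]

theorem mat_ext_mulVec {Z Z' : Matrix ι ι F} (h : ∀ v : ι → F, Z *ᵥ v = Z' *ᵥ v) : Z = Z' := by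
  apply Matrix.toLin'.injective
  apply LinearMap.ext
  intro v
  rw [Matrix.toLin'_apply, Matrix.toLin'_apply, h v]

theorem rho_zero (G : Matrix ι ι F) (p : ι → F) : rho G p 0 = 1 := by
  apply mat_ext_mulVec
  intro v
  rw [rho_mulVec, bf_zero_right, Matrix.one_mulVec]
  simp

theorem rho_zero_left (G : Matrix ι ι F) (q : ι → F) : rho G 0 q = 1 := by
  apply mat_ext_mulVec
  intro v
  rw [rho_mulVec, bf_zero_right, Matrix.one_mulVec]
  simp

/-- additivity in the second vector -/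
theorem rho_add (G : Matrix ι ι F) (p q q' : ι → F) (hpp : bf G p p = 0) (hpq : bf G p q = 0)
    (hqp : bf G q' p = 0) (hqq : bf G q' q = 0) :
    rho G p q * rho G p q' = rho G p (q + q') := by
  apply mat_ext_mulVec
  intro v
  simp only [← Matrix.mulVec_mulVec, rho_mulVec]
  simp only [bf_add_left, bf_sub_left, bf_smul_left, bf_add_right, hpp, hpq, hqp, hqq, mul_zero,
    add_zero, sub_zero]
  module

/-- the inverse -/
theorem rho_inv (G : Matrix ι ι F) (p q : ι → F) (hpp : bf G p p = 0) (hpq : bf G p q = 0)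
    (hqp : bf G q p = 0) (hqq : bf G q q = 0) :
    rho G p q * rho G p (-q) = 1 := by
  rw [rho_add G p q (-q) hpp hpq (by rw [bf_neg_left, hqp, neg_zero])
    (by rw [bf_neg_left, hqq, neg_zero]), add_neg_cancel, rho_zero]

/-- the commutator identity -/
theorem rho_comm (G : Matrix ι ι F) (hsym : ∀ v v', bf G v v' = bf G v' v)
    (p₁ q₁ p₂ q₂ : ι → F) (β : F)
    (h11 : bf G p₁ p₁ = 0) (h22 : bf G q₁ q₁ = 0) (h33 : bf G p₂ p₂ = 0) (h44 : bf G q₂ q₂ = 0)
    (h12 : bf G p₁ q₁ = 0) (h34 : bf G p₂ q₂ = 0) (h14 : bf G p₁ q₂ = 0) (h23 : bf G q₁ p₂ = 0)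
    (h24 : bf G q₁ q₂ = 0) (h13 : bf G p₁ p₂ = β) :
    rho G p₁ q₁ * rho G p₂ q₂ * rho G p₁ (-q₁) * rho G p₂ (-q₂) = rho G q₁ (-β • q₂) := by
  have h21 : bf G q₁ p₁ = 0 := by rw [hsym]; exact h12
  have h43 : bf G q₂ p₂ = 0 := by rw [hsym]; exact h34
  have h41 : bf G q₂ p₁ = 0 := by rw [hsym]; exact h14
  have h32 : bf G p₂ q₁ = 0 := by rw [hsym]; exact h23
  have h42 : bf G q₂ q₁ = 0 := by rw [hsym]; exact h24
  have h31 : bf G p₂ p₁ = β := by rw [hsym]; exact h13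
  apply mat_ext_mulVec
  intro v
  simp only [← Matrix.mulVec_mulVec, rho_mulVec]
  simp only [bf_add_left, bf_sub_left, bf_smul_left, bf_neg_right, bf_smul_right, bf_neg_left,
    h11, h22, h33, h44, h12, h34, h14, h23, h24, h13, h21, h43, h41, h32, h42, h31, mul_zero,
    add_zero, sub_zero, neg_zero, zero_mul]
  module

end General

section Tensor

variable {a b : ℕ}

theorem rk_kron (J₁ : Matrix (Fin a) (Fin a) F) (J₂ : Matrix (Fin b) (Fin b) F)
    (u u' : Fin a → F) (x x' : Fin b → F) :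
    rk J₁ u u' ⊗ₖ rk J₂ x x' = rk (J₁ ⊗ₖ J₂) (pt u x) (pt u' x') := by
  ext ⟨i, k⟩ ⟨j, l⟩
  simp only [rk, Matrix.kroneckerMap_apply, Matrix.vecMulVec_apply, kron_mulVec_pt, pt]
  ring

theorem sg_eq_rho (J₁ : Matrix (Fin a) (Fin a) F) (J₂ : Matrix (Fin b) (Fin b) F)
    (u : Fin a → F) (x : Fin b → F) (u' : Fin a → F) (x' : Fin b → F) :
    sg J₁ J₂ u x u' x' = rho (J₁ ⊗ₖ J₂) (pt u x) (pt u' x') := by
  rw [sg, rho, rk_kron, rk_kron]

end Tensor

end Cfsg.Agent.Helper59.T5Rho
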