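import Mathlib
import Cfsg.Prelude.Def_GeometricClasses
import Cfsg.Agent.Helper71.T4Defs
import Cfsg.Agent.Helper96.T5Defs
import Cfsg.Agent.Helper59.T5Rho

/-!
# CALL S5704 pieces T2B and T2C (helper59)

From the Siegel elements `sg u x u y` (`bf J₂ x y = 0`) to all `sg u x s w` with `bf J₂ x w = 0`
(T2B) and then to all `sg u x s w` with `bf J₁ u s = 0` (T2C), by commutators.
-/

set_option autoImplicit false
set_option linter.unusedVariables false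

namespace Cfsg.Agent.Helper59.T5T2B

open Matrix Cfsg Cfsg.Geo Cfsg.Agent.Helper71.T4 Cfsg.Agent.Helper96.T5
open Cfsg.Agent.Helper59.T5Rho
open scoped Kronecker

variable {F : Type*} [Field F] {a b : ℕ}

/-- the functional `v ↦ bf J v y` -/
def bfL (J : Matrix (Fin b) (Fin b) F) (y : Fin b → F) : (Fin b → F) →ₗ[F] F where
  toFun := fun v => bf J v y
  map_add' := fun v v' => bf_add_left J v v' y
  map_smul' := fun c v => by simp [bf_smul_left]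

theorem bfL_apply (J : Matrix (Fin b) (Fin b) F) (y v : Fin b → F) : bfL J y v = bf J v y := rfl

/-- nondegeneracy on the right -/
theorem eq_zero_of_bf_right (J : Matrix (Fin b) (Fin b) F) (halt : ∀ x, bf J x x = 0)
    (hdet : J.det ≠ 0) (z : Fin b → F) (h : ∀ v, bf J v z = 0) : z = 0 := by
  by_contra hz
  obtain ⟨y, hy⟩ := exists_bf_eq_one J hdet z hz
  rw [bf_swap J halt, h y, neg_zero] at hy
  exact zero_ne_one hy

/-- two vectors orthogonal to `x` and `w` with non-zero product (`b ≥ 5`) -/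
theorem exists_perp_pair (J : Matrix (Fin b) (Fin b) F) (halt : ∀ x, bf J x x = 0)
    (hdet : J.det ≠ 0) (hb : 5 ≤ b) (x w : Fin b → F) :
    ∃ x₁ x₂ : Fin b → F, bf J x₁ x = 0 ∧ bf J x₁ w = 0 ∧ bf J x₂ x = 0 ∧ bf J x₂ w = 0 ∧
      bf J x₁ x₂ ≠ 0 := by
  classical
  obtain ⟨L', hL'⟩ : ∃ L' : (Fin b → F) →ₗ[F] F × F, L' = (bfL J x).prod (bfL J w) := ⟨_, rfl⟩
  obtain ⟨Φ, hΦ⟩ : ∃ Φ : F × F →ₗ[F] (Fin b → F),
      Φ = (LinearMap.toSpanSingleton F (Fin b → F) x).coprod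
        (LinearMap.toSpanSingleton F (Fin b → F) w) := ⟨_, rfl⟩
  have hker : ∀ v, v ∈ LinearMap.ker L' ↔ bf J v x = 0 ∧ bf J v w = 0 := by
    intro v
    rw [LinearMap.mem_ker, hL', LinearMap.prod_apply]
    show (bfL J x v, bfL J w v) = 0 ↔ _
    rw [Prod.mk_eq_zero, bfL_apply, bfL_apply]
  have h1 := LinearMap.finrank_range_add_finrank_ker L'
  have h2 : Module.finrank F (LinearMap.range L') ≤ 2 := by
    have h := Submodule.finrank_le (LinearMap.range L')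
    rw [Module.finrank_prod, Module.finrank_self] at h
    exact h
  have h3 : Module.finrank F (LinearMap.range Φ) ≤ 2 := by
    have h := LinearMap.finrank_range_le Φ
    rw [Module.finrank_prod, Module.finrank_self] at h
    exact h
  have hV : Module.finrank F (Fin b → F) = b := by simp
  have hnot : ¬ LinearMap.ker L' ≤ LinearMap.range Φ := by
    intro hle
    have h := Submodule.finrank_mono hle
    omega
  obtain ⟨x₁, hx₁, hx₁Φ⟩ := SetLike.not_le_iff_exists.mp hnot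
  have hx₁' := (hker x₁).mp hx₁
  by_contra hcon
  push Not at hcon
  have hall : ∀ x₂ ∈ LinearMap.ker L', bf J x₁ x₂ = 0 := fun x₂ hx₂ =>
    hcon x₁ x₂ hx₁'.1 hx₁'.2 ((hker x₂).mp hx₂).1 ((hker x₂).mp hx₂).2
  -- `bfL J x₁` vanishes on the common kernel
  have hle : ⨅ i : Fin 2, LinearMap.ker ((![bfL J x, bfL J w] : Fin 2 → _) i) ≤
      LinearMap.ker (bfL J x₁) := by
    intro v hv
    rw [Submodule.mem_iInf] at hv
    have hv0 := hv 0
    have hv1 := hv 1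
    simp only [Matrix.cons_val_zero, Matrix.cons_val_one, LinearMap.mem_ker, bfL_apply] at hv0 hv1
    rw [LinearMap.mem_ker, bfL_apply, bf_swap J halt, hall v ((hker v).mpr ⟨hv0, hv1⟩), neg_zero]
  obtain ⟨c, hc⟩ := (Submodule.mem_span_range_iff_exists_fun F).mp (mem_span_of_iInf_ker_le_ker hle)
  rw [Fin.sum_univ_two] at hc
  simp only [Matrix.cons_val_zero, Matrix.cons_val_one] at hc
  apply hx₁Φ
  have hz : x₁ - (c 0 • x + c 1 • w) = 0 := by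
    apply eq_zero_of_bf_right J halt hdet
    intro v
    have h := congrArg (fun f : (Fin b → F) →ₗ[F] F => f v) hc
    simp only [LinearMap.add_apply, LinearMap.smul_apply, bfL_apply, smul_eq_mul] at h
    rw [bf_sub_right, bf_add_right, bf_smul_right, bf_smul_right, h, sub_self]
  refine ⟨(c 0, c 1), ?_⟩
  rw [hΦ, LinearMap.coprod_apply, LinearMap.toSpanSingleton_apply, LinearMap.toSpanSingleton_apply]
  exact (sub_eq_zero.mp hz).symm

variable {J₁ : Matrix (Fin a) (Fin a) F} {J₂ : Matrix (Fin b) (Fin b) F}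
  {Q : (Fin a × Fin b → F) → F}

/-- the tensor form is symmetric -/
theorem tq_sym (hT : TQ J₁ J₂ Q) (v v' : Fin a × Fin b → F) :
    bf (J₁ ⊗ₖ J₂) v v' = bf (J₁ ⊗ₖ J₂) v' v := by
  rw [← hT.polar, ← hT.polar, QuadraticMap.polar_comm]

/-- the commutator step common to T2B and T2C -/
theorem comm_step (hT : TQ J₁ J₂ Q) (M : Subgroup (GL (Fin a × Fin b) F))
    (u₁ u₂ u₃ u₄ : Fin a → F) (x₁ x₂ x₃ x₄ : Fin b → F)
    (hg : InM M (sg J₁ J₂ u₁ x₁ u₂ x₂)) (hh : InM M (sg J₁ J₂ u₃ x₃ u₄ x₄))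
    (h12 : bf J₁ u₁ u₂ * bf J₂ x₁ x₂ = 0) (h34 : bf J₁ u₃ u₄ * bf J₂ x₃ x₄ = 0)
    (h14 : bf J₁ u₁ u₄ * bf J₂ x₁ x₄ = 0) (h23 : bf J₁ u₂ u₃ * bf J₂ x₂ x₃ = 0)
    (h24 : bf J₁ u₂ u₄ * bf J₂ x₂ x₄ = 0) (h13 : bf J₁ u₁ u₃ * bf J₂ x₁ x₃ = -1) :
    InM M (sg J₁ J₂ u₂ x₂ u₄ x₄) := by
  have hsym := tq_sym hT
  have hpp : ∀ (u : Fin a → F) (x : Fin b → F), bf (J₁ ⊗ₖ J₂) (pt u x) (pt u x) = 0 := by
    intro u x
    rw [bf_kron_pt, hT.alt₁, zero_mul]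
  rw [sg_eq_rho] at hg hh ⊢
  have e12 : bf (J₁ ⊗ₖ J₂) (pt u₁ x₁) (pt u₂ x₂) = 0 := by rw [bf_kron_pt]; exact h12
  have e34 : bf (J₁ ⊗ₖ J₂) (pt u₃ x₃) (pt u₄ x₄) = 0 := by rw [bf_kron_pt]; exact h34
  have hg' : InM M (rho (J₁ ⊗ₖ J₂) (pt u₁ x₁) (-pt u₂ x₂)) :=
    hg.inv (rho_inv _ _ _ (hpp _ _) e12 (by rw [hsym]; exact e12) (hpp _ _))
  have hh' : InM M (rho (J₁ ⊗ₖ J₂) (pt u₃ x₃) (-pt u₄ x₄)) :=
    hh.inv (rho_inv _ _ _ (hpp _ _) e34 (by rw [hsym]; exact e34) (hpp _ _))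
  have hprod := ((hg.mul hh).mul hg').mul hh'
  rw [rho_comm (J₁ ⊗ₖ J₂) hsym (pt u₁ x₁) (pt u₂ x₂) (pt u₃ x₃) (pt u₄ x₄) (-1)
    (hpp _ _) (hpp _ _) (hpp _ _) (hpp _ _) e12 e34
    (by rw [bf_kron_pt]; exact h14) (by rw [bf_kron_pt]; exact h23)
    (by rw [bf_kron_pt]; exact h24) (by rw [bf_kron_pt]; exact h13)] at hprod
  simpa using hprod

/-- PIECE T2B -/
theorem t2b (hT : TQ J₁ J₂ Q) (hb : 5 ≤ b) (M : Subgroup (GL (Fin a × Fin b) F))
    (hA : ∀ (u : Fin a → F) (x y : Fin b → F), bf J₂ x y = 0 → InM M (sg J₁ J₂ u x u y)) :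
    ∀ (u s : Fin a → F) (x w : Fin b → F), bf J₂ x w = 0 → InM M (sg J₁ J₂ u x s w) := by
  -- first the case `bf J₁ u s ≠ 0`
  have key : ∀ (u s : Fin a → F) (x w : Fin b → F), bf J₂ x w = 0 → bf J₁ u s ≠ 0 →
      InM M (sg J₁ J₂ u x s w) := by
    intro u s x w hxw hus
    obtain ⟨x₁, x₂, h1x, h1w, h2x, h2w, h12⟩ := exists_perp_pair J₂ hT.alt₂ hT.det₂ hb x w
    obtain ⟨t, ht⟩ : ∃ t : F, t = -(bf J₁ u s * bf J₂ x₁ x₂)⁻¹ := ⟨_, rfl⟩
    have hne : bf J₁ u s * bf J₂ x₁ x₂ ≠ 0 := mul_ne_zero hus h12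
    refine comm_step hT M u u s s (t • x₁) x x₂ w
      (hA u (t • x₁) x (by rw [bf_smul_left, h1x, mul_zero])) (hA s x₂ w h2w) ?_ ?_ ?_ ?_ ?_ ?_
    · rw [hT.alt₁, zero_mul]
    · rw [hT.alt₁, zero_mul]
    · rw [bf_smul_left, h1w, mul_zero, mul_zero]
    · rw [bf_swap J₂ hT.alt₂ x x₂, h2x, neg_zero, mul_zero]
    · rw [hxw, mul_zero]
    · rw [bf_smul_left, ht]
      field_simp
  intro u s x w hxw
  by_cases hus : bf J₁ u s = 0
  · by_cases hu : u = 0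
    · rw [hu, sg_eq_rho, pt_zero_left, rho_zero_left]
      exact InM.one M
    · obtain ⟨m, hm⟩ := exists_bf_eq_one J₁ hT.det₁ u hu
      have h1 := key u (s + m) x w hxw (by rw [bf_add_right, hus, hm, zero_add]; exact one_ne_zero)
      have h2 := key u (-m) x w hxw (by rw [bf_neg_right, hm]; exact neg_ne_zero.mpr one_ne_zero)
      have h3 := h1.mul h2
      rw [sg_eq_rho, sg_eq_rho, rho_add] at h3
      · rw [sg_eq_rho]
        have e : pt (s + m) w + pt (-m) w = pt s w := by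
          rw [← pt_add_left]
          congr 1
          abel
        rw [e] at h3
        exact h3
      · rw [bf_kron_pt, hT.alt₁, zero_mul]
      · rw [bf_kron_pt, hxw, mul_zero]
      · rw [bf_kron_pt, bf_swap J₂ hT.alt₂ w x, hxw, neg_zero, mul_zero]
      · rw [bf_kron_pt, hT.alt₂, mul_zero]
  · exact key u s x w hxw hus

/-- PIECE T2C -/
theorem t2c (hT : TQ J₁ J₂ Q) (hb : 5 ≤ b) (M : Subgroup (GL (Fin a × Fin b) F))
    (hB : ∀ (u s : Fin a → F) (x w : Fin b → F), bf J₂ x w = 0 → InM M (sg J₁ J₂ u x s w)) :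
    ∀ (u s : Fin a → F) (x w : Fin b → F), bf J₁ u s = 0 → InM M (sg J₁ J₂ u x s w) := by
  intro u s x w hus
  by_cases hs : s = 0
  · rw [hs, sg_eq_rho, pt_zero_left, rho_zero]
    exact InM.one M
  obtain ⟨y, hy⟩ := exists_bf_eq_one J₁ hT.det₁ s hs
  obtain ⟨w₁, w₂, h1x, h1w, h2x, h2w, h12⟩ := exists_perp_pair J₂ hT.alt₂ hT.det₂ hb x w
  obtain ⟨t, ht⟩ : ∃ t : F, t = -(bf J₂ w₁ w₂)⁻¹ := ⟨_, rfl⟩
  refine comm_step hT M s u y s (t • w₁) x w₂ w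
    (hB s u (t • w₁) x (by rw [bf_smul_left, h1x, mul_zero])) (hB y s w₂ w h2w) ?_ ?_ ?_ ?_ ?_ ?_
  · rw [bf_smul_left, h1x, mul_zero, mul_zero]
  · rw [h2w, mul_zero]
  · rw [hT.alt₁, zero_mul]
  · rw [bf_swap J₂ hT.alt₂ x w₂, h2x, neg_zero, mul_zero]
  · rw [hus, zero_mul]
  · rw [hy, one_mul, bf_smul_left, ht]
    field_simp

end Cfsg.Agent.Helper59.T5T2B
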