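import Mathlib
import Cfsg.Prelude.Def_GeometricClasses
import Cfsg.Agent.Helper71.T4Defs
import Cfsg.Agent.Helper96.T5Defs
import Cfsg.Agent.Helper59.T5T2B

/-!
# CALL S5704 piece T2C (helper59): the proof is in `Cfsg.Agent.Helper59.T5T2B`.
-/

set_option autoImplicit false
set_option linter.unusedVariables false

namespace Cfsg.Agent.Helper59.T5T2C

open Matrix Cfsg Cfsg.Geo Cfsg.Agent.Helper71.T4 Cfsg.Agent.Helper96.T5
open scoped Kronecker

variable {F : Type*} [Field F] {a b : ℕ}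

variable {J₁ : Matrix (Fin a) (Fin a) F} {J₂ : Matrix (Fin b) (Fin b) F}
  {Q : (Fin a × Fin b → F) → F}

/-- PIECE T2C -/
theorem t2c (hT : TQ J₁ J₂ Q) (hb : 5 ≤ b) (M : Subgroup (GL (Fin a × Fin b) F))
    (hB : ∀ (u s : Fin a → F) (x w : Fin b → F), bf J₂ x w = 0 → InM M (sg J₁ J₂ u x s w)) :
    ∀ (u s : Fin a → F) (x w : Fin b → F), bf J₁ u s = 0 → InM M (sg J₁ J₂ u x s w) :=
  Cfsg.Agent.Helper59.T5T2B.t2c hT hb M hB

end Cfsg.Agent.Helper59.T5T2C
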