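import Mathlib
import Cfsg.Agent.Helper48.TSCDefs

/-!
# SUB-CALL TSC piece DIV (helper59): the divisibility step (pure `ℕ`)
-/

set_option autoImplicit false

namespace Cfsg.Agent.Helper59.TSC

open Module Cfsg Cfsg.Geo Cfsg.Agent.Helper58.TS
open Cfsg.Agent.Helper43 Cfsg.Agent.Helper43.OrthEven Cfsg.Agent.Helper48.TSC

/-- DIV (pure Nat). `∏ (q^m - q^j) = ∏ q^j * ∏ (q^(m-j) - 1)`; cancel `∏ q^j > 0`:
`N * ∏ (q^(m-j) - 1) = ∏ A j * B j`, prime to `p`, so `r ≠ p`; then `r ∣ ∏ q^j (A j B j)` and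
`r ∤ q`. -/
theorem tsc_div (q p r N m : ℕ) (A B : ℕ → ℕ) (hp : p.Prime) (hr : r.Prime) (hq0 : 0 < q)
    (hqp : ∀ s : ℕ, s.Prime → s ∣ q → s = p)
    (hA : ∀ j, j < m → ¬ p ∣ A j) (hB : ∀ j, j < m → ¬ p ∣ B j)
    (h : N * ∏ j ∈ Finset.range m, (q ^ m - q ^ j) =
      ∏ j ∈ Finset.range m, (q ^ j * (A j * B j)))
    (hrN : r ∣ N) :
    r ≠ p ∧ ∃ j, j < m ∧ (r ∣ A j ∨ r ∣ B j) := by
  have hsplit : ∀ j ∈ Finset.range m, q ^ m - q ^ j = q ^ j * (q ^ (m - j) - 1) := by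
    intro j hj
    have hjm : j < m := Finset.mem_range.mp hj
    have h1 : q ^ m = q ^ j * q ^ (m - j) := by
      rw [← pow_add]
      congr 1
      omega
    rw [h1, Nat.mul_sub, mul_one]
  rw [Finset.prod_congr rfl hsplit, Finset.prod_mul_distrib, Finset.prod_mul_distrib] at h
  have hP : 0 < ∏ j ∈ Finset.range m, q ^ j := Finset.prod_pos (fun j _ => pow_pos hq0 j)
  have h' : N * ∏ j ∈ Finset.range m, (q ^ (m - j) - 1) = ∏ j ∈ Finset.range m, (A j * B j) := by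
    apply Nat.eq_of_mul_eq_mul_left hP
    rw [← h]
    ring
  have key : ∀ s : ℕ, s.Prime → s ∣ N → ∃ j, j < m ∧ (s ∣ A j ∨ s ∣ B j) := by
    intro s hs hsN
    have h1 : s ∣ ∏ j ∈ Finset.range m, (A j * B j) := by
      rw [← h']
      exact Dvd.dvd.mul_right hsN _
    obtain ⟨j, hj, hd⟩ := (Prime.dvd_finsetProd_iff hs.prime _).mp h1
    exact ⟨j, Finset.mem_range.mp hj, (Nat.Prime.dvd_mul hs).mp hd⟩
  refine ⟨?_, key r hr hrN⟩
  rintro rfl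
  obtain ⟨j, hj, h1 | h1⟩ := key r hr hrN
  · exact hA j hj h1
  · exact hB j hj h1

end Cfsg.Agent.Helper59.TSC
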