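import Mathlib
import Cfsg.Agent.Helper48.TSCDefs

/-!
# SUB-CALL TSC piece KER (helper59): the common kernel of the polar functionals of a linearly
independent family
-/

set_option autoImplicit false

namespace Cfsg.Agent.Helper59.TSC

open Module Cfsg Cfsg.Geo Cfsg.Agent.Helper58.TS
open Cfsg.Agent.Helper43 Cfsg.Agent.Helper43.OrthEven Cfsg.Agent.Helper48.TSC

/-- KER. The common kernel of the functionals `polar · (u a)` of a linearly independent family
has `q^(n - k)` elements (`n = dim V`). -/
theorem tsc_ker {F : Type*} [Field F] [Fintype F] {V : Type*} [AddCommGroup V] [Module F V]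
    [FiniteDimensional F V] (Q : QuadraticForm F V) (hQ : PolarNondeg Q) (k : ℕ) (u : Fin k → V)
    (hli : LinearIndependent F u) :
    Nat.card {x : V // ∀ a, QuadraticMap.polar Q x (u a) = 0} =
      Fintype.card F ^ (finrank F V - k) := by
  classical
  have hnd : (QuadraticMap.polarBilin Q).Nondegenerate :=
    ⟨fun v hv => hQ v hv, fun v hv => hQ v (fun w => by
      rw [QuadraticMap.polar_comm]; exact hv w)⟩
  have hset : ∀ x : V, (∀ a, QuadraticMap.polar Q x (u a) = 0) ↔
      x ∈ LinearMap.BilinForm.orthogonal (QuadraticMap.polarBilin Q) (Submodule.span F (Set.range u)) := by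
    intro x
    rw [LinearMap.BilinForm.mem_orthogonal_iff]
    constructor
    · intro h n hn
      refine Submodule.span_induction ?_ ?_ ?_ ?_ hn
      · rintro _ ⟨a, rfl⟩
        show QuadraticMap.polar Q (u a) x = 0
        rw [QuadraticMap.polar_comm]
        exact h a
      · simp
      · intro y z _ _ hy hz
        rw [map_add, LinearMap.add_apply, hy, hz, add_zero]
      · intro c y _ hy
        rw [map_smul, LinearMap.smul_apply, hy, smul_zero]
    · intro h a
      have h1 := h (u a) (Submodule.subset_span (Set.mem_range_self a))
      rw [QuadraticMap.polar_comm]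
      exact h1
  have hcard : Nat.card {x : V // ∀ a, QuadraticMap.polar Q x (u a) = 0} =
      Nat.card ↥(LinearMap.BilinForm.orthogonal (QuadraticMap.polarBilin Q) (Submodule.span F (Set.range u))) :=
    Nat.card_congr (Equiv.subtypeEquivRight hset)
  rw [hcard, Module.natCard_eq_pow_finrank (K := F), LinearMap.BilinForm.finrank_orthogonal hnd,
    Nat.card_eq_fintype_card, finrank_span_eq_card hli, Fintype.card_fin]

end Cfsg.Agent.Helper59.TSC
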