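import Mathlib
import Cfsg.Prelude.Def_GeometricClasses
import Cfsg.Agent.Helper90.UFRDefs
import Cfsg.Agent.Helper90.UFRBase
import Cfsg.Agent.Helper80.SFRCount

/-!
# Helper59: core of PIECE BADE1U of CALL S5982 (helper90): a homology `diag(μ, …, μ, μζ)` is not
conjugate into the unitary similarity group; the piece NECU is a hypothesis here.
-/

set_option autoImplicit false
set_option linter.unusedVariables false

namespace Cfsg.Agent.Helper59

open Module Polynomial Cfsg.Agent.Helper90.UFR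

section fin
variable {F : Type*} [Field F] [Fintype F]

theorem bad_homology_u_core (q₀ : ℕ) (hq : Fintype.card F = q₀ ^ 2) (r : ℕ) [Fact r.Prime]
    (hr2 : r ≠ 2) (hr : r ∣ q₀ - 1) (n : ℕ) (hn : 3 ≤ n)
    (hv : padicValNat r n < padicValNat r (Fintype.card F - 1))
    (f : (Fin n → F) → (Fin n → F) → F)
    (hnec : ∀ (x : GL (Fin n) F) (d : Fin n → F),
      (x : Matrix (Fin n) (Fin n) F) = Matrix.diagonal d → IsConjU f x →
      ∃ c : F, c ≠ 0 ∧ (Finset.univ.val.map fun i : Fin n => (d i) ^ q₀)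
        = Finset.univ.val.map fun i : Fin n => c * (d i)⁻¹) : IsBadU f r := by
  classical
  have hrp : r.Prime := Fact.out
  obtain ⟨μ, ζ, hμ0, hζr, hζ1, hμζ⟩ :=
    Cfsg.Agent.Helper80.SFRCount.sfr_exists_mu_zeta (F := F) r n (by omega) hv
  have hζ0 : ζ ≠ 0 := by
    rintro rfl
    rw [zero_pow hrp.ne_zero] at hζr
    exact zero_ne_one hζr
  have hq₀ : 0 < q₀ := by
    rcases Nat.eq_zero_or_pos q₀ with h | h
    · rw [h] at hq
      have : 0 < Fintype.card F := Fintype.card_pos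
      omega
    · exact h
  -- `ζ ^ q₀ = ζ`
  have hζq : ζ ^ q₀ = ζ := by
    obtain ⟨k, hk⟩ := hr
    have h1 : ζ ^ (q₀ - 1) = 1 := by rw [hk, pow_mul, hζr, one_pow]
    calc ζ ^ q₀ = ζ ^ (q₀ - 1 + 1) := by rw [Nat.sub_add_cancel hq₀]
      _ = ζ := by rw [pow_succ, h1, one_mul]
  -- `ζ⁻¹ ≠ ζ`
  have hζinv : ζ⁻¹ ≠ ζ := by
    intro h
    have h2 : ζ ^ 2 = 1 := by
      rw [pow_two]
      nth_rewrite 1 [← h]
      exact inv_mul_cancel₀ hζ0
    obtain ⟨k, hk⟩ := hrp.odd_of_ne_two hr2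
    have : ζ = 1 := by
      have h3 : ζ ^ r = ζ := by rw [hk, pow_succ, pow_mul, h2, one_pow, one_mul]
      rw [hζr] at h3
      exact h3.symm
    exact hζ1 this
  obtain ⟨i₀, hi₀⟩ : ∃ i₀ : Fin n, i₀ = ⟨0, by omega⟩ := ⟨_, rfl⟩
  obtain ⟨i₁, hi₁⟩ : ∃ i₁ : Fin n, i₁ = ⟨1, by omega⟩ := ⟨_, rfl⟩
  obtain ⟨i₂, hi₂⟩ : ∃ i₂ : Fin n, i₂ = ⟨2, by omega⟩ := ⟨_, rfl⟩
  have hi₁₀ : i₁ ≠ i₀ := by
    rw [hi₀, hi₁]
    intro h
    have := congrArg Fin.val h
    simp at this
  have hi₂₀ : i₂ ≠ i₀ := by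
    rw [hi₀, hi₂]
    intro h
    have := congrArg Fin.val h
    simp at this
  have hi₂₁ : i₂ ≠ i₁ := by
    rw [hi₁, hi₂]
    intro h
    have := congrArg Fin.val h
    simp at this
  obtain ⟨d, hd⟩ : ∃ d : Fin n → F, d = fun i => μ * (if i = i₀ then ζ else 1) := ⟨_, rfl⟩
  have hdet : (Matrix.diagonal d).det = 1 := by
    rw [Matrix.det_diagonal, hd, Finset.prod_mul_distrib, Finset.prod_const, Finset.card_univ,
      Fintype.card_fin, Finset.prod_ite_eq' Finset.univ i₀ (fun _ => ζ)]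
    simpa using hμζ
  have hdu : IsUnit (Matrix.diagonal d).det := by
    rw [hdet]
    exact isUnit_one
  obtain ⟨x, hx⟩ : ∃ x : GL (Fin n) F, (x : Matrix (Fin n) (Fin n) F) = Matrix.diagonal d :=
    ⟨Matrix.nonsingInvUnit (Matrix.diagonal d) hdu, rfl⟩
  have hxS : x ∈ Cfsg.Geo.specialLinear (Fin n) F := by
    rw [Cfsg.Geo.specialLinear, MonoidHom.mem_ker]
    apply Units.ext
    rw [Matrix.GeneralLinearGroup.val_det_apply, hx, hdet]
    rfl
  refine ⟨x, hxS, ⟨μ ^ r, ?_⟩, ?_, ?_⟩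
  · rw [Units.val_pow_eq_pow_val, hx, Matrix.diagonal_pow, Matrix.smul_one_eq_diagonal]
    congr 1
    funext i
    rw [hd]
    simp only [Pi.pow_apply, mul_pow]
    by_cases hi : i = i₀
    · rw [if_pos hi, hζr, mul_one]
    · rw [if_neg hi, one_pow, mul_one]
  · intro z hz
    have hz' : Matrix.diagonal d = z • (1 : Matrix (Fin n) (Fin n) F) := by rw [← hx]; exact hz
    have e0 := congrFun (congrFun hz' i₀) i₀
    have e1 := congrFun (congrFun hz' i₁) i₁
    simp only [Matrix.diagonal_apply_eq, Matrix.smul_apply, Matrix.one_apply_eq, smul_eq_mul,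
      mul_one] at e0 e1
    rw [hd] at e0 e1
    simp only [if_true, if_neg hi₁₀, mul_one] at e0 e1
    rw [← e1] at e0
    exact hζ1 (mul_left_cancel₀ hμ0 (by rw [e0, mul_one]))
  · intro hconj
    obtain ⟨c, hc, hM⟩ := hnec x d hx hconj
    have hcount := Cfsg.Agent.Helper80.SFRCount.sfr_count_eq (fun i : Fin n => c * (d i)⁻¹)
      (fun i => (d i) ^ q₀) hM
    -- the two multisets
    have hA : ∀ i, (d i) ^ q₀ = if i = i₀ then μ ^ q₀ * ζ else μ ^ q₀ := by
      intro i
      rw [hd]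
      by_cases hi : i = i₀
      · simp only [if_pos hi]
        rw [mul_pow, hζq]
      · simp only [if_neg hi]
        rw [mul_one]
    have hB : ∀ i, c * (d i)⁻¹ = if i = i₀ then c * μ⁻¹ * ζ⁻¹ else c * μ⁻¹ := by
      intro i
      rw [hd]
      by_cases hi : i = i₀
      · simp only [if_pos hi]
        rw [mul_inv, mul_assoc]
      · simp only [if_neg hi]
        rw [mul_one]
    have hA0 : μ ^ q₀ ≠ 0 := pow_ne_zero _ hμ0
    have hB0 : c * μ⁻¹ ≠ 0 := mul_ne_zero hc (inv_ne_zero hμ0)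
    -- step 1: `μ ^ q₀ = c * μ⁻¹`
    have h1 : μ ^ q₀ = c * μ⁻¹ := by
      by_contra hne
      have hge : 2 ≤ (Finset.univ.filter fun i : Fin n => (d i) ^ q₀ = μ ^ q₀).card := by
        have hsub : ({i₁, i₂} : Finset (Fin n)) ⊆
            Finset.univ.filter (fun i : Fin n => (d i) ^ q₀ = μ ^ q₀) := by
          intro i hi
          rw [Finset.mem_insert, Finset.mem_singleton] at hi
          rw [Finset.mem_filter, hA]
          rcases hi with rfl | rfl
          · rw [if_neg hi₁₀]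
            exact ⟨Finset.mem_univ _, rfl⟩
          · rw [if_neg hi₂₀]
            exact ⟨Finset.mem_univ _, rfl⟩
        have := Finset.card_le_card hsub
        rwa [Finset.card_pair hi₂₁.symm] at this
      have hle : (Finset.univ.filter fun i : Fin n => c * (d i)⁻¹ = μ ^ q₀).card ≤ 1 := by
        have hsub : Finset.univ.filter (fun i : Fin n => c * (d i)⁻¹ = μ ^ q₀) ⊆ {i₀} := by
          intro i hi
          rw [Finset.mem_filter] at hi
          rw [Finset.mem_singleton]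
          by_contra hi0
          rw [hB, if_neg hi0] at hi
          exact hne hi.2.symm
        simpa using Finset.card_le_card hsub
      rw [hcount] at hge
      omega
    -- step 2
    have hpos : 0 < (Finset.univ.filter fun i : Fin n => (d i) ^ q₀ = μ ^ q₀ * ζ).card := by
      apply Finset.card_pos.mpr
      refine ⟨i₀, ?_⟩
      rw [Finset.mem_filter, hA, if_pos rfl]
      exact ⟨Finset.mem_univ _, rfl⟩
    rw [hcount] at hpos
    obtain ⟨i, hi⟩ := Finset.card_pos.mp hpos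
    rw [Finset.mem_filter, hB] at hi
    by_cases hi0 : i = i₀
    · rw [if_pos hi0, ← h1] at hi
      exact hζinv (mul_left_cancel₀ hA0 hi.2)
    · rw [if_neg hi0, ← h1] at hi
      have : ζ = 1 := (mul_left_cancel₀ hA0 (by rw [mul_one]; exact hi.2)).symm
      exact hζ1 this

end fin

end Cfsg.Agent.Helper59
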