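import Mathlib
import Cfsg.Prelude.Def_GeometricClasses
import Cfsg.Agent.Helper90.UFRDefs
import Cfsg.Agent.Helper90.UFRBase
import Cfsg.Agent.Helper59.UFRBADE1UCore

/-!
# S5982, piece BADE1U (helper59): `bad_homology_u`, from the core
(`Cfsg.Agent.Helper59.bad_homology_u_core`) and a self-contained copy of piece NECU
(`Cfsg.Agent.Helper59.necu59`: a diagonal element conjugate into the unitary similarity group has
eigenvalue multiset stable under `t ↦ c * (t ^ q₀)⁻¹`).
-/

set_option autoImplicit false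

namespace Cfsg.Agent.Helper59

open Module Polynomial Cfsg.Agent.Helper90.UFR

section fin
variable {F : Type*} [Field F] [Fintype F]

/-- a self-contained copy of piece NECU of CALL S5982. -/
theorem necu59 (q₀ : ℕ) (hq : Fintype.card F = q₀ ^ 2) (n : ℕ)
    (f : (Fin n → F) → (Fin n → F) → F) (hf : Cfsg.Geo.IsUnitaryFormPow q₀ f)
    (x : GL (Fin n) F) (d : Fin n → F)
    (hx : (x : Matrix (Fin n) (Fin n) F) = Matrix.diagonal d) (h : IsConjU f x) :
    ∃ c : F, c ≠ 0 ∧ (Finset.univ.val.map fun i : Fin n => (d i) ^ q₀)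
      = Finset.univ.val.map fun i : Fin n => c * (d i)⁻¹ := by
  classical
  obtain ⟨σ, J, hσ, hσσ, hJdet, hJt, hsim⟩ := ufr_setup q₀ hq n f hf
  obtain ⟨g, _, hgsim⟩ := h
  obtain ⟨c, hc, hcJ⟩ := (hsim _).1 hgsim
  refine ⟨c, hc, ?_⟩
  have hd : ∀ i, d i ≠ 0 := by
    intro i hi
    have h1 : (x : Matrix (Fin n) (Fin n) F).det = ∏ i, d i := by rw [hx, Matrix.det_diagonal]
    have h2 : (x : Matrix (Fin n) (Fin n) F).det ≠ 0 := by
      have h3 : (x : Matrix (Fin n) (Fin n) F) * ((x⁻¹ : GL (Fin n) F) : Matrix (Fin n) (Fin n) F)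
          = 1 := by
        rw [← Units.val_mul, mul_inv_cancel, Units.val_one]
      intro h0
      have h4 := congrArg Matrix.det h3
      rw [Matrix.det_mul, h0, zero_mul, Matrix.det_one] at h4
      exact zero_ne_one h4
    rw [h1] at h2
    exact h2 (Finset.prod_eq_zero (Finset.mem_univ i) hi)
  have hxinv : ((x⁻¹ : GL (Fin n) F) : Matrix (Fin n) (Fin n) F)
      = Matrix.diagonal (fun i => (d i)⁻¹) := by
    have h1 : (x : Matrix (Fin n) (Fin n) F) * Matrix.diagonal (fun i => (d i)⁻¹) = 1 := by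
      rw [hx, Matrix.diagonal_mul_diagonal]
      have h2 : (fun i => d i * (d i)⁻¹) = fun _ => (1 : F) := by
        ext i
        exact mul_inv_cancel₀ (hd i)
      rw [h2, Matrix.diagonal_one]
    calc ((x⁻¹ : GL (Fin n) F) : Matrix (Fin n) (Fin n) F)
        = ((x⁻¹ : GL (Fin n) F) : Matrix (Fin n) (Fin n) F)
          * ((x : Matrix (Fin n) (Fin n) F) * Matrix.diagonal (fun i => (d i)⁻¹)) := by
          rw [h1, mul_one]
      _ = Matrix.diagonal (fun i => (d i)⁻¹) := by
          rw [← mul_assoc, ← Units.val_mul, inv_mul_cancel, Units.val_one, one_mul]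
  obtain ⟨M, hM⟩ : ∃ M : Matrix (Fin n) (Fin n) F,
      M = ((g⁻¹ * x * g : GL (Fin n) F) : Matrix (Fin n) (Fin n) F) := ⟨_, rfl⟩
  obtain ⟨N, hN⟩ : ∃ N : Matrix (Fin n) (Fin n) F,
      N = ((g⁻¹ * x⁻¹ * g : GL (Fin n) F) : Matrix (Fin n) (Fin n) F) := ⟨_, rfl⟩
  rw [← hM] at hcJ
  have hMN : M * N = 1 := by
    rw [hM, hN, ← Units.val_mul]
    have h1 : (g⁻¹ * x * g) * (g⁻¹ * x⁻¹ * g) = 1 := by group
    rw [h1, Units.val_one]
  have hgg : (g : Matrix (Fin n) (Fin n) F) * ((g⁻¹ : GL (Fin n) F) : Matrix (Fin n) (Fin n) F)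
      = 1 := by
    rw [← Units.val_mul, mul_inv_cancel, Units.val_one]
  have hcharM : M.charpoly = ∏ i, (X - C (d i)) := by
    rw [hM, Units.val_mul, Units.val_mul, hx, mul_assoc, Matrix.charpoly_mul_comm, mul_assoc,
      hgg, mul_one, Matrix.charpoly_diagonal]
  have hcharN : (c • N).charpoly = ∏ i, (X - C (c * (d i)⁻¹)) := by
    have h1 : c • N = ((g⁻¹ : GL (Fin n) F) : Matrix (Fin n) (Fin n) F)
        * Matrix.diagonal (fun i => c * (d i)⁻¹) * (g : Matrix (Fin n) (Fin n) F) := by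
      have h7 : Matrix.diagonal (fun i => c * (d i)⁻¹) = c • Matrix.diagonal (fun i => (d i)⁻¹) :=
        Matrix.diagonal_smul c (fun i => (d i)⁻¹)
      rw [hN, Units.val_mul, Units.val_mul, hxinv, h7, Matrix.mul_smul, Matrix.smul_mul]
    rw [h1, mul_assoc, Matrix.charpoly_mul_comm, mul_assoc, hgg, mul_one,
      Matrix.charpoly_diagonal]
  have hkey : J * M.map σ = (c • N.transpose) * J := by
    have h1 : N.transpose * (M.transpose * J * M.map σ) = N.transpose * (c • J) := by rw [hcJ]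
    rw [← mul_assoc, ← mul_assoc, ← Matrix.transpose_mul, hMN, Matrix.transpose_one, one_mul]
      at h1
    rw [h1, Matrix.mul_smul, Matrix.smul_mul]
  have hJunit : IsUnit J.det := isUnit_iff_ne_zero.mpr hJdet
  have h2 : (M.map σ).charpoly = (c • N).charpoly := by
    have h3 : M.map σ = J⁻¹ * ((c • N.transpose) * J) := by
      rw [← hkey, ← mul_assoc, Matrix.nonsing_inv_mul _ hJunit, one_mul]
    have h4 : c • N.transpose = (c • N).transpose := (Matrix.transpose_smul c N).symm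
    rw [h3, Matrix.charpoly_mul_comm, mul_assoc, Matrix.mul_nonsing_inv _ hJunit, mul_one, h4,
      Matrix.charpoly_transpose]
  have h5 : (M.map σ).charpoly = M.charpoly.map (σ : F →+* F) :=
    Matrix.charpoly_map M (σ : F →+* F)
  rw [h5, hcharM, hcharN, Polynomial.map_prod] at h2
  have h3 : ∏ i : Fin n, (X - C ((d i) ^ q₀)) = ∏ i : Fin n, (X - C (c * (d i)⁻¹)) := by
    rw [← h2]
    apply Finset.prod_congr rfl
    intro i _
    rw [Polynomial.map_sub, Polynomial.map_X, Polynomial.map_C]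
    congr 2
    exact (hσ (d i)).symm
  have h4 : ∀ a : Fin n → F, (∏ i : Fin n, (X - C (a i))).roots = Finset.univ.val.map a := by
    intro a
    have h5 : (fun i => X - C (a i)) = (fun t : F => X - C t) ∘ a := rfl
    rw [Finset.prod_eq_multiset_prod, h5, ← Multiset.map_map,
      Polynomial.roots_multiset_prod_X_sub_C]
  have h6 := congrArg Polynomial.roots h3
  rw [h4, h4] at h6
  exact h6

/-! ## PIECE BADE1U -/
theorem bad_homology_u (q₀ : ℕ) (hq : Fintype.card F = q₀ ^ 2) (r : ℕ) [Fact r.Prime]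
    (hr2 : r ≠ 2) (hr : r ∣ q₀ - 1) (n : ℕ) (hn : 3 ≤ n)
    (hv : padicValNat r n < padicValNat r (Fintype.card F - 1))
    (f : (Fin n → F) → (Fin n → F) → F) (hf : Cfsg.Geo.IsUnitaryFormPow q₀ f) : IsBadU f r :=
  bad_homology_u_core q₀ hq r hr2 hr n hn hv f
    (fun x d hx h => necu59 q₀ hq n f hf x d hx h)

end fin

end Cfsg.Agent.Helper59
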